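import Cfsg.Agent.H5.GoingDown

/-! Berger's theorem: quasi-primitive characters of solvable groups are primitive. -/

set_option autoImplicit false

open scoped ComplexConjugate

namespace Cfsg.H5

open Cfsg Cfsg.H4

universe u v

variable {G : Type u} [Group G]

theorem eq_of_constituent_of_indFun [Fintype G] {L H : Subgroup G} [Fintype L] (hLH : L ≤ H)
    {ϑ : H → ℂ} (hind : IsIrrCharacter G (indFun H ϑ)) (hϑ : IsCharacter H ϑ) {φ φ' : L → ℂ}
    (hφ : IsIrrCharacter L φ) (hφ' : IsIrrCharacter L φ') {c : ℂ}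
    (hc : (fun n : L => indFun H ϑ n) = c • φ')
    (h : classInner (fun x : L => ϑ ⟨x, hLH x.2⟩) φ ≠ 0) : φ' = φ := by
  have := Fintype.ofFinite H
  have h1 : IsCharacter H ((fun x : H => indFun H ϑ x) - ϑ) := by
    refine (hind.isCharacter.restrict H).sub_irr (hϑ.isIrr_of_indFun hind) ?_
    rw [← classInner_indFun_right _ hind.isClassFunction, hind.classInner_self]
    exact one_ne_zero
  have h2 := classInner_ne_zero_of_sub (χ := fun n : L => indFun H ϑ n) (hϑ.restrict_of_le hLH)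
    (h1.restrict_of_le hLH) hφ.isCharacter h
  rw [hc, classInner_smul_left] at h2
  exact hφ'.eq_of_classInner_ne_zero hφ (right_ne_zero_of_mul h2)

theorem inf_le_normalCore_of_comm {H K M : Subgroup G} (hHK : ∀ g : G, ∃ k ∈ K, ∃ h ∈ H, g = k * h)
    [K.Normal] (hc : ∀ m ∈ M, ∀ k ∈ K, k * m * k⁻¹ * m⁻¹ ∈ H) [hM : M.Normal] :
    H ⊓ M ≤ H.normalCore := by
  intro m hm g
  obtain ⟨k, hk, h, hh, rfl⟩ := hHK g
  have h1 := mul_mem (hc _ (hM.conj_mem m hm.2 h) k hk) (mul_mem (mul_mem hh hm.1) (inv_mem hh))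
  convert h1 using 1
  group

theorem exists_factor_of_coatom {H M : Subgroup G} (hmax : IsCoatom H) [M.Normal]
    (hM : ¬ M ≤ H) (g : G) : ∃ k ∈ M, ∃ h ∈ H, g = k * h := by
  have : g ∈ M ⊔ H := by rw [sup_comm, H1.sup_eq_top_of_coatom hmax hM]; trivial
  obtain ⟨a, ha, b, hb, rfl⟩ := H1.mem_sup_normal_left.mp this
  exact ⟨a, ha, b, hb, rfl⟩

theorem sq_mul_relIndex_eq [Finite G] {L M : Subgroup G} (hLM : L ≤ M) {χ : G → ℂ} {φ : L → ℂ}
    {ξ : M → ℂ} (hφ : IsIrrCharacter L φ) (hξ : IsIrrCharacter M ξ) {n f : ℕ}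
    (hn : (fun x : L => χ x) = (n : ℂ) • φ) (hf : (fun x : M => χ x) = (f : ℂ) • ξ)
    (hv : ∀ g ∈ M, g ∉ L → χ g = 0) : L.relIndex M * f ^ 2 = n ^ 2 := by
  have := Fintype.ofFinite L
  have := Fintype.ofFinite M
  have := Fintype.ofFinite (L.subgroupOf M)
  have h1 := classInner_restrict_of_vanish (L.subgroupOf M) (φ := fun x : M => χ x)
    (fun g hg => hv g g.2 hg) (fun x : M => χ x)
  have h2 := classInner_subgroupOf hLM (fun x : L => χ x) (fun x : L => χ x)
  rw [h2, hn, hf] at h1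
  simp only [classInner_smul_left, classInner_smul_right, hφ.classInner_self, hξ.classInner_self,
    map_natCast, mul_one] at h1
  rw [sq, sq]
  exact_mod_cast h1.symm

theorem exists_not_homogeneous [Fintype G] {L H : Subgroup G} [L.Normal] (hLH : L ≤ H)
    (hmax : IsCoatom H) (hsolv : Group.IsSolvable (G ⧸ L)) {ϑ : H → ℂ} (hϑ : IsCharacter H ϑ)
    (hϑL : IsIrrCharacter L (fun x : L => ϑ ⟨(x : G), hLH x.2⟩))
    (hind : IsIrrCharacter G (indFun H ϑ)) :
    ∃ M : Subgroup G, M.Normal ∧ L ≤ M ∧ ¬ ∃ (φ : M → ℂ) (e : ℕ), IsIrrCharacter M φ ∧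
      (fun m : M => indFun H ϑ m) = (e : ℂ) • φ := by
  by_contra hcon
  push Not at hcon
  have hLL : L ≤ H.normalCore := Subgroup.normal_le_normalCore.mpr hLH
  have hs := isSolvable_quotient_of_le hLL hsolv
  have hq : ∀ M : Subgroup G, M.Normal → H.normalCore ≤ M → ∃ (φ : M → ℂ) (e : ℕ),
      IsIrrCharacter M φ ∧ (fun m : M => indFun H ϑ m) = (e : ℂ) • φ :=
    fun M hM h => hcon M hM (hLL.trans h)
  have hirr : ∀ M : Subgroup G, H.normalCore ≤ M →
      IsIrrCharacter (H.subgroupOf M) fun x => ϑ ⟨x, x.2⟩ := fun M h =>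
    (hϑ.comp ((M.subtype.comp (H.subgroupOf M).subtype).codRestrict H fun x => x.2)).isIrr_of_comp
      ((Subgroup.inclusion (hLL.trans h)).codRestrict _ fun x => hLH x.2) hϑL
  have hφ : IsIrrCharacter H.normalCore fun x => ϑ ⟨x, H.normalCore_le x.2⟩ :=
    (hϑ.restrict_of_le H.normalCore_le).isIrr_of_comp (Subgroup.inclusion hLL) hϑL
  have hϑ1 : ϑ 1 ≠ 0 := hφ.apply_one_ne_zero
  have := Fintype.ofFinite H.normalCore
  have hn : (fun x : H.normalCore => indFun H ϑ x) =
      (H.index : ℂ) • fun x : H.normalCore => ϑ ⟨x, H.normalCore_le x.2⟩ := by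
    obtain ⟨φ', c, hφ', hc⟩ := hq _ inferInstance le_rfl
    obtain rfl := eq_of_constituent_of_indFun H.normalCore_le hind hϑ hφ hφ' hc
      (by rw [hφ.classInner_self]; exact one_ne_zero)
    have h1 : indFun H ϑ 1 = c * ϑ 1 := congrFun hc 1
    rw [indFun_apply_one] at h1
    rw [hc, mul_right_cancel₀ hϑ1 h1]
  have hres : ∀ (M : Subgroup G) [Fintype M] [M.Normal], ¬ M ≤ H → (fun m : M => indFun H ϑ m) =
      indFun (H.subgroupOf M) fun x => ϑ ⟨x, x.2⟩ := fun M _ _ h => funext fun m =>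
    indFun_apply_of_mul_eq_top (exists_factor_of_coatom hmax h) hϑ.isClassFunction m
  have hidx : ∀ (M : Subgroup G) [M.Normal], ¬ M ≤ H → H.relIndex M = H.index := by
    intro M _ h
    have := Fintype.ofFinite M
    have h1 : indFun H ϑ 1 = _ := congrFun (hres M h) 1
    rw [indFun_apply_one, indFun_apply_one] at h1
    exact_mod_cast (mul_right_cancel₀ hϑ1 h1).symm
  have hidx' : ∀ (M : Subgroup G) [M.Normal], ¬ M ≤ H → H ⊓ M ≤ H.normalCore →
      H.normalCore.relIndex M = H.index := by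
    intro M _ h h'
    rw [← hidx M h, ← Subgroup.inf_relIndex_right H, ← Subgroup.inf_relIndex_right H.normalCore]
    congr 1
    exact le_antisymm (inf_le_inf_right _ H.normalCore_le) (le_inf h' inf_le_right)
  have hn1 : 1 < H.index := Subgroup.one_lt_index_of_ne_top hmax.1
  obtain ⟨K, hK, hLK, -, hchK⟩ := H1.exists_chief_above (A := H.normalCore) (C := ⊤) inferInstance
    (lt_of_le_of_lt H.normalCore_le hmax.lt_top)
  have hKH : ¬ K ≤ H := fun h => hLK.not_ge (Subgroup.normal_le_normalCore.mpr h)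
  have hfac := exists_factor_of_coatom hmax hKH
  have hKinf : H ⊓ K ≤ H.normalCore := inf_le_normalCore_of_comm hfac fun m hm k hk =>
    H.normalCore_le (commutator_le_of_chief hs hLK hchK (Subgroup.commutator_mem_commutator hk hm))
  have hKidx := hidx' K hKH hKinf
  obtain ⟨ψ, e, hψ, he⟩ := hq K hK hLK.le
  have he2 : e ^ 2 = H.index := by
    have := sq_mul_relIndex_eq hLK.le hφ hψ hn he fun g hg hgL =>
      indFun_eq_zero_of_not_conj ϑ fun x hx => hgL (by
        have := H.normalCore_normal.conj_mem _ (hKinf ⟨hx, hK.conj_mem' g hg x⟩) x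
        simpa [mul_assoc] using this)
    rw [hKidx, sq H.index] at this
    exact Nat.eq_of_mul_eq_mul_left (by omega) this
  have he0 : (e : ℂ) ≠ 0 := by
    rw [Nat.cast_ne_zero]; rintro rfl; simp at he2; omega
  rcases eq_or_ne K ⊤ with rfl | hKtop
  · have := Fintype.ofFinite (⊤ : Subgroup G)
    have h1 := (hind.comp_equiv Subgroup.topEquiv).classInner_self
    change classInner (fun m : (⊤ : Subgroup G) => indFun H ϑ m)
      (fun m : (⊤ : Subgroup G) => indFun H ϑ m) = 1 at h1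
    rw [he, classInner_smul_left, classInner_smul_right, hψ.classInner_self, map_natCast, mul_one,
      ← sq] at h1
    have : e ^ 2 = 1 := by exact_mod_cast h1
    omega
  obtain ⟨M, hM, hKM, -, hchM⟩ := H1.exists_chief_above (A := K) (C := ⊤) inferInstance hKtop.lt_top
  have hMH : ¬ M ≤ H := fun h => hKH (hKM.le.trans h)
  suffices h : H.normalCore.relIndex M = H.index by
    rw [← Subgroup.relIndex_mul_relIndex _ _ _ hLK.le hKM.le, hKidx] at h
    exact hKM.not_ge (Subgroup.relIndex_eq_one.mp ((Nat.mul_eq_left (by omega)).mp h))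
  obtain ⟨p, a, hp, ha⟩ := exists_relIndex_prime_pow_of_chief hs hLK hchK
  obtain ⟨q, c, hq', hc⟩ := exists_relIndex_prime_pow_of_chief
    (isSolvable_quotient_of_le hLK.le hs) hKM hchM
  rcases eq_or_ne p q with rfl | hpq
  · have := Fact.mk hp
    have h1 : IsPGroup p (M.map (QuotientGroup.mk' H.normalCore)) := IsPGroup.of_card (n := a + c) (by
      rw [← Subgroup.relIndex_ker, QuotientGroup.ker_mk',
        ← Subgroup.relIndex_mul_relIndex _ _ _ hLK.le hKM.le, ha, hc, pow_add])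
    have := H1.normal_map_mk' H.normalCore hM
    have h2 := (H1.isMinNormal_map_mk' hK hLK hchK).le_centralizer_of_nilpotent h1.isNilpotent
    refine hidx' M hMH (inf_le_normalCore_of_comm hfac fun m hm k hk => H.normalCore_le ?_)
    have h3 := Subgroup.mem_centralizer_iff.mp (h2 ⟨m, hm, rfl⟩) _ ⟨k, hk, rfl⟩
    rw [← QuotientGroup.eq_one_iff]
    simp only [QuotientGroup.mk'_apply] at h3
    simp [h3]
  · obtain ⟨ξ, f, hξ, hf⟩ := hq M hM (hLK.le.trans hKM.le)
    have := Fintype.ofFinite K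
    have := Fintype.ofFinite M
    have := Fintype.ofFinite (H.subgroupOf M)
    have h1 : (f : ℂ) • (fun n : K => ξ ⟨n, hKM.le n.2⟩) = (e : ℂ) • ψ := by
      rw [← he]; exact funext fun n => (congrFun hf ⟨n, hKM.le n.2⟩).symm
    obtain ⟨b, hb⟩ := (hξ.isCharacter.restrict_of_le hKM.le).exists_classInner_nat hψ.isCharacter
    have h2 : (f : ℂ) * b = e := by
      have := congrArg (fun x => classInner x ψ) h1
      simpa only [classInner_smul_left, hb, hψ.classInner_self, mul_one] using this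
    have hf0 : (f : ℂ) ≠ 0 := left_ne_zero_of_mul (h2 ▸ he0)
    have h3 : (fun n : K => ξ ⟨n, hKM.le n.2⟩) = (b : ℂ) • ψ := by
      rw [← h2, mul_smul] at h1
      exact smul_right_injective _ hf0 h1
    have hb1 : b = 1 := by
      have h4 := ramification_dvd_relIndex hKM.le hψ hξ h3
      have h5 : b ∣ p ^ a := by
        rw [← ha, hKidx, ← he2, show e = f * b by exact_mod_cast h2.symm]
        exact Dvd.intro (f * f * b) (by ring)
      exact Nat.eq_one_of_dvd_coprimes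
        (Nat.coprime_pow_primes a c hp hq' hpq) h5 (hc ▸ h4)
    rw [hb1, Nat.cast_one, mul_one, Nat.cast_inj] at h2
    subst h2
    have hα := hirr M (hLK.le.trans hKM.le)
    have h6 := (hres M hMH).symm.trans hf
    have h7 : classInner (fun x : H.subgroupOf M => ξ x) (fun x => ϑ ⟨x, x.2⟩) = f := by
      rw [← classInner_indFun_right _ hξ.isClassFunction, h6, classInner_smul_right,
        hξ.classInner_self, map_natCast, mul_one]
    have h8 := (hξ.isCharacter.restrict (H.subgroupOf M)).sub_smul_irr hα (m := f) (by simp [h7])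
    have h9 := sub_eq_zero.mp (h8.eq_zero_of_apply_one (by
      have h10 : indFun H ϑ 1 = f * ξ 1 := congrFun hf 1
      rw [indFun_apply_one, ← he2, Nat.cast_pow, sq, mul_assoc] at h10
      exact sub_eq_zero.mpr (mul_left_cancel₀ hf0 h10).symm))
    have h11 := (classInner_restrict_self_eq_iff (H.subgroupOf M) ξ).mp (by
      rw [h9, classInner_smul_left, classInner_smul_right, hα.classInner_self, hξ.classInner_self,
        map_natCast, mul_one, mul_one, ← Subgroup.relIndex, hidx M hMH, ← he2, Nat.cast_pow, sq])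
    have h12 := sq_mul_relIndex_eq (hLK.le.trans hKM.le) hφ hξ hn hf fun g hg hgL => by
      by_contra h0
      refine hgL fun x => ?_
      by_contra hx
      apply h0
      rw [← hind.isClassFunction.conj_eq g x]
      have := congrFun hf ⟨_, hM.conj_mem g hg x⟩
      rw [Pi.smul_apply, h11 _ hx, smul_zero] at this
      exact this
    rw [he2, sq H.index] at h12
    exact Nat.eq_of_mul_eq_mul_right (by omega) h12

/-- `χ` is induced from a proper subgroup containing a normal subgroup properly above `L`. -/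
def IndAbove [Fintype G] (L : Subgroup G) (χ : G → ℂ) : Prop :=
  ∃ (M T : Subgroup G) (μ : T → ℂ), M.Normal ∧ L < M ∧ M ≤ T ∧ T ≠ ⊤ ∧ IsCharacter T μ ∧
    indFun T μ = χ

theorem IndAbove.mul [Fintype G] {L : Subgroup G} {χ ψ : G → ℂ} (h : IndAbove L χ)
    (hψ : IsCharacter G ψ) : IndAbove L (χ * ψ) := by
  obtain ⟨M, T, μ, h1, h2, h3, h4, h5, rfl⟩ := h
  exact ⟨M, T, _, h1, h2, h3, h4, h5.mul (hψ.restrict T),
    indFun_mul_restrict μ hψ.isClassFunction⟩

theorem IndAbove.descend [Fintype G] {G' : Type v} [Group G'] [Fintype G'] (f : G' →* G)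
    (hf : Function.Surjective f) {L : Subgroup G} {χ : G → ℂ} (hχ : IsIrrCharacter G χ)
    (h : IndAbove (L.comap f) fun x => χ (f x)) : IndAbove L χ := by
  obtain ⟨M, T, μ, h1, h2, h3, h4, h5, h6⟩ := h
  have hk : f.ker ≤ M := (Subgroup.comap_mono bot_le).trans h2.le
  obtain ⟨T, rfl⟩ : ∃ T₀ : Subgroup G, T = T₀.comap f :=
    ⟨T.map f, by rw [Subgroup.comap_map_eq, sup_eq_left.mpr (hk.trans h3)]⟩
  have := Fintype.ofFinite (T.comap f)
  have hχ' := hχ.comp_surjective f hf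
  have hμ := h5.isIrr_of_indFun (h6 ▸ hχ')
  obtain ⟨ν, hν, hνμ⟩ := h5.exists_comp_eq (f.subgroupComap T) (f.subgroupComap_surjective_of_surjective T hf)
    fun n hn => (hχ'.isCharacter.restrict (T.comap f)).constituent_apply_eq hμ (by
      rw [← classInner_indFun_right _ hχ'.isClassFunction, h6, hχ'.classInner_self]
      exact one_ne_zero) (by
        have : f n = 1 := congrArg Subtype.val (MonoidHom.mem_ker.mp hn)
        simp [this])
  refine ⟨M.map f, T, ν, h1.map f hf, ?_, Subgroup.map_le_iff_le_comap.mpr h3,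
    fun h => h4 (by rw [h, Subgroup.comap_top]), hν, ?_⟩
  · rw [← Subgroup.comap_lt_comap_of_surjective hf, Subgroup.comap_map_eq, sup_eq_left.mpr hk]
    exact h2
  · ext g
    obtain ⟨g, rfl⟩ := hf g
    rw [← indFun_comp_surjective f hf, ← congrFun h6 g]
    congr 1
    exact funext fun x => hνμ x

theorem indAbove_of_linear [Fintype G] {L H K : Subgroup G} [hL : L.Normal] [hK : K.Normal]
    (hLH : L ≤ H) (hLK : L ≤ K) (hmax : IsCoatom H) (hsolv : Group.IsSolvable (G ⧸ L))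
    (hfac : ∀ g : G, ∃ k ∈ K, ∃ h ∈ H, g = k * h) (hinf : H ⊓ K ≤ L) (ν : L →* ℂˣ)
    (hν : ∀ (g : G) (n : L), ν ⟨g * n * g⁻¹, hL.conj_mem _ n.2 g⟩ = ν n) {η : H → ℂ}
    (hη : IsCharacter H η) (hην : ∀ (l : L) (h : H), η (⟨l, hLH l.2⟩ * h) = ν l * η h)
    (hind : IsIrrCharacter G (indFun H η)) : IndAbove L (indFun H η) := by
  let Γ : Subgroup (G × H) :=
    { carrier := {x | x.1 * (x.2 : G)⁻¹ ∈ K}
      one_mem' := by simp
      mul_mem' := fun {a b} ha hb => by
        have := mul_mem ha (hK.conj_mem _ hb a.2)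
        change a.1 * b.1 * ((a.2 : G) * b.2)⁻¹ ∈ K
        convert this using 1
        group
      inv_mem' := fun {a} ha => by
        have := hK.conj_mem' _ (inv_mem ha) a.1
        change a.1⁻¹ * ((a.2 : G)⁻¹)⁻¹ ∈ K
        convert this using 1
        group }
  have := Fintype.ofFinite Γ
  let p₁ : Γ →* G := (MonoidHom.fst _ _).comp Γ.subtype
  let p₂ : Γ →* H := (MonoidHom.snd _ _).comp Γ.subtype
  have hp₁ : Function.Surjective p₁ := fun g => by
    obtain ⟨k, hk, h, hh, rfl⟩ := hfac g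
    exact ⟨⟨(k * h, ⟨h, hh⟩), by simpa [Γ] using hk⟩, rfl⟩
  have hmem : ∀ x : H.comap p₁, p₁ x * (p₂ x : G)⁻¹ ∈ L := fun x =>
    hinf ⟨H.mul_mem x.2 (H.inv_mem (p₂ x).2), x.1.2⟩
  let θ : H.comap p₁ →* ℂˣ := MonoidHom.mk' (fun x => ν ⟨_, hmem x⟩) fun a b => by
    rw [← hν (p₂ a) ⟨_, hmem b⟩, ← map_mul]
    congr 1
    apply Subtype.ext
    simp only [Subgroup.coe_mul, map_mul]
    group
  have hθ := isIrrCharacter_monoidHom_units θ
  have hprod : indFun (H.comap p₁) (fun x => (θ x : ℂ)) * (fun x => η (p₂ x)) =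
      fun x => indFun H η (p₁ x) := by
    rw [← indFun_mul_restrict _ (hη.comp p₂).isClassFunction]
    ext x
    rw [← indFun_comp_surjective p₁ hp₁]
    congr 1
    ext y
    refine (hην ⟨_, hmem y⟩ (p₂ y)).symm.trans (congrArg η (Subtype.ext ?_))
    simp
  have hΞ := isIrr_of_mul_isIrr hθ.isCharacter.indFun (hη.comp p₂)
    (hprod ▸ hind.comp_surjective p₁ hp₁)
  refine IndAbove.descend p₁ hp₁ hind (hprod ▸ IndAbove.mul ?_ (hη.comp p₂))
  have hLH' : L.comap p₁ ≤ H.comap p₁ := Subgroup.comap_mono hLH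
  have hθL := (hθ.isCharacter.restrict_of_le hLH').isIrr_of_apply_one (by
    change ((θ 1 : ℂˣ) : ℂ) = 1
    simp)
  obtain ⟨M, hM, hLM, hnh⟩ := exists_not_homogeneous hLH'
    (Subgroup.isCoatom_comap_of_surjective hp₁ hmax) (isSolvable_quotient_comap p₁ L hsolv)
    hθ.isCharacter hθL hΞ
  obtain ⟨T, μ, hMT, hT, hμ, hTind⟩ := (homogeneous_or_induced M hΞ).resolve_left hnh
  refine ⟨M, T, μ, hM, lt_of_le_of_ne hLM ?_, hMT, hT, hμ.isCharacter, hTind⟩
  rintro rfl
  have := Fintype.ofFinite (L.comap p₁)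
  have := Fintype.ofFinite (H.comap p₁)
  have hval : ∀ x : L.comap p₁, ∃ h : (p₂ x : G) ∈ L,
      θ ⟨x, hLH' x.2⟩ = ν ⟨p₁ x, x.2⟩ * (ν ⟨_, h⟩)⁻¹ := fun x =>
    ⟨by simpa using mul_mem (inv_mem (hmem ⟨x, hLH' x.2⟩)) x.2, by
      rw [← map_inv, ← map_mul]; rfl⟩
  obtain ⟨e, -, -, he⟩ := exists_restrict_eq_smul_of_invt hΞ hθL (fun g n => by
    obtain ⟨h1, e1⟩ := hval n
    obtain ⟨h2, e2⟩ := hval ⟨_, (inferInstance : (L.comap p₁).Normal).conj_mem _ n.2 g⟩
    refine congrArg Units.val (e2.trans (Eq.trans ?_ e1.symm))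
    rw [← hν (p₁ g) ⟨p₁ n, n.2⟩, ← hν (p₂ g) ⟨_, h1⟩]
    rfl) (classInner_ne_zero_of_sub (hθ.isCharacter.restrict_of_le hLH')
      (((hΞ.isCharacter.restrict _).sub_irr hθ (by
        rw [← classInner_indFun_right _ hΞ.isClassFunction, hΞ.classInner_self]
        exact one_ne_zero)).restrict_of_le hLH') hθL.isCharacter
      (by rw [hθL.classInner_self]; exact one_ne_zero))
  exact hnh ⟨_, e, hθL, he⟩

theorem indAbove_normalCore [Fintype G] {H : Subgroup G} (hmax : IsCoatom H)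
    (hs : Group.IsSolvable (G ⧸ H.normalCore)) {ϑ : H → ℂ} (hϑ : IsCharacter H ϑ)
    (hind : IsIrrCharacter G (indFun H ϑ)) {φ : H.normalCore → ℂ} (hφ : IsIrrCharacter _ φ) {c : ℂ}
    (hc : (fun n : H.normalCore => indFun H ϑ n) = c • φ) : IndAbove H.normalCore (indFun H ϑ) := by
  have hϑ' := hϑ.isIrr_of_indFun hind
  have hLH := H.normalCore_le
  have := Fintype.ofFinite H.normalCore
  obtain ⟨φ', hφ', h1⟩ := (hϑ.isClassFunction.restrict_of_le hLH).exists_irr_of_ne_zero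
    fun h0 => hϑ'.apply_one_ne_zero (congrFun h0 1)
  obtain rfl := eq_of_constituent_of_indFun hLH hind hϑ hφ' hφ hc h1
  have hc0 : c ≠ 0 := left_ne_zero_of_mul ((congrFun hc 1).symm.trans_ne hind.apply_one_ne_zero)
  obtain ⟨E⟩ := nonempty_centExt hφ (isInvt_of_restrict_eq_smul hind.isClassFunction hc0 hc)
  obtain ⟨K, hK, hLK, -, hchK⟩ := H1.exists_chief_above (A := H.normalCore) (C := ⊤) inferInstance
    (lt_of_le_of_lt H.normalCore_le hmax.lt_top)
  have hKH : ¬ K ≤ H := fun h => hLK.not_ge (Subgroup.normal_le_normalCore.mpr h)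
  have hfac := exists_factor_of_coatom hmax hKH
  have hKinf : H ⊓ K ≤ H.normalCore := inf_le_normalCore_of_comm hfac fun m hm k hk =>
    H.normalCore_le (commutator_le_of_chief hs hLK hchK (Subgroup.commutator_mem_commutator hk hm))
  have := Fintype.ofFinite E.Γ
  have hLH' : H.normalCore.comap E.π ≤ H.comap E.π := Subgroup.comap_mono hLH
  let s' : H.normalCore →* H.comap E.π := E.s.codRestrict _ fun n => hLH' (E.s_mem n)
  have hs' : s'.range.Normal := ⟨by
    rintro _ ⟨n, rfl⟩ g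
    exact ⟨_, Subtype.ext (E.conj_s g n).symm⟩⟩
  have hϑπ := hϑ'.comp_surjective (E.π.subgroupComap H)
    (E.π.subgroupComap_surjective_of_surjective H E.surj)
  have hsn : ∀ n : H.normalCore, E.π.subgroupComap H (s' n) = ⟨n, hLH n.2⟩ :=
    fun n => Subtype.ext (E.π_s n)
  obtain ⟨η, hη, hη1, hηξ⟩ := gallagher_surj_hom s' hs' (E.isChar.restrict (H.comap E.π))
    (by
      change IsIrrCharacter _ fun n => E.ξ (E.s n)
      rw [E.comp_s]; exact hφ) hϑπ (by
      change classInner _ (fun n => E.ξ (E.s n)) ≠ 0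
      rw [E.comp_s]
      simpa only [hsn] using h1)
  have hprod : indFun (H.comap E.π) η * E.ξ = fun x => indFun H ϑ (E.π x) := by
    rw [← indFun_mul_restrict _ E.isChar.isClassFunction, ← hηξ]
    ext x
    exact indFun_comp_surjective E.π E.surj ϑ x
  have hδ := isIrr_of_mul_isIrr hη.isCharacter.indFun E.isChar
    (hprod ▸ hind.comp_surjective E.π E.surj)
  refine IndAbove.descend E.π E.surj hind (hprod ▸ IndAbove.mul ?_ E.isChar)
  obtain ⟨lam, hl1, hl2, hl3⟩ := E.exists_lam hφ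
  refine indAbove_of_linear (K := K.comap E.π) hLH' (Subgroup.comap_mono hLK.le)
    (Subgroup.isCoatom_comap_of_surjective E.surj hmax) (isSolvable_quotient_comap E.π _ hs)
    (fun g => ?_) (fun x hx => hKinf hx) lam⁻¹ (fun g n => congrArg Inv.inv (hl2 g n))
    hη.isCharacter (fun l h => ?_) hδ
  · obtain ⟨k, hk, h, hh, e⟩ := hfac (E.π g)
    obtain ⟨h, rfl⟩ := E.surj h
    exact ⟨g * h⁻¹, by simpa [e] using hk, h, hh, by simp⟩
  · have hval : η ⟨l, hLH' l.2⟩ = (lam⁻¹ l : ℂˣ) * η 1 := by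
      obtain ⟨z, hz, hzl⟩ := E.exists_decomp l l.2
      have hz1 : E.π z = 1 := hz
      have hzL : z ∈ H.normalCore.comap E.π := by simp [hz1]
      have e1 : (⟨l, hLH' l.2⟩ : H.comap E.π) = ⟨z, hLH' hzL⟩ * s' ⟨E.π l, l.2⟩ := Subtype.ext hzl
      have e2 : l = ⟨z, hzL⟩ * ⟨E.s ⟨E.π l, l.2⟩, E.s_mem _⟩ := Subtype.ext hzl
      have e3 : ϑ (E.π.subgroupComap H ⟨z, hLH' hzL⟩) = η ⟨z, hLH' hzL⟩ * E.ξ z :=
        congrFun hηξ ⟨z, hLH' hzL⟩
      have e4 : ϑ (E.π.subgroupComap H 1) = η 1 * E.ξ 1 := congrFun hηξ 1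
      have e5 : E.ξ z = lam ⟨z, hzL⟩ * φ 1 := by
        rw [hl3 ⟨z, hzL⟩]; congr 2; exact Subtype.ext hz1
      rw [show E.π.subgroupComap H ⟨z, hLH' hzL⟩ = E.π.subgroupComap H 1 from
        Subtype.ext (hz1.trans (map_one E.π).symm), e4, E.ξ_one, e5, ← mul_assoc] at e3
      rw [e1, hη.isCharacter.mul_right_of_eq_one (hη1 _), mul_right_cancel₀ hφ.apply_one_ne_zero e3,
        MonoidHom.inv_apply]
      nth_rw 1 [e2]
      rw [map_mul, hl1, mul_one, mul_comm, mul_assoc, Units.mul_inv, mul_one]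
    obtain ⟨a, -, ha⟩ := hη.isCharacter.exists_mul_eq_of_norm_eq (g := ⟨l, hLH' l.2⟩) (by
      rw [hval, norm_mul, norm_eq_one_of_pow_eq_one (x := ((lam⁻¹ l : ℂˣ) : ℂ))
        (n := Nat.card (H.normalCore.comap E.π)) Nat.card_pos.ne'
        (by rw [← Units.val_pow_eq_pow_val, ← map_pow, pow_card_eq_one', map_one, Units.val_one]),
        one_mul])
    have := ha 1
    rw [mul_one, hval] at this
    rw [ha, mul_right_cancel₀ hη.apply_one_ne_zero this]

/-- Berger's theorem. -/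
theorem berger [Fintype G] [Group.IsSolvable G] {χ : G → ℂ} (hχ : IsIrrCharacter G χ)
    (hqp : ∀ N : Subgroup G, N.Normal → ∃ (ϑ : N → ℂ) (e : ℕ), IsIrrCharacter N ϑ ∧
      (fun n : N => χ n) = (e : ℂ) • ϑ) {K : Subgroup G} (hK : K ≠ ⊤) {ψ : K → ℂ}
    (hψ : IsCharacter K ψ) : indFun K ψ ≠ χ := by
  intro h
  obtain ⟨M, ⟨hM, T, μ, hMT, hT, hμ, hind⟩, hmax⟩ := (Set.toFinite {M : Subgroup G | M.Normal ∧
    ∃ (T : Subgroup G) (μ : T → ℂ), M ≤ T ∧ T ≠ ⊤ ∧ IsCharacter T μ ∧
      indFun T μ = χ}).exists_maximal ⟨⊥, inferInstance, K, ψ, bot_le, hK, hψ, h⟩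
  obtain ⟨H, hH, hTH⟩ := H1.exists_coatom_ge hT
  have := Fintype.ofFinite H
  have h1 := (indFun_indFun hTH μ).trans hind
  obtain ⟨φ, e, hφ, he⟩ := hqp H.normalCore inferInstance
  obtain ⟨M', T', μ', h2, h3, h4, h5, h6, h7⟩ := indAbove_normalCore hH inferInstance
    (hμ.comp (Subgroup.subgroupOfEquivOfLe hTH).toMonoidHom).indFun (h1 ▸ hχ) hφ (h1 ▸ he)
  have h8 : M < M' := lt_of_le_of_lt (Subgroup.normal_le_normalCore.mpr (hMT.trans hTH)) h3
  exact h8.not_ge (hmax ⟨h2, T', μ', h4, h5, h6, h7.trans h1⟩ h8.le)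

end Cfsg.H5
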