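import Cfsg.Agent.H5.Brauer2

/-! Dade's theorem on invariant characters and an extension theorem. -/

set_option autoImplicit false

open scoped ComplexConjugate

namespace Cfsg.H5

open Cfsg Cfsg.H4

universe u v

variable {G : Type u} [Group G]

theorem dvd_sum_of_fixed {p : ℕ} [Fact p.Prime] (hG : IsPGroup p G) {X : Type v} [Fintype X]
    [MulAction G X] (f : X → ℕ) (hf : ∀ (g : G) (x : X), f (g • x) = f x)
    (h : ∀ x, (∀ g : G, g • x = x) → p ∣ f x) : p ∣ ∑ x, f x := by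
  classical
  rw [show ∑ x, f x = ∑ x, id (f x) from rfl, Finset.sum_comp id f]
  refine Finset.dvd_sum fun v _ => ?_
  by_cases hv : p ∣ v
  · exact hv.mul_left _
  let Y : SubMulAction G X :=
    { carrier := {x | f x = v}
      smul_mem' := fun g x hx => (hf g x).trans hx }
  refine Dvd.dvd.mul_right ?_ _
  by_contra hc
  obtain ⟨y, hy⟩ := hG.nonempty_fixed_point_of_prime_not_dvd_card Y (by
    change ¬ p ∣ Nat.card {x // f x = v}
    rwa [Nat.card_eq_fintype_card, Fintype.card_subtype])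
  exact hv (y.2 ▸ h y fun g => congrArg Subtype.val (hy g))

/-- The conjugation action on the irreducible characters of a normal subgroup. -/
@[reducible] def irrAction (N : Subgroup G) [N.Normal] : MulAction G (IrrCharacter N) where
  smul g φ := ⟨cjf N g⁻¹ φ, isIrr_cjf φ.2 _⟩
  one_smul φ := Subtype.ext (by change cjf N 1⁻¹ _ = _; rw [inv_one, cjf_one])
  mul_smul g h φ := Subtype.ext (by
    change cjf N (g * h)⁻¹ _ = cjf N g⁻¹ (cjf N h⁻¹ _)
    rw [mul_inv_rev, cjf_mul])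

theorem dvd_classInner_of_invt [Finite G] {p : ℕ} (hp : p.Prime) {N : Subgroup G} [N.Normal]
    [Fintype N] {k : ℕ} (hk : N.index = p ^ k) {α β : N → ℂ} (hα : IsCharacter N α)
    (hβ : IsCharacter N β) (hα' : IsInvt N α) (hβ' : IsInvt N β)
    (h : ∀ φ, IsIrrCharacter N φ → IsInvt N φ → ∀ m : ℕ, classInner α φ = m → p ∣ m) :
    ∃ m : ℕ, classInner α β = p * m := by
  have := Fact.mk hp
  obtain ⟨P⟩ : Nonempty (Sylow p G) := inferInstance
  have hfac := H1.factor_of_coprime_index (H := N) (K := P) (by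
    rw [hk]
    exact Nat.Coprime.pow_left _ ((Nat.Prime.coprime_iff_not_dvd hp).mpr P.not_dvd_index))
  choose a ha using fun φ : IrrCharacter N => hα.exists_classInner_nat φ.2.isCharacter
  choose b hb using fun φ : IrrCharacter N => φ.2.isCharacter.exists_classInner_nat hβ
  let _ := irrAction N
  obtain ⟨m, hm⟩ := dvd_sum_of_fixed P.isPGroup' (fun φ => a φ * b φ) (fun g φ => by
    have h1 : (a (g • φ) : ℂ) = a φ := by
      rw [← ha, ← ha, ← classInner_cjf (g : G)⁻¹ α φ.1, isInvt_iff.mp hα']; rfl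
    have h2 : (b (g • φ) : ℂ) = b φ := by
      rw [← hb, ← hb, ← classInner_cjf (g : G)⁻¹ φ.1, isInvt_iff.mp hβ']; rfl
    rw [Nat.cast_injective h1, Nat.cast_injective h2]) (fun φ hφ => by
      refine (h φ φ.2 (isInvt_iff.mpr fun g => ?_) _ (ha φ)).mul_right _
      obtain ⟨n, hn, y, hy, rfl⟩ := hfac g
      rw [cjf_mul, cjf_of_mem φ.2.isClassFunction hn]
      have := congrArg Subtype.val (hφ ⟨y, hy⟩⁻¹)
      change cjf N (y⁻¹)⁻¹ φ.1 = _ at this
      rwa [inv_inv] at this)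
  refine ⟨m, ?_⟩
  rw [hα.isClassFunction.classInner_eq_sum_irr, ← Nat.cast_mul, ← hm, Nat.cast_sum]
  exact Finset.sum_congr rfl fun φ _ => by rw [ha, hb, Nat.cast_mul]

theorem classInner_restrict_indFun_of_invt [Fintype G] {N E : Subgroup G} [N.Normal] [Fintype N]
    [Fintype (N.subgroupOf E)] {η : N → ℂ} (hη : IsCharacter N η) (hinv : IsInvt N η)
    {ψ : E → ℂ} (hψ : IsCharacter E ψ) :
    classInner (fun n : N => indFun E ψ n) η = (E ⊔ N).index *
      classInner (fun x : N.subgroupOf E => η ⟨x, x.2⟩) (fun x : N.subgroupOf E => ψ x) := by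
  have := Fintype.ofFinite E
  rw [← classInner_indFun_right η (isClassFunction_indFun ψ),
    classInner_indFun_left _ (isClassFunction_indFun η),
    hψ.classInner_comm (hη.indFun.restrict E)]
  have h1 := classInner_restrict_of_vanish (N.subgroupOf E) (φ := fun x : E => indFun N η x)
    (fun g hg => indFun_normal_of_not_mem η hg) ψ
  have h2 : (fun x : N.subgroupOf E => indFun N η x) =
      (N.index : ℂ) • fun x : N.subgroupOf E => η ⟨x, x.2⟩ :=
    funext fun x => indFun_normal_of_invariant hinv ⟨x, x.2⟩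
  rw [h2, classInner_smul_left, ← Subgroup.relIndex_mul_index (le_sup_right : N ≤ E ⊔ N),
    Subgroup.relIndex_sup_right, Nat.cast_mul, mul_assoc] at h1
  exact (mul_left_cancel₀ (Nat.cast_ne_zero.mpr Subgroup.index_ne_zero_of_finite) h1).symm

theorem dade_elementary [Finite G] {p : ℕ} (hp : p.Prime) (N : Subgroup G) [hN : N.Normal] {k : ℕ}
    (hk : N.index = p ^ k) {ϑ : N → ℂ} (hϑ : IsIrrCharacter N ϑ) (hinv : IsInvt N ϑ) :
    ∃ (E : Subgroup G) (_ : Fintype (N.subgroupOf E)) (φ : N.subgroupOf E → ℂ),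
      IsElementary p E ∧ E ⊔ N = ⊤ ∧ IsIrrCharacter _ φ ∧ IsInvt (N.subgroupOf E) φ ∧
      ∃ m : ℕ, ¬ p ∣ m ∧ classInner (fun x : N.subgroupOf E => ϑ ⟨x, x.2⟩) φ = m := by
  have := Fintype.ofFinite G
  have := Fintype.ofFinite N
  by_contra hcon
  push Not at hcon
  have hη : IsCharacter N (ϑ * fun n => conj (ϑ n)) := hϑ.isCharacter.mul hϑ.isCharacter.conj
  have hη' : IsInvt N (ϑ * fun n => conj (ϑ n)) := fun g n => by simp [hinv g n]
  let S : AddSubgroup (G → ℂ) :=
    { carrier := {f | ∃ z : ℤ, classInner (fun n : N => f n) (ϑ * fun n => conj (ϑ n)) = p * z}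
      zero_mem' := ⟨0, by rw [Int.cast_zero, mul_zero]; exact classInner_zero_left _⟩
      add_mem' := by
        rintro a b ⟨y, hy⟩ ⟨z, hz⟩
        exact ⟨y + z, by rw [Int.cast_add, mul_add, ← hy, ← hz, ← classInner_add_left]; rfl⟩
      neg_mem' := by
        rintro a ⟨y, hy⟩
        exact ⟨-y, by rw [Int.cast_neg, mul_neg, ← hy, ← classInner_neg_left]; rfl⟩ }
  obtain ⟨m, hm, h1⟩ := brauer_local (G := G) hp
  obtain ⟨z, hz⟩ := (show elemSpan p G ≤ S from (AddSubgroup.closure_le _).mpr (by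
    rintro _ ⟨E, ψ, hE, hψ, rfl⟩
    have := Fintype.ofFinite (N.subgroupOf E)
    change ∃ z : ℤ, _ = _
    rw [classInner_restrict_indFun_of_invt hη hη' hψ]
    have hϑE : IsCharacter (N.subgroupOf E) fun x => ϑ ⟨x, x.2⟩ :=
      hϑ.isCharacter.comp ((E.subtype.comp (N.subgroupOf E).subtype).codRestrict N fun x => x.2)
    rcases eq_or_ne (E ⊔ N) ⊤ with htop | htop
    · obtain ⟨j, -, hj⟩ := (Nat.dvd_prime_pow hp).mp
        (hk ▸ Subgroup.relIndex_dvd_index_of_normal N E)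
      obtain ⟨a, ha⟩ := dvd_classInner_of_invt hp hj hϑE ((hψ.restrict _).mul hϑE)
        (fun g n => hinv g ⟨n, n.2⟩) (fun g n => congrArg₂ (· * ·)
          (isInvt_restrict hψ.isClassFunction g n) (hinv g ⟨n, n.2⟩))
        (fun φ hφ hφ' m hm => by
          by_contra hpm
          exact hcon E _ φ hE htop hφ hφ' m hpm hm)
      refine ⟨a, ?_⟩
      rw [htop, Subgroup.index_top, Nat.cast_one, one_mul, Int.cast_natCast, ← ha]
      refine (classInner_mul_left (fun x : N.subgroupOf E => ϑ ⟨x, x.2⟩) _ _).trans ?_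
      simp
    · obtain ⟨a, ha⟩ := (hϑE.mul hϑE.conj).exists_classInner_nat (hψ.restrict _)
      obtain ⟨j, -, hj⟩ := (Nat.dvd_prime_pow hp).mp
        (hk ▸ Subgroup.index_dvd_of_le (le_sup_right : N ≤ E ⊔ N))
      obtain _ | j := j
      · exact absurd (Subgroup.index_eq_one.mp hj) htop
      · refine ⟨p ^ j * a, ?_⟩
        rw [hj]
        refine (congrArg _ ha).trans ?_
        push_cast
        ring)) h1
  refine hm ⟨z, ?_⟩
  have h2 : (fun _ : N => (m : ℂ)) = (m : ℂ) • fun _ => 1 := by ext; simp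
  rw [h2, classInner_smul_left, isCharacter_one.classInner_comm hη] at hz
  have h3 : classInner (ϑ * fun n => conj (ϑ n)) (fun _ => 1) = 1 := by
    refine Eq.trans ?_ hϑ.classInner_self
    simp [classInner_def]
  rw [h3, mul_one] at hz
  exact_mod_cast hz

theorem exists_ext_of_comm [Finite G] (hG : ∀ a b : G, a * b = b * a) {D : Type v} [Group D]
    (f : D →* G) (hf : Function.Injective f) (lam : D →* ℂˣ) :
    ∃ μ : G →* ℂˣ, ∀ d, μ (f d) = lam d := by
  have := Fintype.ofFinite G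
  have := Fintype.ofFinite f.range
  have hθ := (isIrrCharacter_monoidHom_units lam).comp_equiv (MonoidHom.ofInjective hf).symm
  obtain ⟨χ, hχ, h⟩ := hθ.exists_irr_over
  have h1 := hχ.apply_one_eq_one_of_comm hG
  have h2 := ((hχ.isCharacter.restrict f.range).isIrr_of_apply_one h1).eq_of_classInner_ne_zero hθ h
  obtain ⟨μ, hμ⟩ := hχ.isCharacter.exists_monoidHom_units h1
  refine ⟨μ, fun d => Units.ext ?_⟩
  have := congrFun h2 (MonoidHom.ofInjective hf d)
  rw [MulEquiv.symm_apply_apply] at this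
  rw [← this, ← hμ]; rfl

theorem exists_extension_of_sylow [Finite G] {p : ℕ} [hp : Fact p.Prime] (N : Subgroup G)
    [hN : N.Normal] {k : ℕ} (hk : N.index = p ^ k) (P : Sylow p G)
    (hcent : ∀ x ∈ (P : Subgroup G) ⊓ N, ∀ y ∈ (P : Subgroup G), x * y = y * x)
    (hlin : ∀ lam : ↥((P : Subgroup G) ⊓ N) →* ℂˣ, ∃ μ : (P : Subgroup G) →* ℂˣ,
      ∀ x : ↥((P : Subgroup G) ⊓ N), μ ⟨(x : G), x.2.1⟩ = lam x)
    {ϑ : N → ℂ} (hϑ : IsIrrCharacter N ϑ) (hinv : IsInvt N ϑ) :
    ∃ χ : G → ℂ, IsIrrCharacter G χ ∧ ∀ n : N, χ n = ϑ n := by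
  have := Fintype.ofFinite G
  have := Fintype.ofFinite N
  obtain ⟨E, _, φ, ⟨c, hc, hcop, j, hj⟩, htop, hφ, hφinv, m, hm, hmφ⟩ :=
    dade_elementary hp.out N hk hϑ hinv
  obtain ⟨Q⟩ : Nonempty (Sylow p E) := inferInstance
  obtain ⟨P', hP'⟩ := (Q.isPGroup'.map E.subtype).exists_le_sylow
  obtain ⟨g, rfl⟩ := MulAction.exists_smul_eq G P P'
  have hQ : ∀ y ∈ (Q : Subgroup E), g⁻¹ * y * g ∈ (P : Subgroup G) := fun y hy =>
    H1.mem_conj_smul_iff.mp (hP' ⟨y, hy, rfl⟩)
  have hfac := H1.factor_of_coprime_index (H := Subgroup.zpowers c) (K := Q) (by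
    rw [hj]
    exact Nat.Coprime.pow_left _ ((Nat.Prime.coprime_iff_not_dvd hp.out).mpr Q.not_dvd_index))
  have hcN : Subgroup.zpowers c ≤ N.subgroupOf E := H1.le_of_coprime_card_index (by
    rw [Nat.card_zpowers]
    exact (hcop.pow_right k).coprime_dvd_right (hk ▸ Subgroup.relIndex_dvd_index_of_normal N E))
  have hcc : ∀ a ∈ Subgroup.zpowers c, ∀ x : E, Commute a x := fun a ha x =>
    (Subgroup.mem_center_iff.mp (Subgroup.zpowers_le.mpr hc ha) x).symm
  have hD : ∀ d ∈ N.subgroupOf E, ∀ x : E, Commute d x := by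
    intro d hd x
    obtain ⟨a, ha, y, hy, rfl⟩ := hfac d
    obtain ⟨a', ha', y', hy', rfl⟩ := hfac x
    refine (hcc a ha _).mul_left ((hcc a' ha' _).symm.mul_right (Subtype.ext ?_))
    have h1 := hcent _ ⟨hQ y hy, hN.conj_mem' _
      ((mul_mem_cancel_left (hcN ha)).mp hd) g⟩ _ (hQ y' hy')
    have h2 : g⁻¹ * (y * y') * g = g⁻¹ * (y' * y) * g := by
      simpa [mul_assoc] using h1
    exact mul_left_cancel (mul_right_cancel h2)
  have hφ1 : φ 1 = 1 := hφ.apply_one_eq_one_of_comm fun a b => Subtype.ext (hD a a.2 b)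
  obtain ⟨l, hl⟩ := hφ.isCharacter.exists_monoidHom_units hφ1
  -- extend `l` from `Q ⊓ N` to `Q`
  let D₀ : Subgroup Q := (N.subgroupOf E).subgroupOf Q
  let cj : Q →* (P : Subgroup G) := ((MulAut.conj g⁻¹).toMonoidHom.comp
    (E.subtype.comp (Q : Subgroup E).subtype)).codRestrict _ fun y => by simpa using hQ y y.2
  let f : D₀ →* ↥((P : Subgroup G) ⊓ N) := ((P : Subgroup G).subtype.comp
    (cj.comp D₀.subtype)).codRestrict _ fun y => ⟨(cj y).2, by
      simpa [cj] using hN.conj_mem' _ y.2 g⟩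
  obtain ⟨μ₁, hμ₁⟩ := exists_ext_of_comm (fun a b => Subtype.ext (hcent a a.2 b b.2.1)) f
    (fun a b h => Subtype.ext (Subtype.ext (Subtype.ext (by
      have := congrArg Subtype.val h
      simpa [f, cj] using this))))
    (l.comp (((Q : Subgroup E).subtype.comp D₀.subtype).codRestrict _ fun y => y.2))
  obtain ⟨μ₂, hμ₂⟩ := hlin μ₁
  have hext1 : ((Q : Subgroup E).index : ℤ) ∈ extExponents l := by
    refine ⟨MonoidHom.transfer (μ₂.comp cj), fun d => ?_⟩
    have key : ∀ (k : ℕ) (g₀ : E), g₀⁻¹ * (d : E) ^ k * g₀ ∈ (Q : Subgroup E) →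
        g₀⁻¹ * (d : E) ^ k * g₀ = (d : E) ^ k := fun k g₀ _ => by
      rw [mul_assoc, ((hD d d.2 g₀).pow_left k).eq, inv_mul_cancel_left]
    rw [MonoidHom.transfer_eq_pow _ _ key, zpow_natCast, ← map_pow]
    exact (hμ₂ (f ⟨⟨_, MonoidHom.transfer_eq_pow_aux _ key⟩, pow_mem d.2 _⟩)).trans (hμ₁ _)
  have hlinv : ∀ (g : E) (n : N.subgroupOf E), l ⟨g * n * g⁻¹,
      (inferInstance : (N.subgroupOf E).Normal).conj_mem _ n.2 g⟩ = l n := fun g n =>
    Units.ext (by rw [← hl, ← hl]; exact hφinv g n)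
  obtain ⟨μ, hμ⟩ := exists_ext_of_coprime l hext1
    (index_mem_extExponents le_rfl l l (fun _ => rfl) hlinv) (Nat.Coprime.coprime_dvd_right
      (hk ▸ Subgroup.relIndex_dvd_index_of_normal N E) (Nat.Coprime.pow_right k
        ((Nat.Prime.coprime_iff_not_dvd hp.out).mpr Q.not_dvd_index).symm))
  have hψ := isCharacter_monoidHom (G := E) ((Units.coeHom ℂ).comp μ)
  have h1 := classInner_restrict_indFun_of_invt hϑ.isCharacter hinv hψ
  have h2 : (fun x : N.subgroupOf E => ((Units.coeHom ℂ).comp μ) x) = φ :=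
    funext fun x => by rw [hl, ← hμ]; rfl
  rw [h2, hmφ, htop, Subgroup.index_top, Nat.cast_one, one_mul] at h1
  by_contra hcon
  have h3 : ∀ Ξ, IsCharacter G Ξ → ∃ z : ℕ, classInner (fun n : N => Ξ n) ϑ = p * z := by
    intro Ξ hΞ
    refine hΞ.induction (P := fun Ξ : G → ℂ => ∃ z : ℕ, classInner (fun n : N => Ξ n) ϑ = p * z)
      ⟨0, by rw [Nat.cast_zero, mul_zero]; exact classInner_zero_left _⟩ fun χ Ξ hχ _ ⟨z, hz⟩ => ?_
    rcases eq_or_ne (classInner (fun n : N => χ n) ϑ) 0 with h0 | h0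
    · exact ⟨z, (classInner_add_left (fun n : N => χ n) (fun n : N => Ξ n) ϑ).trans
        (by rw [h0, hz, zero_add])⟩
    obtain ⟨e, -, he1, he⟩ := exists_restrict_eq_smul_of_invt hχ hϑ hinv h0
    obtain ⟨i, -, hi⟩ := (Nat.dvd_prime_pow hp.out).mp (hk ▸ ramification_dvd_index hϑ hχ he)
    obtain _ | i := i
    · exact absurd ⟨χ, hχ, fun n => by simpa [hi] using congrFun he n⟩ hcon
    · refine ⟨p ^ i + z, ?_⟩
      rw [Nat.cast_add, mul_add, ← hz, ← Nat.cast_mul, ← pow_succ', ← hi, ← he1,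
        ← classInner_add_left]
      rfl
  obtain ⟨z, hz⟩ := h3 _ hψ.indFun
  rw [h1] at hz
  exact hm ⟨z, by exact_mod_cast hz⟩

end Cfsg.H5
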