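import Cfsg.Agent.H5.HeD
import Cfsg.Agent.H8.Syl

/-!
Groups with the involution centraliser of the linear group of degree five over two elements:
weak closure, control of fusion and the elements of order three normalising the product of the
two elementary abelian subgroups of order 64.
-/

set_option autoImplicit false
set_option synthInstance.maxSize 4096
set_option maxRecDepth 100000

namespace Cfsg.H5.He

open Subgroup H8 L0

local notation "z" => (CM.z : C)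

variable {G : Type*} [Group G] {φ : C →* G}

/-- Conjugation by `g` takes the image of `c` to the image of `d`. -/
def Rl (φ : C →* G) (g : G) (c d : C) : Prop := g * φ c * g⁻¹ = φ d

theorem Rl.mul {g : G} {c d c' d' : C} (h : Rl φ g c d) (h' : Rl φ g c' d') :
    Rl φ g (c * c') (d * d') := by
  unfold Rl at *
  rw [map_mul, map_mul, ← h, ← h']; group

theorem Rl.inv {g : G} {c d : C} (h : Rl φ g c d) : Rl φ g c⁻¹ d⁻¹ := by
  unfold Rl at *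
  rw [map_inv, map_inv, ← h]; group

theorem Rl.one (g : G) : Rl φ g 1 1 := by
  unfold Rl
  simp

theorem Rl.comp {g h : G} {c d e : C} (h1 : Rl φ g d e) (h2 : Rl φ h c d) : Rl φ (g * h) c e := by
  unfold Rl at *
  rw [← h1, ← h2]; group

theorem Rl.symm {g : G} {c d : C} (h : Rl φ g c d) : Rl φ g⁻¹ d c := by
  unfold Rl at *
  rw [← h]; group

theorem Rl.of (c a : C) : Rl φ (φ c) a (c * a * c⁻¹) := by
  unfold Rl
  rw [map_mul, map_mul, map_inv]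

theorem Rl.refl (a : C) : Rl φ 1 a a := by
  unfold Rl
  simp

theorem Rl.comm {g : G} {c : C} (h : Rl φ g c c) : g * φ c = φ c * g :=
  mul_inv_eq_iff_eq_mul.mp h

theorem Rl.of_comm {g : G} {c : C} (h : g * φ c = φ c * g) : Rl φ g c c :=
  mul_inv_eq_iff_eq_mul.mpr h

theorem Rl.isConj {g : G} {c d : C} (h : Rl φ g c d) : IsConj (φ c) (φ d) := isConj_iff.mpr ⟨g, h⟩

theorem Rl.pw {g : G} : ∀ {l l' : List C}, List.Forall₂ (Rl φ g) l l' → ∀ n,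
    Rl φ g (pw l n) (pw l' n)
  | [], [], _, _ => Rl.one g
  | a :: l, b :: l', .cons h1 h2, n => by
    have h := Rl.pw h2 (Nat.shiftRight n 1)
    unfold He.pw
    cases bit n 0
    · exact h
    · exact h1.mul h

theorem Cfg.uniq (H : Cfg φ) {g : G} {c d d' : C} (h : Rl φ g c d) (h' : Rl φ g c d') : d = d' :=
  H.inj (Eq.trans (Eq.symm h) h')

theorem Cfg.of_eq (H : Cfg φ) {c a d : C} (h : Rl φ (φ c) a d) : c * a * c⁻¹ = d :=
  H.uniq (Rl.of c a) h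

theorem Cfg.cube (H : Cfg φ) {g : G} (hg : g ^ 3 = 1) {a b c d : C} (h1 : Rl φ g a b)
    (h2 : Rl φ g b c) (h3 : Rl φ g c d) : d = a := by
  have := h3.comp (h2.comp h1)
  rw [← mul_assoc, ← pow_three', hg] at this
  exact H.uniq this (Rl.refl a)

theorem normT {S : SubT} (h : ∀ g ∈ ST.gs, ∀ u ∈ S.sub, g * u * g⁻¹ ∈ S.sub) :
    ∀ t ∈ T, ∀ u ∈ S.sub, t * u * t⁻¹ ∈ S.sub := fun _ ht _ hu =>
  conj_mem_of_mem_normalizer
    (ST.le (K := normalizer S.sub) (fun g hg => mem_normalizer_of_forall (h g hg)) ht) hu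

theorem ctrl_gen [Finite G] {p : ℕ} [Fact p.Prime] {P V M : Subgroup G} (hP : IsSyl p P ⊤)
    (hV : V ≤ P) (wc : ∀ g, cj g V ≤ P → g ∈ M) {A : Set G} {g : G} (h1 : V ≤ centralizer A)
    (h2 : ∀ a ∈ A, ∀ v ∈ V, g * a * g⁻¹ * v = v * (g * a * g⁻¹)) :
    ∃ n ∈ M, ∀ a ∈ A, n * a * n⁻¹ = g * a * g⁻¹ := by
  have pV : IsPGroup p V := hP.isPGroup.to_le hV
  have a1 : cj g⁻¹ V ≤ centralizer A := by
    rintro _ ⟨v, hv, rfl⟩ a ha
    show a * (g⁻¹ * v * g⁻¹⁻¹) = g⁻¹ * v * g⁻¹⁻¹ * a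
    calc _ = g⁻¹ * (g * a * g⁻¹ * v) * g := by group
      _ = _ := by rw [h2 a ha v hv]; group
  obtain ⟨S, hS, hVS⟩ := exists_isSyl_ge pV h1
  obtain ⟨c, hc, h3⟩ := hS.exists_cj_le (isPGroup_cj pV g⁻¹) a1
  obtain ⟨h, -, h4⟩ := hP.exists_cj_le hS.isPGroup le_top
  have m1 := wc h ((cj_mono h hVS).trans h4)
  have m2 := wc (h * (c * g⁻¹)) (by rw [cj_mul, cj_mul]; exact (cj_mono h h3).trans h4)
  refine ⟨(c * g⁻¹)⁻¹, inv_mem ((mul_mem_cancel_left m1).mp m2), fun a ha => ?_⟩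
  calc _ = g * c⁻¹ * (a * c) * g⁻¹ := by group
    _ = _ := by rw [hc a ha]; group

variable [Finite G] (H : Cfg φ)
include H

omit [Finite G] in
theorem Cfg.norm_T {g : G} (hg : g ∈ normalizer (T.map φ : Set G)) : g ∈ T.map φ := by
  have key : ∀ {g}, g ∈ normalizer (T.map φ : Set G) → ∀ t ∈ T, ∃ d ∈ T, Rl φ g t d :=
    fun hg t ht => by
      obtain ⟨d, hd, e⟩ := conj_mem_of_mem_normalizer hg (mem_map_of_mem φ ht)
      exact ⟨d, hd, Eq.symm e⟩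
  obtain ⟨c, hc, h1⟩ := key hg z (by decide +kernel)
  have cm : ∀ t ∈ T, c * t = t * c := fun t ht => by
    obtain ⟨d, -, h2⟩ := key (inv_mem hg) t ht
    have h3 := h2.symm
    rw [inv_inv] at h3
    exact H.uniq (h1.mul h3) (CM.z_comm d ▸ h3.mul h1)
  rcases zT c hc (cm _ (by decide +kernel)) (cm _ (by decide +kernel)) (cm _ (by decide +kernel))
    (cm _ (by decide +kernel)) with rfl | rfl
  · exact absurd (H.uniq h1.symm (Rl.one _)) CM.z_ne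
  · obtain ⟨d, rfl⟩ := H.cen g h1.comm
    obtain ⟨a, ha, h2⟩ := key hg x23 (by decide +kernel)
    obtain ⟨b, hb, h3⟩ := key hg x34 (by decide +kernel)
    exact mem_map_of_mem φ (t_norm (H.of_eq h2 ▸ ha) (H.of_eq h3 ▸ hb))

theorem Cfg.syl : IsSyl 2 (T.map φ) ⊤ := by
  have : Fact (Nat.Prime 2) := ⟨Nat.prime_two⟩
  refine IsSyl.of_normalizer ?_
  rw [show ⊤ ⊓ normalizer (T.map φ : Set G) = T.map φ from
    le_antisymm (fun g hg => H.norm_T hg.2) (le_inf le_top le_normalizer)]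
  exact IsSyl.self ((IsPGroup.of_card (n := 10) ST.card).map φ)

omit [Finite G] in
theorem Cfg.wc0 {S : SubT} (hn : S.n = 64) (hs : ∀ u ∈ S.sub, u * u = 1) {g : G}
    (h : ∀ u ∈ S.sub, ∃ t ∈ T, Rl φ g u t) :
    (∀ u ∈ S.sub, ∃ d ∈ U1, Rl φ g u d) ∨ ∀ u ∈ S.sub, ∃ d ∈ U2, Rl φ g u d := by
  choose f hf1 hf2 using fun u : S.sub => h u.1 u.2
  have sq : ∀ u, f u * f u = 1 := fun u =>
    H.uniq ((hf2 u).mul (hf2 u)) (by rw [hs u.1 u.2]; exact Rl.one g)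
  have fm : ∀ u v, f (u * v) = f u * f v := fun u v => H.uniq (hf2 _) ((hf2 u).mul (hf2 v))
  have cm : ∀ u v, f u * f v = f v * f u := fun u v => by
    have h1 := sq (u * v)
    rw [fm] at h1
    rw [← inv_eq_of_mul_eq_one_left h1, mul_inv_rev, inv_eq_of_mul_eq_one_left (sq u),
      inv_eq_of_mul_eq_one_left (sq v)]
  have mem : ∀ u, f u ∈ U1 ∨ f u ∈ U2 := fun u => by
    by_contra hc
    rw [not_or] at hc
    have h1 := e64 _ (hf1 u) (invI _ (hf1 u) (sq u)) hc.1 hc.2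
    rw [← TN.card_subtype] at h1
    choose k hk using fun v => ST.en' (f v) (hf1 v)
    have := Nat.card_le_card_of_injective (α := S.sub) (β := {k : TN 27 1024 //
      msk mkI (enu ST.E 1024 k) = true ∧ f u * enu ST.E 1024 k = enu ST.E 1024 k * f u})
      (fun v => ⟨k v, by
        rw [show enu ST.E 1024 (k v) = f v from (hk v).symm]
        exact ⟨invI _ (hf1 v) (sq v), cm u v⟩⟩) fun v w e => by
        have e1 : f v = f w := by rw [hk v, hk w, show k v = k w from congrArg Subtype.val e]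
        exact Subtype.ext (H.uniq (hf2 v).symm (e1 ▸ (hf2 w).symm))
    rw [S.card, hn] at this
    omega
  by_contra hc
  rw [not_or] at hc
  obtain ⟨h1, h2⟩ := hc
  push Not at h1 h2
  obtain ⟨u, hu, h1⟩ := h1
  obtain ⟨v, hv, h2⟩ := h2
  have a1 : f ⟨u, hu⟩ ∉ U1 := fun e => h1 _ e (hf2 ⟨u, hu⟩)
  have a2 : f ⟨v, hv⟩ ∉ U2 := fun e => h2 _ e (hf2 ⟨v, hv⟩)
  rcases mem (⟨u, hu⟩ * ⟨v, hv⟩) with h | h <;> rw [fm] at h
  · exact a1 ((mul_mem_cancel_right ((mem _).resolve_right a2)).mp h)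
  · exact a2 ((mul_mem_cancel_left ((mem _).resolve_left a1)).mp h)

theorem Cfg.not_swap {S S' : SubT} (hn : S.n = S'.n)
    (h1 : ∀ g ∈ ST.gs, ∀ u ∈ S.sub, g * u * g⁻¹ ∈ S.sub)
    (h2 : ∀ g ∈ ST.gs, ∀ u ∈ S'.sub, g * u * g⁻¹ ∈ S'.sub) {a : C} (ha : a ∈ S.sub)
    (ha' : a ∉ S'.sub) {g : G} (h : ∀ u ∈ S.sub, ∃ d ∈ S'.sub, Rl φ g u d) : False := by
  have : Fact (Nat.Prime 2) := ⟨Nat.prime_two⟩
  have nm : ∀ {S : SubT}, (∀ g ∈ ST.gs, ∀ u ∈ S.sub, g * u * g⁻¹ ∈ S.sub) →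
      T.map φ ≤ normalizer (S.sub.map φ : Set G) := by
    rintro S h _ ⟨t, ht, rfl⟩
    refine mem_normalizer_of_forall ?_
    rintro _ ⟨u, hu, rfl⟩
    exact ⟨_, normT h t ht u hu, Eq.symm (Rl.of t u)⟩
  have e : cj g (S.sub.map φ) = S'.sub.map φ := eq_of_le_of_card_ge (cj_le_iff_forall.mpr (by
    rintro _ ⟨u, hu, rfl⟩
    obtain ⟨d, hd, e⟩ := h u hu
    exact ⟨d, hd, Eq.symm e⟩)) (by
    rw [card_cj, card_map_of_injective H.inj, card_map_of_injective H.inj, S.card, S'.card, hn])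
  obtain ⟨n, -, hn1, hn2⟩ := H.syl.burnside (A := S.sub.map φ) (mem_top g) (nm h1) (e ▸ nm h2)
  rw [cj_eq_iff.mpr (nm h1 (H.norm_T hn1)), e] at hn2
  obtain ⟨b, hb, e⟩ : φ a ∈ S'.sub.map φ := hn2 ▸ mem_map_of_mem φ ha
  exact ha' (H.inj e ▸ hb)

theorem Cfg.wc1 {g : G} (h : ∀ u ∈ U1, ∃ t ∈ T, Rl φ g u t) : ∀ u ∈ U1, ∃ d ∈ U1, Rl φ g u d :=
  (H.wc0 (S := SU1) rfl U1_sq h).resolve_right
    (H.not_swap (S := SU1) (S' := SU2) rfl normU1 normU2 (a := x13) (by decide +kernel) (by decide +kernel))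

theorem Cfg.wc2 {g : G} (h : ∀ u ∈ U2, ∃ t ∈ T, Rl φ g u t) : ∀ u ∈ U2, ∃ d ∈ U2, Rl φ g u d :=
  (H.wc0 (S := SU2) rfl U2_sq h).resolve_left
    (H.not_swap (S := SU2) (S' := SU1) rfl normU2 normU1 (a := x35) (by decide +kernel) (by decide +kernel))

omit H in
/-- The elements normalising the image of a subgroup. -/
def Nm (φ : C →* G) (S : SubT) : Subgroup G :=
  subOfMul {g | ∀ u ∈ S.sub, ∃ d ∈ S.sub, Rl φ g u d} (fun u hu => ⟨u, hu, Rl.refl u⟩)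
    fun g hg h hh u hu => by
      obtain ⟨d, hd, h1⟩ := hh u hu
      obtain ⟨e, he, h2⟩ := hg d hd
      exact ⟨e, he, h2.comp h1⟩

theorem Cfg.ctrlF {a b : C} (ha : a ∈ F) (hb : b ∈ F) (h : IsConj (φ a) (φ b)) :
    ∃ n ∈ Nm φ SU1 ⊓ Nm φ SU2, Rl φ n a b := by
  have : Fact (Nat.Prime 2) := ⟨Nat.prime_two⟩
  obtain ⟨g, hg⟩ := isConj_iff.mp h
  have cm : ∀ f ∈ F, ∀ r ∈ R, r * f = f * r := fun f hf r hr =>
    mem_centralizer_singleton_iff.mp (SR.le (K := centralizer {f})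
      (fun g hg => mem_centralizer_singleton_iff.mpr (F_R f hf g hg)) hr)
  obtain ⟨n, hn, e⟩ := ctrl_gen (M := Nm φ SU1 ⊓ Nm φ SU2) H.syl (V := R.map φ)
    (map_mono R_T) (fun g hg => by
      have : ∀ r ∈ R, ∃ t ∈ T, Rl φ g r t := fun r hr => by
        obtain ⟨t, ht, e⟩ := cj_le_iff_forall.mp hg _ (mem_map_of_mem φ hr)
        exact ⟨t, ht, Eq.symm e⟩
      exact ⟨H.wc1 fun u hu => this u (U1_R u hu), H.wc2 fun u hu => this u (U2_R u hu)⟩)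
    (A := {φ a}) (g := g) (by
      rintro _ ⟨r, hr, rfl⟩
      exact mem_centralizer_singleton_iff.mpr (by rw [← map_mul, cm a ha r hr, map_mul])) (by
      rintro _ rfl _ ⟨r, hr, rfl⟩
      rw [hg, ← map_mul, ← cm b hb r hr, map_mul])
  exact ⟨n, hn, (e _ rfl).trans hg⟩

omit H [Finite G] in
/-- The action on one of the quotients. -/
def Act1 (φ : C →* G) (S : SubT) (g : G) (f : W → W) : Prop :=
  ∀ c ∈ S.sub, ∃ d ∈ S.sub, Rl φ g c d ∧ kp S d = f (kp S c)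

omit H [Finite G] in
theorem Act1.mul {S : SubT} {g h : G} {f f' : W → W} (h1 : Act1 φ S g f) (h2 : Act1 φ S h f') :
    Act1 φ S (g * h) (f ∘ f') := fun c hc => by
  obtain ⟨d, hd, e1, e2⟩ := h2 c hc
  obtain ⟨d', hd', e3, e4⟩ := h1 d hd
  exact ⟨d', hd', e3.comp e1, by rw [e4, e2]; rfl⟩

omit [Finite G] in
theorem Cfg.act_one {S : SubT} (Q : Quo S) {f : W → W} (h : Act1 φ S 1 f) (k : W) : f k = k := by
  obtain ⟨d, -, e1, e2⟩ := h _ (Q.sur k).1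
  rw [H.uniq e1 (Rl.refl _), (Q.sur k).2] at e2
  exact e2.symm

theorem Cfg.exists_act {S : SubT} (Q : Quo S) {g : G} (h1 : g ∈ Nm φ S)
    (h2 : ∀ f ∈ F, ∃ d ∈ F, Rl φ g f d) : ∃ a b, Act1 φ S g (lin2 a b) := by
  choose f hf1 hf2 using fun k : W => h1 _ (Q.sur k).1
  refine ⟨kp S (f (W.mk 1)), kp S (f (W.mk 2)), fun c hc => ?_⟩
  obtain ⟨d, hd, e⟩ := h2 _ (Q.rep c hc)
  have e2 := (hf2 (kp S c)).mul e
  rw [mul_inv_cancel_left] at e2
  refine ⟨_, mul_mem (hf1 _) (Q.zero d hd).1, e2, ?_⟩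
  rw [Q.hom _ (hf1 _) _ (Q.zero d hd).1, (Q.zero d hd).2]
  have f0 : kp S (f (W.mk 0)) = W.mk 0 := by
    have a0 : Rl φ g (pw S.gs 0) (f (W.mk 0)) := hf2 (W.mk 0)
    have : f (W.mk 0) = 1 := H.uniq a0 (by rw [Q.one]; exact Rl.one g)
    rw [this]
    exact (Q.zero 1 (one_mem _)).2
  have f3 : kp S (f (W.mk 3)) = wx (kp S (f (W.mk 1))) (kp S (f (W.mk 2))) := by
    have a1 : Rl φ g (pw S.gs 1) (f (W.mk 1)) := hf2 (W.mk 1)
    have a2 : Rl φ g (pw S.gs 2) (f (W.mk 2)) := hf2 (W.mk 2)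
    have a3 : Rl φ g (pw S.gs 3) (f (W.mk 3)) := hf2 (W.mk 3)
    have : f (W.mk 3) = f (W.mk 1) * f (W.mk 2) := H.uniq a3 (by
      rw [Q.add]; exact a1.mul a2)
    rw [this, Q.hom _ (hf1 _) _ (hf1 _)]
  have : ∀ k : W, k = W.mk 0 ∨ k = W.mk 1 ∨ k = W.mk 2 ∨ k = W.mk 3 := by decide +kernel
  rcases this (kp S c) with e | e | e | e <;> rw [e]
  · rw [f0]; generalize kp S (f (W.mk 1)) = a, kp S (f (W.mk 2)) = b; revert a b; decide +kernel
  · generalize kp S (f (W.mk 1)) = a, kp S (f (W.mk 2)) = b; revert a b; decide +kernel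
  · generalize kp S (f (W.mk 1)) = a, kp S (f (W.mk 2)) = b; revert a b; decide +kernel
  · rw [f3]; generalize kp S (f (W.mk 1)) = a, kp S (f (W.mk 2)) = b; revert a b; decide +kernel

omit H [Finite G] in
/-- The action on both quotients. -/
def Ak (φ : C →* G) (g : G) (f1 f2 : W → W) : Prop := Act1 φ SU1 g f1 ∧ Act1 φ SU2 g f2

omit H [Finite G] in
theorem Ak.mul {g h : G} {f1 f2 f1' f2' : W → W} (h1 : Ak φ g f1 f2) (h2 : Ak φ h f1' f2') :
    Ak φ (g * h) (f1 ∘ f1') (f2 ∘ f2') := ⟨h1.1.mul h2.1, h1.2.mul h2.2⟩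

omit H [Finite G] in
theorem Ak.congr {g : G} {f1 f2 f1' f2' : W → W} (h : Ak φ g f1 f2) (h1 : ∀ k, f1 k = f1' k)
    (h2 : ∀ k, f2 k = f2' k) : Ak φ g f1' f2' := by
  rwa [← funext h1, ← funext h2]

omit H [Finite G] in
theorem Ak.of {c : C} (hc : c ∈ T) {f1 f2 : W → W} (h : AkC c f1 f2) : Ak φ (φ c) f1 f2 :=
  ⟨fun u hu => ⟨_, normT normU1 c hc u hu, Rl.of c u, h.1 u hu⟩,
    fun u hu => ⟨_, normT normU2 c hc u hu, Rl.of c u, h.2 u hu⟩⟩

omit H [Finite G] in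
theorem Ak.of_R {c : C} (hc : c ∈ R) : Ak φ (φ c) id id :=
  SR.le (K := subOfMul {c | Ak φ (φ c) id id} (Ak.of (one_mem _) (by decide +kernel))
    fun a ha b hb => by
      show Ak φ (φ (a * b)) id id
      rw [map_mul]
      exact Ak.mul ha hb) (fun g hg => Ak.of (by revert g; decide +kernel) (ak_R g hg)) hc

theorem Cfg.exists_ak {g : G} (h : g ∈ Nm φ SU1 ⊓ Nm φ SU2) :
    ∃ a b c d, Ak φ g (lin2 a b) (lin2 c d) := by
  have h2 : ∀ f ∈ F, ∃ d ∈ F, Rl φ g f d := fun f hf => by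
    obtain ⟨d, hd, e⟩ := h.1 f (F_U1 f hf)
    obtain ⟨d', hd', e'⟩ := h.2 f (F_U2 f hf)
    exact ⟨d, F_of d hd (H.uniq e e' ▸ hd'), e⟩
  obtain ⟨a, b, h3⟩ := H.exists_act quo1 h.1 h2
  obtain ⟨c, d, h4⟩ := H.exists_act quo2 h.2 h2
  exact ⟨a, b, c, d, h3, h4⟩

omit H [Finite G] in
theorem Ak.cF {g : G} {f1 f2 : W → W} (h : Ak φ g f1 f2) (a b : W) :
    Rl φ g (cF a b) (cF (f1 a) (f2 b)) := by
  obtain ⟨u, hu, e1, e2⟩ := h.1 _ (quo1.sur a).1
  obtain ⟨v, hv, e3, e4⟩ := h.2 _ (quo2.sur b).1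
  have := (e1.mul e3).mul (e1.mul e3)
  rwa [comm_k _ (quo1.sur a).1 _ (quo2.sur b).1, comm_k _ hu _ hv, e2, e4, (quo1.sur a).2,
    (quo2.sur b).2] at this

omit [Finite G] in
theorem Cfg.ak_ker {g : G} {f1 f2 : W → W} (h : Ak φ g f1 f2) (h1 : ∀ k, f1 k = k)
    (h2 : ∀ k, f2 k = k) : ∃ r ∈ R, φ r = g := by
  have e := h.cF (W.mk 1) (W.mk 2)
  rw [h1, h2, (by decide +kernel : cF (W.mk 1) (W.mk 2) = z)] at e
  obtain ⟨c, rfl⟩ := H.cen g e.comm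
  obtain ⟨u, hu, e1, e2⟩ := h.1 x23 (by decide +kernel)
  obtain ⟨v, hv, e3, e4⟩ := h.2 x34 (by decide +kernel)
  rw [← H.of_eq e1] at hu e2
  rw [← H.of_eq e3] at hv e4
  exact ⟨c, ker_R c (t_norm (R_T _ (U1_R _ hu)) (R_T _ (U2_R _ hv))) (e2.trans (h1 _))
    (e4.trans (h2 _)), rfl⟩

omit H [Finite G] in
/-- Conjugate to an element of rank one of the intersection. -/
def Col (φ : C →* G) (c : C) : Prop :=
  IsConj (φ z) (φ c) ∨ IsConj (φ x14) (φ c) ∨ IsConj (φ x25) (φ c) ∨ IsConj (φ x24) (φ c)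

omit H [Finite G] in
theorem Col.trans {c d : C} (h : Col φ c) (h' : IsConj (φ c) (φ d)) : Col φ d :=
  h.imp (·.trans h') (Or.imp (·.trans h') (Or.imp (·.trans h') (·.trans h')))

theorem Cfg.not_col {c : C} (hc : c ∈ F) (hl : lab c = 4 ∨ lab c = 6) : ¬ Col φ c := by
  have key : ∀ a b, cF a b ∈ F → ¬ IsConj (φ (cF a b)) (φ c) := fun a b hm h => by
    obtain ⟨n, hn, e⟩ := H.ctrlF hm hc h
    obtain ⟨_, _, _, _, h2⟩ := H.exists_ak hn
    rw [H.uniq e (h2.cF a b)] at hl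
    exact hl.elim (rank_cF _ _).1 (rank_cF _ _).2
  rintro (h | h | h | h)
  · exact key (W.mk 1) (W.mk 2) (by decide +kernel) ((by decide +kernel : z = cF (W.mk 1) (W.mk 2)) ▸ h)
  · exact key (W.mk 1) (W.mk 1) (by decide +kernel) ((by decide +kernel : x14 = cF (W.mk 1) (W.mk 1)) ▸ h)
  · exact key (W.mk 2) (W.mk 2) (by decide +kernel) ((by decide +kernel : x25 = cF (W.mk 2) (W.mk 2)) ▸ h)
  · exact key (W.mk 2) (W.mk 1) (by decide +kernel) ((by decide +kernel : x24 = cF (W.mk 2) (W.mk 1)) ▸ h)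

omit H [Finite G] in
theorem conj_rep {c : C} (h : c * c = 1) : IsConj (φ c) (φ (K00.rep (lab c))) := by
  obtain ⟨-, d, hd⟩ := K00.conj h
  exact isConj_iff.mpr ⟨φ d, by rw [← map_inv, ← map_mul, ← map_mul, hd]; rfl⟩

omit H [Finite G] in
theorem colf_val : ∀ e7 e8 : Bool, colf e7 e8 0 = 2 ∧ colf e7 e8 1 = 1 ∧ colf e7 e8 2 = 1 ∧
    colf e7 e8 3 = 1 ∧ colf e7 e8 4 = 0 ∧ colf e7 e8 5 = 1 ∧ colf e7 e8 6 = 0 ∧
    colf false e8 7 = 0 ∧ colf true e8 7 = 1 ∧ colf e7 false 8 = 0 ∧ colf e7 true 8 = 1 := by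
  decide +kernel

theorem Cfg.col_cases {e7 e8 : Bool} (h7 : e7 = true ↔ Col φ (x24 * x13))
    (h8 : e8 = true ↔ Col φ (x24 * x35)) {c : C} (h : c * c = 1) :
    (colf e7 e8 (lab c) = 2 ∧ c = 1) ∨ (colf e7 e8 (lab c) = 1 ∧ c ≠ 1 ∧ Col φ c) ∨
      (colf e7 e8 (lab c) = 0 ∧ c ≠ 1 ∧ ¬ Col φ c) := by
  obtain ⟨v0, v1, v2, v3, v4, v5, v6, v7, v7', v8, v8'⟩ := colf_val e7 e8
  by_cases h1 : c = 1
  · exact Or.inl ⟨by rw [h1, (by decide +kernel : lab 1 = 0), v0], h1⟩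
  right
  have hl : lab c < 9 := (K00.conj h).1
  have hr := conj_rep (φ := φ) h
  have h0 : lab c ≠ 0 := fun e => by
    rw [e, show K00.rep 0 = 1 from K00.r0, map_one, isConj_one_left] at hr
    exact h1 (H.inj (hr.trans (map_one φ).symm))
  have pos : ∀ {a}, K00.rep (lab c) = a → Col φ a → Col φ c := fun e h => h.trans (e ▸ hr.symm)
  have neg : ∀ {a}, K00.rep (lab c) = a → ¬ Col φ a → ¬ Col φ c := fun e h h' =>
    h (h'.trans (e ▸ hr))
  generalize lab c = j at *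
  interval_cases j
  · exact absurd rfl h0
  · exact Or.inl ⟨v1, h1, pos K00.r1 (Or.inl (IsConj.refl _))⟩
  · exact Or.inl ⟨v2, h1,
      pos (by decide +kernel) (Or.inr (Or.inl (IsConj.refl _)))⟩
  · exact Or.inl ⟨v3, h1,
      pos (by decide +kernel) (Or.inr (Or.inr (Or.inl (IsConj.refl _))))⟩
  · exact Or.inr ⟨v4, h1,
      neg rfl (H.not_col (by decide +kernel) (by decide +kernel))⟩
  · exact Or.inl ⟨v5, h1,
      pos (by decide +kernel) (Or.inr (Or.inr (Or.inr (IsConj.refl _))))⟩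
  · exact Or.inr ⟨v6, h1,
      neg rfl (H.not_col (by decide +kernel) (by decide +kernel))⟩
  · cases e7
    · exact Or.inr ⟨v7, h1,
        neg (by decide +kernel) fun e => absurd (h7.mpr e) (by decide)⟩
    · exact Or.inl ⟨v7', h1, pos (by decide +kernel) (h7.mp rfl)⟩
  · cases e8
    · exact Or.inr ⟨v8, h1,
        neg (by decide +kernel) fun e => absurd (h8.mpr e) (by decide)⟩
    · exact Or.inl ⟨v8', h1, pos (by decide +kernel) (h8.mp rfl)⟩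

theorem Cfg.col_inv {e7 e8 : Bool} (h7 : e7 = true ↔ Col φ (x24 * x13))
    (h8 : e8 = true ↔ Col φ (x24 * x35)) {g : G} {c d : C} (h : c * c = 1) (hr : Rl φ g c d) :
    colf e7 e8 (lab c) = colf e7 e8 (lab d) := by
  have hd : d * d = 1 := H.uniq (hr.mul hr) (by rw [h]; exact Rl.one g)
  have e1 : c = 1 ↔ d = 1 := ⟨fun e => H.uniq hr (by rw [e]; exact Rl.one g),
    fun e => H.uniq hr.symm (by rw [e]; exact Rl.one _)⟩
  have e2 : Col φ c ↔ Col φ d := ⟨fun e => e.trans hr.isConj, fun e => e.trans hr.isConj.symm⟩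
  have k1 := H.col_cases h7 h8 h
  have k2 := H.col_cases h7 h8 hd
  generalize colf e7 e8 (lab c) = m, colf e7 e8 (lab d) = n at *
  rcases k1 with h1 | h1 | h1 <;> rcases k2 with h2 | h2 | h2
  · exact h1.1.trans h2.1.symm
  · exact absurd (e1.mp h1.2) h2.2.1
  · exact absurd (e1.mp h1.2) h2.2.1
  · exact absurd (e1.mpr h2.2) h1.2.1
  · exact h1.1.trans h2.1.symm
  · exact absurd (e2.mp h1.2.2) h2.2.2
  · exact absurd (e1.mpr h2.2) h1.2.1
  · exact absurd (e2.mpr h2.2.2) h1.2.2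
  · exact h1.1.trans h2.1.symm

end Cfsg.H5.He
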