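import Cfsg.Agent.H5.HeA

/-!
The elements of order three normalising the product of the two elementary abelian subgroups of
order 64 can be put into a standard position.
-/

set_option autoImplicit false
set_option synthInstance.maxSize 4096
set_option maxRecDepth 100000

namespace Cfsg.H5.He

open Subgroup H8 L0

local notation "z" => (CM.z : C)

variable {G : Type*} [Group G] {φ : C →* G}

theorem bit_land {n : ℕ} (h : Nat.land n 3 = 1) : bit (Nat.shiftRight n 1) 0 = false := by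
  have h1 : n % 4 = 1 := by
    rw [← h]; exact (Nat.and_two_pow_sub_one_eq_mod n 2).symm
  have h2 : Nat.land (Nat.shiftRight (Nat.shiftRight n 1) 0) 1 = 0 := by
    show (n >>> 1 >>> 0) &&& 1 = 0
    rw [Nat.and_one_is_mod, Nat.shiftRight_zero, Nat.shiftRight_eq_div_pow]
    omega
  unfold bit
  rw [show Nat.land (Nat.shiftRight (Nat.shiftRight n 1) 0) (nat_lit 1) = 0 from h2]
  rfl

theorem bit_land' {n : ℕ} (h : Nat.land n 3 = 2) : bit n 0 = false := by
  have h1 : n % 4 = 2 := by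
    rw [← h]; exact (Nat.and_two_pow_sub_one_eq_mod n 2).symm
  have h2 : Nat.land (Nat.shiftRight n 0) 1 = 0 := by
    show (n >>> 0) &&& 1 = 0
    rw [Nat.and_one_is_mod, Nat.shiftRight_zero]
    omega
  unfold bit
  rw [show Nat.land (Nat.shiftRight n 0) (nat_lit 1) = 0 from h2]
  rfl

theorem pw_k1 {p q : C} {l : List C} {n : ℕ} (h : Nat.land n 3 = 1) :
    pw (p :: 1 :: l) n = pw (p :: q :: l) n := by
  simp only [pw, bit_land h]

theorem pw_k2 {p q : C} {l : List C} {n : ℕ} (h : Nat.land n 3 = 2) :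
    pw (1 :: q :: l) n = pw (p :: q :: l) n := by
  rw [pw, pw.eq_2 _ p, bit_land' h]

theorem pw_append {a : C} : ∀ (l : List C) (n : ℕ), n < 2 ^ l.length → pw (l ++ [a]) n = pw l n
  | [], n, h => by
    obtain rfl : n = 0 := by simpa using h
    rfl
  | g :: l, n, h => by
    have := pw_append (a := a) l (Nat.shiftRight n 1) (by
      show n >>> 1 < _
      rw [Nat.shiftRight_eq_div_pow]
      rw [List.length_cons, pow_succ] at h
      omega)
    simp only [List.cons_append, pw, this]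

theorem Rl.conj {g : G} {c d t : C} (h : Rl φ g (t⁻¹ * c * t) (t⁻¹ * d * t)) :
    Rl φ (φ t * g * (φ t)⁻¹) c d := by
  unfold Rl at *
  simp only [map_mul, map_inv] at h
  calc _ = φ t * (g * ((φ t)⁻¹ * φ c * φ t) * g⁻¹) * (φ t)⁻¹ := by group
    _ = _ := by rw [h]; group

theorem cube_conj {g h : G} (hg : g ^ 3 = 1) : (h * g * h⁻¹) ^ 3 = 1 := by
  rw [conj_pow, hg, mul_one, mul_inv_cancel]

/-- An element of order three acting in the required way on the quotients. -/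
def R0 (φ : C →* G) (ρ : G) : Prop := ρ ^ 3 = 1 ∧ Ak φ ρ id cyc

theorem R0.conj {ρ : G} (h : R0 φ ρ) {r : C} (hr : r ∈ R) : R0 φ (φ r * ρ * (φ r)⁻¹) :=
  ⟨cube_conj h.1, by
    rw [← map_inv]
    exact ((Ak.of_R hr).mul h.2).mul (Ak.of_R (inv_mem hr))⟩

variable [Finite G] (H : Cfg φ)
include H

theorem Cfg.exists_r0 (h : IsConj (φ z) (φ x14)) : ∃ ρ, R0 φ ρ := by
  obtain ⟨n, hn, e⟩ := H.ctrlF (by decide +kernel) (by decide +kernel) h
  obtain ⟨a, b, c, d, h1⟩ := H.exists_ak hn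
  obtain ⟨a', b', c', d', h2⟩ := H.exists_ak (inv_mem hn)
  have h3 := h1.mul h2
  rw [mul_inv_cancel] at h3
  have k1 := H.act_one quo1 h3.1
  have k2 := H.act_one quo2 h3.2
  have e1 := h1.cF (W.mk 1) (W.mk 2)
  rw [(by decide +kernel : cF (W.mk 1) (W.mk 2) = z)] at e1
  have hd : d = W.mk 1 := (by decide +kernel : ∀ a b c d : W,
    x14 = cF (lin2 a b (W.mk 1)) (lin2 c d (W.mk 2)) → d = W.mk 1) a b c d (H.uniq e e1)
  have h45 : Ak φ (φ x45) id (lin2 (W.mk 3) (W.mk 2)) := Ak.of (by decide +kernel) ak_45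
  have hw := h45.mul (h1.mul (h45.mul h2))
  have key : ∀ {w : G} {f : W → W}, Ak φ w id f → (∀ k, f (f (f k)) = k) →
      (w ^ 4) ^ 3 = 1 ∧ Ak φ (w ^ 4) id f := fun {w f} hw hf => by
    obtain ⟨r, hr, e⟩ := H.ak_ker (hw.mul (hw.mul hw)) (fun _ => rfl) hf
    refine ⟨?_, ?_⟩
    · calc _ = w * (w * w) * (w * (w * w)) * (w * (w * w) * (w * (w * w))) := by
            simp only [pow_succ, pow_zero, one_mul, mul_assoc]
        _ = 1 := by rw [← e, ← map_mul, ← map_mul, R_four r hr, map_one]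
    · rw [show w ^ 4 = w * (w * w) * w by simp only [pow_succ, pow_zero, one_mul, mul_assoc], ← e]
      exact (Ak.of_R hr).mul hw
  rcases cyc_of c d c' d' k2 hd with h4 | h4
  · exact ⟨_, key (hw.congr k1 h4) (by decide +kernel)⟩
  · obtain ⟨h5, h6⟩ := key (f := fun k => cyc (cyc k)) (hw.congr k1 h4) (by decide +kernel)
    exact ⟨_, by rw [← pow_two, ← pow_mul, mul_comm, pow_mul, h5, one_pow],
      (h6.mul h6).congr (fun _ => rfl) (by decide +kernel)⟩

omit H [Finite G] in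
theorem R0.lF {ρ : G} (h : R0 φ ρ) : List.Forall₂ (Rl φ ρ) [x14, z, x24, x25] lFa := by
  have e : ∀ a b c d, cF a b = c → cF a (cyc b) = d → Rl φ ρ c d := by
    rintro a b _ _ rfl rfl
    exact h.2.cF a b
  exact .cons (e (W.mk 1) (W.mk 1) _ _ (by decide +kernel) (by decide +kernel))
    (.cons (e (W.mk 1) (W.mk 2) _ _ (by decide +kernel) (by decide +kernel))
    (.cons (e (W.mk 2) (W.mk 1) _ _ (by decide +kernel) (by decide +kernel))
    (.cons (e (W.mk 2) (W.mk 2) _ _ (by decide +kernel) (by decide +kernel)) .nil)))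

theorem Cfg.stA {e7 e8 : Bool} (h7 : e7 = true ↔ Col φ (x24 * x13))
    (h8 : e8 = true ↔ Col φ (x24 * x35)) {ρ : G} (h : R0 φ ρ) :
    ∃ ρ, R0 φ ρ ∧ Rl φ ρ (b11 e7) (b11 e7) ∧ Rl φ ρ (b12 e7) (b12 e7) := by
  obtain ⟨p, hp, e1, k1⟩ := h.2.1 x13 (by decide +kernel)
  obtain ⟨p', hp', e2, k2⟩ := h.2.1 x23 (by decide +kernel)
  have k1' : kp SU1 p = W.mk 1 := k1.trans (by decide +kernel)
  have k2' : kp SU1 p' = W.mk 2 := k2.trans (by decide +kernel)
  have al : ∀ u ∈ U1, Rl φ ρ u (pw (p :: p' :: lFa) (SU1.ix u)) := fun u hu => by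
    have := Rl.pw (.cons e1 (.cons e2 h.lF)) (SU1.ix u)
    rwa [show pw [x13, x23, x14, z, x24, x25] (SU1.ix u) = u from (SU1.eq_pw hu).symm] at this
  have am : ∀ u ∈ U1, pw (p :: p' :: lFa) (SU1.ix u) ∈ U1 ∧
      kp SU1 (pw (p :: p' :: lFa) (SU1.ix u)) = kp SU1 u := fun u hu => by
    obtain ⟨d, hd, e, k⟩ := h.2.1 u hu
    rw [← H.uniq e (al u hu)]
    exact ⟨hd, k⟩
  obtain ⟨t, ht, h1, h2⟩ := stepA e7 e8 p hp k1' (by
      have a1 := congrArg TN.val k1'
      have a2 := congrArg TN.val ((am p hp).2.trans k1')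
      rw [pw_k1 (q := p') a1, pw_k1 (q := p') a2]
      exact H.cube h.1 e1 (al p hp) (al _ (am p hp).1)) p' hp' k2' (by
      have a1 := congrArg TN.val k2'
      have a2 := congrArg TN.val ((am p' hp').2.trans k2')
      rw [pw_k2 (p := p) a1, pw_k2 (p := p) a2]
      exact H.cube h.1 e2 (al p' hp') (al _ (am p' hp').1))
    fun u hu => H.col_inv h7 h8 (U1_sq u hu) (al u hu)
  have m : ∀ u ∈ U1, t⁻¹ * u * t ∈ U1 := fun u hu => by
    have := normT normU1 _ (inv_mem (R_T t (U2_R t ht))) u hu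
    rwa [inv_inv] at this
  refine ⟨_, h.conj (U2_R t ht), Rl.conj ?_, Rl.conj ?_⟩
  · have := al _ (m (b11 e7) (by cases e7 <;> decide +kernel))
    rwa [h1] at this
  · have := al _ (m (b12 e7) (by cases e7 <;> decide +kernel))
    rwa [h2] at this

theorem Cfg.stB {e7 e8 : Bool} (h7 : e7 = true ↔ Col φ (x24 * x13))
    (h8 : e8 = true ↔ Col φ (x24 * x35)) {ρ : G} (h : R0 φ ρ) (b1 : Rl φ ρ (b11 e7) (b11 e7))
    (b2 : Rl φ ρ (b12 e7) (b12 e7)) : ∀ c ∈ R, Rl φ ρ c (al e7 c) := by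
  obtain ⟨p, hp, e1, k1⟩ := h.2.2 x34 (by decide +kernel)
  obtain ⟨p', hp', e2, k2⟩ := h.2.2 x35 (by decide +kernel)
  have k1' : kp SU2 p = W.mk 3 := k1.trans (by decide +kernel)
  have k2' : kp SU2 p' = W.mk 1 := k2.trans (by decide +kernel)
  have a0 : ∀ u ∈ U2, Rl φ ρ u (pw (p :: p' :: lFa) (SU2.ix u)) := fun u hu => by
    have := Rl.pw (.cons e1 (.cons e2 h.lF)) (SU2.ix u)
    rwa [show pw [x34, x35, x14, z, x24, x25] (SU2.ix u) = u from (SU2.eq_pw hu).symm] at this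
  have am : ∀ u ∈ U2, pw (p :: p' :: lFa) (SU2.ix u) ∈ U2 := fun u hu => by
    obtain ⟨d, hd, e, -⟩ := h.2.2 u hu
    rw [← H.uniq e (a0 u hu)]
    exact hd
  obtain ⟨rfl, rfl⟩ := stepB e7 e8 p hp k1' p' hp' k2'
    (H.cube h.1 e2 (a0 p' hp') (a0 _ (am p' hp')))
    fun u hu => H.col_inv h7 h8 (U2_sq u hu) (a0 u hu)
  intro c hc
  obtain ⟨c1, c2, c3⟩ := al_pw e7 c (R_R1 c hc)
  have f := h.lF
  simp only [lFa, List.forall₂_cons] at f
  have := Rl.pw (φ := φ) (g := ρ) (l := [b11 e7, b12 e7, x14, z, x24, x25, x34, x35])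
    (l' := [b11 e7, b12 e7, x14 * z, x14, x24 * x25, x24, x34 * x35, x34])
    (.cons b1 (.cons b2 (.cons f.1 (.cons f.2.1 (.cons f.2.2.1 (.cons f.2.2.2.1
      (.cons e1 (.cons e2 .nil)))))))) (w16 (iRT e7) (code c))
  have c4 := c3 hc
  generalize w16 (iRT e7) (code c) = n at *
  rw [← pw_append (a := t1 e7) [b11 e7, b12 e7, x14, z, x24, x25, x34, x35] n c4,
    ← pw_append (a := t1 e7) [b11 e7, b12 e7, x14 * z, x14, x24 * x25, x24, x34 * x35, x34] n c4,
    show [b11 e7, b12 e7, x14, z, x24, x25, x34, x35] ++ [t1 e7] = gR e7 from rfl,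
    show [b11 e7, b12 e7, x14 * z, x14, x24 * x25, x24, x34 * x35, x34] ++ [t1 e7] = gRa e7 from rfl,
    ← c1, ← c2] at this
  exact this

omit [Finite G] in
theorem Cfg.stC {e : Bool} {ρ : G} (h : R0 φ ρ) (hR : ∀ c ∈ R, Rl φ ρ c (al e c)) :
    ∃ ρ, R0 φ ρ ∧ ∀ c ∈ R1, Rl φ ρ c (al e c) := by
  have h12 : Ak φ (φ x12) (lin2 (W.mk 1) (W.mk 3)) id := Ak.of (by decide +kernel) ak_12
  have sq : x12 * x12 = 1 := by decide +kernel
  obtain ⟨r, hr, e1⟩ := H.ak_ker (h12.mul (h.2.mul (h12.mul (h.2.mul h.2))))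
    (by decide +kernel) (by decide +kernel)
  have e2 : Rl φ ρ x12 (x12 * r) := by
    unfold Rl
    rw [map_mul, e1, ← mul_assoc (φ x12), ← map_mul, sq, map_one, one_mul, mul_assoc,
      inv_eq_of_mul_eq_one_left (a := ρ * ρ) (b := ρ) (by rw [← pow_three', h.1])]
  have m1 := ((al_mem e r (R_R1 r hr)).2.1 hr)
  obtain ⟨f, hf, e3⟩ := stepC e r hr (by
      have := H.cube h.1 e2 (e2.mul (hR r hr)) ((e2.mul (hR r hr)).mul (hR _ m1))
      rwa [mul_assoc, mul_assoc, mul_eq_left, ← mul_assoc] at this)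
    (H.uniq (e2.mul e2) (by rw [sq]; exact Rl.one ρ)) fun a ha => by
      have a1 : a ∈ R := by revert a; decide +kernel
      have a2 : x12 * a * x12 ∈ R := by revert a; decide +kernel
      refine H.uniq ((hR _ a2).mul e2) ?_
      rw [mul_assoc, sq, mul_one]
      exact e2.mul (hR a a1)
  have m2 : x12 * (f⁻¹ * t1 e * f) ∈ R :=
    (by decide +kernel : ∀ e : Bool, ∀ f ∈ F, x12 * (f⁻¹ * t1 e * f) ∈ R) e f hf
  have e4 := e2.mul (hR _ m2)
  rw [e3, ← mul_assoc, sq, one_mul] at e4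
  have cm : ∀ r ∈ R, f⁻¹ * r * f = r := fun r hr => by
    rw [mul_assoc, mem_centralizer_singleton_iff.mp (SR.le (K := centralizer {f})
      (fun g hg => mem_centralizer_singleton_iff.mpr (F_R f hf g hg)) hr), inv_mul_cancel_left]
  have hR' : ∀ c ∈ R, Rl φ (φ f * ρ * (φ f)⁻¹) c (al e c) := fun c hc => Rl.conj (by
    rw [cm c hc, cm _ ((al_mem e c (R_R1 c hc)).2.1 hc)]; exact hR c hc)
  refine ⟨_, h.conj (U1_R f (F_U1 f hf)), fun c hc => ?_⟩
  obtain ⟨c1, c2, -⟩ := al_pw e c hc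
  have k : ∀ a b, a ∈ R → al e a = b → Rl φ (φ f * ρ * (φ f)⁻¹) a b := by
    rintro a _ ha rfl
    exact hR' a ha
  have := Rl.pw (φ := φ) (g := φ f * ρ * (φ f)⁻¹) (l := gR e) (l' := gRa e)
    (.cons (k _ _ (by cases e <;> decide +kernel) (by cases e <;> decide +kernel))
    (.cons (k _ _ (by cases e <;> decide +kernel) (by cases e <;> decide +kernel))
    (.cons (k _ _ (by decide +kernel) (by cases e <;> decide +kernel))
    (.cons (k _ _ (by decide +kernel) (by cases e <;> decide +kernel))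
    (.cons (k _ _ (by decide +kernel) (by cases e <;> decide +kernel))
    (.cons (k _ _ (by decide +kernel) (by cases e <;> decide +kernel))
    (.cons (k _ _ (by decide +kernel) (by cases e <;> decide +kernel))
    (.cons (k _ _ (by decide +kernel) (by cases e <;> decide +kernel))
    (.cons (Rl.conj e4) .nil))))))))) (w16 (iRT e) (code c))
  rw [c2]
  nth_rewrite 1 [c1]
  exact this

omit H [Finite G] in
/-- An element of order three in standard position. -/
structure Std (φ : C →* G) (S : SubT) (a : C → C) (i : C) (ρ : G) : Prop where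
  cube : ρ ^ 3 = 1
  act : ∀ c ∈ S.sub, Rl φ ρ c (a c)
  inv : φ i * ρ * φ i * ρ = 1

omit [Finite G] in
theorem Cfg.stD {e : Bool} {ρ : G} (h : R0 φ ρ) (hR : ∀ c ∈ R1, Rl φ ρ c (al e c)) :
    ∃ ρ, Std φ SR1 (al e) x45 ρ := by
  have h45 : Ak φ (φ x45) id (lin2 (W.mk 3) (W.mk 2)) := Ak.of (by decide +kernel) ak_45
  have sq : φ x45 * φ x45 = 1 := by rw [← map_mul, (by decide +kernel : x45 * x45 = 1), map_one]
  have i45 : (φ x45)⁻¹ = φ x45 := inv_eq_of_mul_eq_one_left sq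
  have ri : ρ⁻¹ = ρ * ρ := inv_eq_of_mul_eq_one_left (by rw [← pow_three', h.1])
  obtain ⟨r, hr, e1⟩ := H.ak_ker (h45.mul (h.2.mul (h45.mul h.2)))
    (by decide +kernel) (by decide +kernel)
  rcases stepD e r hr (H.uniq (hR r (R_R1 r hr)) (by
      unfold Rl
      rw [map_mul, map_mul, e1]
      calc _ = (φ x45)⁻¹ * (φ x45 * (ρ * (φ x45 * ρ))) * φ x45 := by group
        _ = _ := by rw [i45])) (fun a ha => by
      have a1 : a ∈ R1 := by revert a; decide +kernel
      have a2 : x45 * a * x45 ∈ R1 := by revert a; decide +kernel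
      have q1 : Rl φ (φ x45 * ρ * (φ x45)⁻¹) a (x45 * al e (x45 * a * x45) * x45) :=
        Rl.conj (by
          rw [(by decide +kernel : x45⁻¹ = x45)]
          convert hR _ a2 using 1
          calc _ = x45 * x45 * al e (x45 * a * x45) * (x45 * x45) := by group
            _ = _ := by rw [(by decide +kernel : x45 * x45 = 1), one_mul, mul_one])
      have q2 := (Rl.of (φ := φ) r _).comp ((hR _ (al_mem e a a1).1).comp (hR a a1))
      rw [← ri, e1, show φ x45 * (ρ * (φ x45 * ρ)) * ρ⁻¹ = φ x45 * ρ * (φ x45)⁻¹ by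
        rw [i45]; group] at q2
      rw [H.uniq q1 q2, inv_mul_cancel_right]) with rfl | rfl
  · exact ⟨ρ, h.1, hR, by rw [mul_assoc, mul_assoc, ← e1, map_one]⟩
  · have cm : ∀ r ∈ R1, x14⁻¹ * r * x14 = r := fun r hr => by
      rw [mul_assoc, mem_centralizer_singleton_iff.mp (SR1.le (K := centralizer {x14})
        (fun g hg => mem_centralizer_singleton_iff.mpr (by revert g; decide +kernel)) hr),
        inv_mul_cancel_left]
    refine ⟨_, cube_conj (h := φ x14) h.1, fun c hc => Rl.conj (by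
      rw [cm c hc, cm _ (al_mem e c hc).1]; exact hR c hc), ?_⟩
    have q1 := hR (x14 * z) (by decide +kernel)
    rw [(by cases e <;> decide +kernel : al e (x14 * z) = z)] at q1
    have q2 : (φ x14)⁻¹ * φ x45 * φ x14 = φ z * φ x45 := by
      rw [← map_inv, ← map_mul, ← map_mul, ← map_mul]
      exact congrArg φ (by decide +kernel)
    have q3 : φ x45 * φ z = φ z * φ x45 := by rw [← map_mul, ← map_mul, CM.z_comm]
    calc _ = φ x14 * ((φ x14)⁻¹ * φ x45 * φ x14) * ρ * ((φ x14)⁻¹ * φ x45 * φ x14) * ρ *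
          (φ x14)⁻¹ := by group
      _ = φ x14 * φ z * φ x45 * ρ * (φ z * φ x45) * ρ * (φ x14)⁻¹ := by rw [q2]; group
      _ = φ x14 * φ z * φ x45 * ρ * (φ x45 * (ρ * φ (x14 * z) * ρ⁻¹)) * ρ * (φ x14)⁻¹ := by
          rw [← q3, q1]
      _ = φ x14 * φ z * (φ x45 * (ρ * (φ x45 * ρ))) * φ (x14 * z) * (φ x14)⁻¹ := by group
      _ = 1 := by
          rw [← e1, ← map_inv, ← map_mul, ← map_mul, ← map_mul, ← map_mul, ← map_one φ]
          exact congrArg φ (by decide +kernel)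

theorem Cfg.std2 {e7 e8 : Bool} (h7 : e7 = true ↔ Col φ (x24 * x13))
    (h8 : e8 = true ↔ Col φ (x24 * x35)) (h : IsConj (φ z) (φ x14)) :
    ∃ ρ, Std φ SR1 (al e7) x45 ρ := by
  obtain ⟨ρ, h0⟩ := H.exists_r0 h
  obtain ⟨ρ, h0, h1, h2⟩ := H.stA h7 h8 h0
  obtain ⟨ρ, h0, h1⟩ := H.stC h0 (H.stB h7 h8 h0 h1 h2)
  exact H.stD h0 h1

omit [Finite G] in
theorem Cfg.dual : Cfg (φ.comp du) :=
  ⟨H.inj.comp (Function.LeftInverse.injective du_du), fun g hg => by
    simp only [MonoidHom.comp_apply, du_z] at hg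
    obtain ⟨c, hc⟩ := H.cen g hg
    exact ⟨du c, by rw [MonoidHom.comp_apply, du_du, hc]⟩⟩

omit H [Finite G] in
theorem col_du {c : C} : Col (φ.comp du) c ↔ Col φ (du c) := by
  unfold Col
  simp only [MonoidHom.comp_apply, du_z, (by decide +kernel : du x14 = x25),
    (by decide +kernel : du x25 = x14), (by decide +kernel : du x24 = x24)]
  tauto

theorem Cfg.std1 {e7 e8 : Bool} (h7 : e7 = true ↔ Col φ (x24 * x13))
    (h8 : e8 = true ↔ Col φ (x24 * x35)) (h : IsConj (φ z) (φ x25)) :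
    ∃ ρ, Std φ SR2 (al1 e7 e8) (i1 e7 e8) ρ := by
  obtain ⟨ρ, h1, h2, h3⟩ := H.dual.std2 (e7 := e8) (e8 := e7)
    (by rw [col_du, (by decide +kernel : du (x24 * x13) = x24 * x35)]; exact h8)
    (by rw [col_du, (by decide +kernel : du (x24 * x35) = x24 * x13)]; exact h7)
    (by simp only [MonoidHom.comp_apply, du_z, (by decide +kernel : du x14 = x25)]; exact h)
  refine ⟨_, cube_conj (h := φ (f0 e7 e8)) h1, fun c hc => Rl.conj ?_, ?_⟩
  · obtain ⟨m, e⟩ := al1_du e7 e8 c hc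
    have := h2 _ m
    unfold Rl at this ⊢
    simp only [MonoidHom.comp_apply, du_du] at this
    rw [this, e]
    exact congrArg φ (by group)
  · simp only [MonoidHom.comp_apply, (by decide +kernel : du x45 = x12)] at h3
    rw [(by cases e7 <;> cases e8 <;> decide +kernel :
      i1 e7 e8 = f0 e7 e8 * x12 * (f0 e7 e8)⁻¹), map_mul, map_mul, map_inv]
    calc _ = φ (f0 e7 e8) * (φ x12 * ρ * φ x12 * ρ) * (φ (f0 e7 e8))⁻¹ := by group
      _ = 1 := by rw [h3, mul_one, mul_inv_cancel]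

end Cfsg.H5.He
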