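import Cfsg.Agent.H5.HeC

/-!
More finite facts about the centraliser of a transvection, checked by evaluation.
-/

set_option autoImplicit false
set_option synthInstance.maxSize 4096
set_option maxRecDepth 100000
set_option exponentiation.threshold 2000

namespace Cfsg.H5.He

open Subgroup

local notation "z" => (CM.z : C)

theorem mem_T {c : C} : c ∈ T ↔ c.s.val < 8 := by
  constructor
  · intro h
    have : c.s.val * 128 + c.q.val < 1024 := msk_lt (M := ST.M) (by decide +kernel) h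
    omega
  · intro h
    have h1 : ∀ k : TN 26 1024, bit ST.M k.val = true := by decide +kernel
    exact h1 ⟨code c, show c.s.val * 128 + c.q.val < 1024 by have := c.q.lt; omega⟩

theorem t_norm {c : C} (h1 : c * x23 * c⁻¹ ∈ T) (h2 : c * x34 * c⁻¹ ∈ T) : c ∈ T := by
  have : ∀ s : L, (s * x23.s * s⁻¹).val < 8 → (s * x34.s * s⁻¹).val < 8 → s.val < 8 := by
    decide +kernel
  exact mem_T.mpr (this c.s (mem_T.mp h1) (mem_T.mp h2))

theorem t_cen1 {c : C} (h1 : c * x23 = x23 * c) (h2 : c * x24 = x24 * c) : c ∈ T := by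
  have : ∀ s : L, s * x23.s = x23.s * s → s * x24.s = x24.s * s → s.val < 8 := by decide +kernel
  exact mem_T.mpr (this c.s (congrArg CM.s h1) (congrArg CM.s h2))

theorem t_cen2 {c : C} (h1 : c * x34 = x34 * c) (h2 : c * x24 = x24 * c) : c ∈ T := by
  have : ∀ s : L, s * x34.s = x34.s * s → s * x24.s = x24.s * s → s.val < 8 := by decide +kernel
  exact mem_T.mpr (this c.s (congrArg CM.s h1) (congrArg CM.s h2))

theorem zT : ∀ c ∈ T, c * x12 = x12 * c → c * x23 = x23 * c → c * x34 = x34 * c →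
    c * x45 = x45 * c → c = 1 ∨ c = z := by decide +kernel

theorem invI : ∀ d ∈ T, d * d = 1 → msk mkI d = true := by decide +kernel

theorem e64 : ∀ c ∈ T, msk mkI c = true → c ∉ U1 → c ∉ U2 → (TN.sum fun k : TN 27 1024 =>
    if msk mkI (enu ST.E 1024 k) = true ∧ c * enu ST.E 1024 k = enu ST.E 1024 k * c then 1
    else 0) < 64 := by decide +kernel

theorem U1_sq : ∀ u ∈ U1, u * u = 1 := by decide +kernel
theorem U2_sq : ∀ u ∈ U2, u * u = 1 := by decide +kernel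
theorem R_four : ∀ r ∈ R, r * r * (r * r) = 1 := by decide +kernel
theorem U1_R : ∀ u ∈ U1, u ∈ R := by decide +kernel
theorem U2_R : ∀ u ∈ U2, u ∈ R := by decide +kernel
theorem F_U1 : ∀ u ∈ F, u ∈ U1 := by decide +kernel
theorem F_U2 : ∀ u ∈ F, u ∈ U2 := by decide +kernel
theorem F_of : ∀ u ∈ U1, u ∈ U2 → u ∈ F := by decide +kernel
theorem R_T : ∀ u ∈ R, u ∈ T := by decide +kernel
theorem R_R1 : ∀ u ∈ R, u ∈ R1 := by decide +kernel
theorem R_R2 : ∀ u ∈ R, u ∈ R2 := by decide +kernel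
theorem R1_T : ∀ u ∈ R1, u ∈ T := by decide +kernel
theorem R2_T : ∀ u ∈ R2, u ∈ T := by decide +kernel
theorem normU1 : ∀ g ∈ ST.gs, ∀ u ∈ U1, g * u * g⁻¹ ∈ U1 := by decide +kernel
theorem normU2 : ∀ g ∈ ST.gs, ∀ u ∈ U2, g * u * g⁻¹ ∈ U2 := by decide +kernel
theorem F_R : ∀ f ∈ F, ∀ g ∈ SR.gs, g * f = f * g := by decide +kernel

theorem cenU1 : ∀ c ∈ T, (∀ g ∈ SU1.gs, c * g = g * c) → c ∈ U1 := by decide +kernel
theorem cenU2 : ∀ c ∈ T, (∀ g ∈ SU2.gs, c * g = g * c) → c ∈ U2 := by decide +kernel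

/-- The quotient of an elementary abelian subgroup of order 64 by the intersection. -/
abbrev W : Type := TN 28 4

/-- The element with a given code. -/
def W.mk (n : ℕ) (h : n < 4 := by norm_num) : W := ⟨n, h⟩

theorem wx_lt : ∀ a b : W, Nat.xor a.val b.val < 4 := by decide +kernel

/-- Addition. -/
def wx (a b : W) : W := ⟨Nat.xor a.val b.val, wx_lt a b⟩
/-- The linear map with given values on the basis. -/
def lin2 (a b k : W) : W := wx (@Bool.rec (fun _ => W) (W.mk 0) a (bit k.val 0))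
  (@Bool.rec (fun _ => W) (W.mk 0) b (bit k.val 1))
/-- The class in the quotient. -/
def kp (S : SubT) (c : C) : W := ⟨Nat.land (S.ix c) 3, Nat.lt_succ_of_le Nat.and_le_right⟩
/-- The commutator of two classes. -/
def cF (a b : W) : C := dec (w16 cFT (Nat.add (Nat.mul a.val 4) b.val))

/-- The facts used about either quotient. -/
structure Quo (S : SubT) : Prop where
  hom : ∀ c ∈ S.sub, ∀ d ∈ S.sub, kp S (c * d) = wx (kp S c) (kp S d)
  zero : ∀ f ∈ F, f ∈ S.sub ∧ kp S f = W.mk 0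
  rep : ∀ c ∈ S.sub, (pw S.gs (kp S c).val)⁻¹ * c ∈ F
  sur : ∀ k : W, pw S.gs k.val ∈ S.sub ∧ kp S (pw S.gs k.val) = k
  add : pw S.gs 3 = pw S.gs 1 * pw S.gs 2
  one : pw S.gs 0 = 1

theorem quo1 : Quo SU1 := by constructor <;> decide +kernel
theorem quo2 : Quo SU2 := by constructor <;> decide +kernel

theorem comm_k : ∀ u ∈ U1, ∀ v ∈ U2, u * v * (u * v) = cF (kp SU1 u) (kp SU2 v) := by
  decide +kernel

theorem ker_R : ∀ c ∈ T, kp SU1 (c * x23 * c⁻¹) = kp SU1 x23 →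
    kp SU2 (c * x34 * c⁻¹) = kp SU2 x34 → c ∈ R := by decide +kernel

/-- The conjugation action on both quotients. -/
def AkC (c : C) (f1 f2 : W → W) : Prop :=
  (∀ u ∈ U1, kp SU1 (c * u * c⁻¹) = f1 (kp SU1 u)) ∧ ∀ u ∈ U2, kp SU2 (c * u * c⁻¹) = f2 (kp SU2 u)

instance instDecAkC (c : C) (f1 f2 : W → W) : Decidable (AkC c f1 f2) :=
  inferInstanceAs (Decidable (_ ∧ _))

theorem ak_R : ∀ g ∈ SR.gs, AkC g id id := by decide +kernel
theorem ak_45 : AkC x45 id (lin2 (W.mk 3) (W.mk 2)) := by decide +kernel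
theorem ak_12 : AkC x12 (lin2 (W.mk 1) (W.mk 3)) id := by decide +kernel

/-- A three-cycle. -/
def cyc : W → W := lin2 (W.mk 3) (W.mk 1)

theorem cyc_of : ∀ c d c' d' : W, (∀ k, lin2 c d (lin2 c' d' k) = k) → d = W.mk 1 →
    (∀ k, lin2 (W.mk 3) (W.mk 2) (lin2 c d (lin2 (W.mk 3) (W.mk 2) (lin2 c' d' k))) = cyc k) ∨
    (∀ k, lin2 (W.mk 3) (W.mk 2) (lin2 c d (lin2 (W.mk 3) (W.mk 2) (lin2 c' d' k))) =
      cyc (cyc k)) := by decide +kernel

/-- The label. -/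
def lab (c : C) : ℕ := K00.lab c

/-- The colour of a label. -/
def colf (e7 e8 : Bool) (j : ℕ) : ℕ :=
  byte (Nat.add (Nat.add 0x010001010102 (@Bool.rec (fun _ => ℕ) 0 0x0100000000000000 e7))
    (@Bool.rec (fun _ => ℕ) 0 0x010000000000000000 e8)) j

theorem rank_cF : ∀ a b : W, lab (cF a b) ≠ 4 ∧ lab (cF a b) ≠ 6 := by decide +kernel

/-- The images of the generators of the intersection. -/
def lFa : List C := [x14 * z, x14, x24 * x25, x24]

theorem stepA : ∀ e7 e8 : Bool, ∀ p ∈ U1, kp SU1 p = W.mk 1 →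
    pw (p :: 1 :: lFa) (SU1.ix (pw (p :: 1 :: lFa) (SU1.ix p))) = x13 →
    ∀ p' ∈ U1, kp SU1 p' = W.mk 2 →
    pw (1 :: p' :: lFa) (SU1.ix (pw (1 :: p' :: lFa) (SU1.ix p'))) = x23 →
    (∀ u ∈ U1, colf e7 e8 (lab u) = colf e7 e8 (lab (pw (p :: p' :: lFa) (SU1.ix u)))) →
    ∃ t ∈ U2, pw (p :: p' :: lFa) (SU1.ix (t⁻¹ * b11 e7 * t)) = t⁻¹ * b11 e7 * t ∧
      pw (p :: p' :: lFa) (SU1.ix (t⁻¹ * b12 e7 * t)) = t⁻¹ * b12 e7 * t := by decide +kernel

theorem stepB : ∀ e7 e8 : Bool, ∀ p ∈ U2, kp SU2 p = W.mk 3 → ∀ p' ∈ U2, kp SU2 p' = W.mk 1 →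
    pw (p :: p' :: lFa) (SU2.ix (pw (p :: p' :: lFa) (SU2.ix p'))) = x35 →
    (∀ u ∈ U2, colf e7 e8 (lab u) = colf e7 e8 (lab (pw (p :: p' :: lFa) (SU2.ix u)))) →
    p = x34 * x35 ∧ p' = x34 := by decide +kernel

/-- The action of the second element of order three. -/
def al (e : Bool) (c : C) : C := dec (w16 (alT e) (code c))
/-- The action of the first element of order three. -/
def al1 (e e' : Bool) (c : C) : C := dec (w16 (al1T e e') (code c))
/-- Generators adapted to the second element of order three. -/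
def gR (e : Bool) : List C := [b11 e, b12 e, x14, z, x24, x25, x34, x35, t1 e]
/-- Their images. -/
def gRa (e : Bool) : List C := [b11 e, b12 e, x14 * z, x14, x24 * x25, x24, x34 * x35, x34, t1 e]

theorem al_pw : ∀ e : Bool, ∀ c ∈ R1, c = pw (gR e) (w16 (iRT e) (code c)) ∧
    al e c = pw (gRa e) (w16 (iRT e) (code c)) ∧ (c ∈ R → w16 (iRT e) (code c) < 256) := by
  decide +kernel

theorem al_mem : ∀ e : Bool, ∀ c ∈ R1, al e c ∈ R1 ∧ (c ∈ R → al e c ∈ R) ∧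
    (c ∈ U1 → al e c ∈ U1) ∧ (c ∈ U2 → al e c ∈ U2) := by decide +kernel

theorem stepC : ∀ e : Bool, ∀ r ∈ R, r * al e r * al e (al e r) = 1 →
    x12 * r * (x12 * r) = 1 →
    (∀ a ∈ SR.gs, al e (x12 * a * x12) * (x12 * r) = x12 * r * al e a) →
    ∃ f ∈ F, x12 * r * al e (x12 * (f⁻¹ * t1 e * f)) = f⁻¹ * t1 e * f := by decide +kernel

theorem stepD : ∀ e : Bool, ∀ r ∈ R, al e r = x45 * r * x45 →
    (∀ a ∈ SR1.gs, x45 * al e (x45 * a * x45) * x45 * r = r * al e (al e a)) →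
    r = 1 ∨ r = x14 := by decide +kernel

theorem dq_lt : ∀ q : Q, byte dqT q.val < 128 := by decide +kernel
theorem ds_lt : ∀ s : L, byte dsT s.val < 168 := by decide +kernel

/-- The duality on the normal subgroup. -/
def dq (q : Q) : Q := ⟨byte dqT q.val, dq_lt q⟩
/-- The duality on the quotient. -/
def ds (s : L) : L := ⟨byte dsT s.val, ds_lt s⟩

theorem dq_mul (p q : Q) : dq (p * q) = dq p * dq q := by
  have h : ∀ g ∈ Q.gs, ∀ q, dq (g * q) = dq g * dq q := by decide +kernel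
  refine Q.ind (P := fun p => dq (p * q) = dq p * dq q) ?_ (fun g hg m ih => ?_) p
  · rw [one_mul, (by decide +kernel : dq 1 = 1), one_mul]
  · rw [mul_assoc, h g hg, h g hg, ih, mul_assoc]

theorem ds_mul (p q : L) : ds (p * q) = ds p * ds q := by
  have h : ∀ g ∈ L.gs, ∀ q, ds (g * q) = ds g * ds q := by decide +kernel
  refine L.ind (P := fun p => ds (p * q) = ds p * ds q) ?_ (fun g hg m ih => ?_) p
  · rw [one_mul, (by decide +kernel : ds 1 = 1), one_mul]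
  · rw [mul_assoc, h g hg, h g hg, ih, mul_assoc]

theorem dq_ap (s : L) (q : Q) : dq (A0.ap s q) = A0.ap (ds s) (dq q) := by
  have h : ∀ g ∈ L.gs, ∀ q, dq (A0.ap g q) = A0.ap (ds g) (dq q) := by decide +kernel
  refine L.ind (P := fun s => dq (A0.ap s q) = A0.ap (ds s) (dq q)) ?_ (fun g hg m ih => ?_) s
  · rw [(by decide +kernel : ds 1 = 1), A0.one_ap, A0.one_ap]
  · rw [A0.mul_ap, h g hg, ih, ds_mul, A0.mul_ap]

/-- The duality. -/
def du : C →* C := MonoidHom.mk' (fun c => ⟨dq c.q, ds c.s⟩) fun c d => by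
  rw [CM.mul_def, CM.mul_def]
  simp only [gt, tz_false, dq_mul, ds_mul, dq_ap]

theorem du_du (c : C) : du (du c) = c := by
  have h1 : ∀ q, dq (dq q) = q := by decide +kernel
  have h2 : ∀ q, ds (ds q) = q := by decide +kernel
  exact CM.ext (h1 _) (h2 _)

theorem du_z : du z = z := by decide +kernel

theorem al1_du : ∀ e e' : Bool, ∀ c ∈ R2, du ((f0 e e')⁻¹ * c * f0 e e') ∈ R1 ∧
    al1 e e' c = f0 e e' * du (al e' (du ((f0 e e')⁻¹ * c * f0 e e'))) * (f0 e e')⁻¹ := by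
  decide +kernel

theorem al1_mem : ∀ e e' : Bool, ∀ c ∈ R2, al1 e e' c ∈ R2 ∧ (c ∈ R → al1 e e' c ∈ R) ∧
    (c ∈ U1 → al1 e e' c ∈ U1) ∧ (c ∈ U2 → al1 e e' c ∈ U2) := by decide +kernel

theorem al_comm : ∀ e e' : Bool, ∀ c ∈ SR.gs, al e (al1 e e' (al e (al e (al1 e e' (al1 e e' c))))) = c := by
  decide +kernel

theorem cenR : ∀ c ∈ T, (∀ g ∈ SR.gs, c * g = g * c) → c ∈ F := by decide +kernel

theorem solveF : ∀ e e' : Bool, ∀ r ∈ F, ∃ f ∈ F, al e (f * al1 e e' f⁻¹) * r = f * al1 e e' f⁻¹ := by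
  decide +kernel

theorem stepE : ∀ e e' : Bool, ∀ f ∈ F,
    al1 e e' (f * t2 e e' * f⁻¹ * x45 * al e (al e (f * t2 e e' * f⁻¹ * x45)⁻¹)) =
      f * t2 e e' * f⁻¹ * x45 * al e (al e (f * t2 e e' * f⁻¹ * x45)⁻¹) →
    al e (t1 e * (f * i1 e e' * f⁻¹) * al1 e e' (al1 e e' (t1 e * (f * i1 e e' * f⁻¹))⁻¹)) =
      t1 e * (f * i1 e e' * f⁻¹) * al1 e e' (al1 e e' (t1 e * (f * i1 e e' * f⁻¹))⁻¹) →
    f = 1 ∨ f = z := by decide +kernel

theorem fpf1 : ∀ e e' : Bool, ∀ u ∈ U1, al1 e e' u = u → u = 1 := by decide +kernel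
theorem fpf2 : ∀ e : Bool, ∀ u ∈ U2, al e u = u → u = 1 := by decide +kernel

theorem solve1 : ∀ e e' : Bool, ∀ u0 ∈ U1, ∃ u ∈ U1, y43 * (u * al1 e e' u⁻¹) * y43⁻¹ * u0 = 1 := by
  decide +kernel
theorem solve2 : ∀ e : Bool, ∀ u0 ∈ U2, ∃ u ∈ U2, y32 * (u * al e u⁻¹) * y32⁻¹ * u0 = 1 := by
  decide +kernel

/-- The tests that single out the complement. -/
def Tst (S : SubT) (w s0 s1 s2 s3 : C) : Prop :=
  (w * w ∈ S.sub → w * w = 1) ∧ (w * s0 * w * s0 ∈ S.sub → w * s0 * w * s0 = 1) ∧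
  (w * s2 * w * s2 * w * s2 ∈ S.sub → w * s2 * w * s2 * w * s2 = 1) ∧
  (w * s3 * w * s3 ∈ S.sub → w * s3 * w * s3 = 1) ∧
  (w * s1 * w * s1 * s3 ∈ S.sub → w * s1 * w * s1 * s3 = 1)

instance instDecTst (S : SubT) (w s0 s1 s2 s3 : C) : Decidable (Tst S w s0 s1 s2 s3) :=
  inferInstanceAs (Decidable (_ ∧ _ ∧ _ ∧ _ ∧ _))

theorem pick1 : ∀ e e' : Bool, ∀ u ∈ U1,
    Tst SU1 (y43 * u) (i1 e e') (b21 e e') (b22 e e') (t2 e e') → y43 * u = w43 e e' := by
  decide +kernel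
theorem pick2 : ∀ e e' : Bool, ∀ u ∈ U2,
    Tst SU2 (y32 * u) x45 (b11 e) (b12 e) (t1 e) → y32 * u = w32 e e' := by
  decide +kernel

end Cfsg.H5.He
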