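import Cfsg.Agent.H5.HeB
import Cfsg.Agent.H6.PG

/-!
The two elements of order three can be chosen to commute, and the relators of the amalgam are
checked by an evaluation in the table group.
-/

set_option autoImplicit false
set_option synthInstance.maxSize 4096
set_option maxRecDepth 100000

namespace Cfsg.H5.He

open Subgroup H8 L0 H6

local notation "z" => (CM.z : C)

variable {G : Type*} [Group G] {φ : C →* G}

theorem inv_of_cube {ρ : G} (h : ρ ^ 3 = 1) : ρ⁻¹ = ρ * ρ :=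
  inv_eq_of_mul_eq_one_left (by rw [← pow_three', h])

theorem twist {ρ σ : G} (h3 : ρ ^ 3 = 1) {i s a b : C} (hi : φ i * ρ * φ i * ρ = 1)
    (hii : i * i = 1) (h1 : Rl φ ρ s⁻¹ a) (h2 : Rl φ ρ a b) (c1 : Commute σ ρ)
    (c2 : Rl φ σ (s * i) (s * i)) : Rl φ σ (s * b) (s * b) := by
  have e := h2.comp h1
  unfold Rl at e
  rw [← inv_of_cube h3, map_inv] at e
  have ii : (φ i)⁻¹ = φ i := by rw [← map_inv, inv_eq_of_mul_eq_one_left hii]
  have e2 : φ (s * b) = φ (s * i) * ρ * (φ (s * i))⁻¹ * ρ := by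
    rw [map_mul, map_mul, ← e, mul_inv_rev, ii]
    calc _ = φ s * (φ i * ρ * φ i * ρ) * ρ⁻¹ * (φ s)⁻¹ * ρ := by rw [hi]; group
      _ = _ := by group
  have c3 : Commute σ (φ (s * i)) := c2.comm
  refine Rl.of_comm ?_
  rw [e2]
  exact ((c3.mul_right c1).mul_right c3.inv_right).mul_right c1

theorem conj_eq {ρ : G} {u a : C} (h : Rl φ ρ u⁻¹ a) : φ u * ρ * (φ u)⁻¹ = φ (u * a) * ρ := by
  unfold Rl at h
  rw [map_mul, ← h, map_inv]; group

variable (H : Cfg φ)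
include H

theorem Cfg.cen_of {g : G} {l : List C} (hz : z ∈ l) (h : ∀ c ∈ l, Rl φ g c c) :
    ∃ r, φ r = g ∧ ∀ c ∈ l, r * c = c * r := by
  obtain ⟨r, rfl⟩ := H.cen g (h _ hz).comm
  exact ⟨r, rfl, fun c hc => mul_inv_eq_iff_eq_mul.mp (H.of_eq (h c hc))⟩

theorem Cfg.both {e e' : Bool} {ρ1 ρ2 : G} (s1 : Std φ SR2 (al1 e e') (i1 e e') ρ1)
    (s2 : Std φ SR1 (al e) x45 ρ2) : ∃ ρ1 ρ2, Std φ SR2 (al1 e e') (i1 e e') ρ1 ∧
      Std φ SR1 (al e) x45 ρ2 ∧ Commute ρ1 ρ2 := by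
  have r1 : ∀ c ∈ R, Rl φ ρ1 c (al1 e e' c) := fun c hc => s1.act c (R_R2 c hc)
  have r2 : ∀ c ∈ R, Rl φ ρ2 c (al e c) := fun c hc => s2.act c (R_R1 c hc)
  have m1 : ∀ c ∈ R, al1 e e' c ∈ R := fun c hc => (al1_mem e e' c (R_R2 c hc)).2.1 hc
  have m2 : ∀ c ∈ R, al e c ∈ R := fun c hc => (al_mem e c (R_R1 c hc)).2.1 hc
  obtain ⟨r, er, hr⟩ := H.cen_of (g := ρ2 * (ρ1 * (ρ2 * (ρ2 * (ρ1 * ρ1))))) (l := SR.gs)
    (by decide +kernel) fun c hc => by
      have a1 : c ∈ R := by revert c; decide +kernel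
      have := (r2 _ (m1 _ (m2 _ (m2 _ (m1 _ (m1 _ a1)))))).comp
        ((r1 _ (m2 _ (m2 _ (m1 _ (m1 _ a1))))).comp ((r2 _ (m2 _ (m1 _ (m1 _ a1)))).comp
        ((r2 _ (m1 _ (m1 _ a1))).comp ((r1 _ (m1 _ a1)).comp (r1 _ a1)))))
      rwa [al_comm e e' c hc] at this
  have rF := cenR r (t_cen1 (hr _ (by decide +kernel)) (hr _ (by decide +kernel))) hr
  obtain ⟨f, hf, ef⟩ := solveF e e' r rF
  have fR := U1_R f (F_U1 f hf)
  have e1 := conj_eq (r1 _ (inv_mem fR))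
  have er' : φ r = ρ2 * ρ1 * ρ2⁻¹ * ρ1⁻¹ := by
    rw [er, inv_of_cube s1.cube, inv_of_cube s2.cube]; simp only [mul_assoc]
  have cm : Commute (φ f * ρ1 * (φ f)⁻¹) ρ2 := by
    have := r2 _ (mul_mem fR (m1 _ (inv_mem fR)))
    unfold Rl at this
    rw [e1]
    show _ * _ = _ * _
    conv_lhs => rw [← ef, map_mul, ← this, er']
    group
  have cf : ∀ r ∈ R, f⁻¹ * r * f = r := fun r hr => by
    rw [mul_assoc, mem_centralizer_singleton_iff.mp (SR.le (K := centralizer {f})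
      (fun g hg => mem_centralizer_singleton_iff.mpr (F_R f hf g hg)) hr), inv_mul_cancel_left]
  have r1' : ∀ c ∈ R, Rl φ (φ f * ρ1 * (φ f)⁻¹) c (al1 e e' c) := fun c hc => Rl.conj (by
    rw [cf c hc, cf _ (m1 c hc)]; exact r1 c hc)
  obtain ⟨k1, k2, k3, k4, k5⟩ := (by decide +kernel : ∀ e e' : Bool, ∀ f ∈ F,
    f * t2 e e' * f⁻¹ * x45 ∈ R ∧ t1 e * (f * i1 e e' * f⁻¹) ∈ R ∧
    f * i1 e e' * f⁻¹ * (f * i1 e e' * f⁻¹) = 1 ∧ (t2 e e' ∈ R2 ∧ al1 e e' (t2 e e') = t2 e e') ∧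
    t1 e ∈ R1 ∧ al e (t1 e) = t1 e) e e' f hf
  have sq : x45 * x45 = 1 := by decide +kernel
  rcases stepE e e' f hf (H.uniq (r1' _ (mul_mem k1 (m2 _ (m2 _ (inv_mem k1)))))
      (twist s2.cube s2.inv sq (r2 _ (inv_mem k1)) (r2 _ (m2 _ (inv_mem k1))) cm (by
        rw [mul_assoc _ x45, sq, mul_one]
        refine Rl.conj ?_
        have := s1.act _ k4.1
        rw [k4.2] at this
        convert this using 1 <;> group)))
      (H.uniq (r2 _ (mul_mem k2 (m1 _ (m1 _ (inv_mem k2)))))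
      (twist (i := f * i1 e e' * f⁻¹) (cube_conj (h := φ f) s1.cube) (by
          rw [map_mul, map_mul, map_inv]
          calc _ = φ f * (φ (i1 e e') * ρ1 * φ (i1 e e') * ρ1) * (φ f)⁻¹ := by group
            _ = 1 := by rw [s1.inv, mul_one, mul_inv_cancel])
        k3 (r1' _ (inv_mem k2)) (r1' _ (m1 _ (inv_mem k2))) cm.symm (by
        rw [mul_assoc (t1 e), k3, mul_one]
        have := s2.act _ k5.1
        rwa [k5.2] at this))) with rfl | rfl
  · rw [map_one, one_mul, inv_one, mul_one] at cm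
    exact ⟨ρ1, ρ2, s1, s2, cm⟩
  · have cz : ∀ c : C, z * c * z⁻¹ = c := fun c => by rw [CM.z_comm, mul_inv_cancel_right]
    refine ⟨ρ1, (φ z)⁻¹ * ρ2 * φ z, s1, ⟨?_, fun c hc => ?_, ?_⟩, ?_⟩
    · have := cube_conj (h := (φ z)⁻¹) s2.cube
      rwa [inv_inv] at this
    · have := Rl.conj (φ := φ) (g := ρ2) (t := z⁻¹) (c := c) (d := al e c) (by
        rw [inv_inv, cz, cz]; exact s2.act c hc)
      rwa [map_inv, inv_inv] at this
    · have q : φ x45 = (φ z)⁻¹ * φ x45 * φ z := by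
        rw [mul_assoc, ← map_mul, ← CM.z_comm, map_mul, inv_mul_cancel_left]
      rw [q]
      calc _ = (φ z)⁻¹ * (φ x45 * ρ2 * φ x45 * ρ2) * φ z := by group
        _ = 1 := by rw [s2.inv, mul_one, inv_mul_cancel]
    · show _ * _ = _ * _
      calc _ = (φ z)⁻¹ * (φ z * ρ1 * (φ z)⁻¹ * ρ2) * φ z := by group
        _ = _ := by rw [cm.eq]; group

omit H in
/-- The facts about the action on an elementary abelian subgroup. -/
structure SideC (S S' : SubT) (a : C → C) : Prop where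
  le : ∀ u ∈ S.sub, u ∈ S'.sub ∧ a u ∈ S.sub
  fpf : ∀ u ∈ S.sub, a u = u → u = 1
  zm : z ∈ S.gs
  gm : ∀ u ∈ S.gs, u ∈ S.sub
  cen : ∀ c, (∀ g ∈ S.gs, c * g = g * c) → c ∈ S.sub
  sq : ∀ u ∈ S.sub, u * u = 1

omit H in
theorem side1 (e e' : Bool) : SideC SU1 SR2 (al1 e e') :=
  ⟨fun u hu => ⟨R_R2 u (U1_R u hu), (al1_mem e e' u (R_R2 u (U1_R u hu))).2.2.1 hu⟩, fpf1 e e',
    by decide +kernel, by decide +kernel,
    fun c h => cenU1 c (t_cen1 (h _ (by decide +kernel)) (h _ (by decide +kernel))) h, U1_sq⟩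

omit H in
theorem side2 (e : Bool) : SideC SU2 SR1 (al e) :=
  ⟨fun u hu => ⟨R_R1 u (U2_R u hu), (al_mem e u (R_R1 u (U2_R u hu))).2.2.2 hu⟩, fpf2 e,
    by decide +kernel, by decide +kernel,
    fun c h => cenU2 c (t_cen2 (h _ (by decide +kernel)) (h _ (by decide +kernel))) h, U2_sq⟩

omit H in
/-- The elements centralising or inverting an element. -/
def Nr (ρ : G) : Subgroup G where
  carrier := {g | g * ρ * g⁻¹ = ρ ∨ g * ρ * g⁻¹ = ρ⁻¹}
  one_mem' := Or.inl (by simp)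
  mul_mem' := by
    rintro g h (hg | hg) (hh | hh)
    · left; rw [← hg]; conv_lhs => rw [hg]
      rw [← hh]; conv_lhs => rw [hh]
      group
    · right; rw [← hg]; conv_lhs => rw [hg]
      calc _ = g * (h * ρ * h⁻¹) * g⁻¹ := by group
        _ = _ := by rw [hh]; group
    · right; rw [← hg]
      calc _ = g * (h * ρ * h⁻¹) * g⁻¹ := by group
        _ = _ := by rw [hh]
    · left
      calc _ = g * (h * ρ * h⁻¹) * g⁻¹ := by group
        _ = (g * ρ * g⁻¹)⁻¹ := by rw [hh]; group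
        _ = _ := by rw [hg, inv_inv]
  inv_mem' := by
    rintro g (hg | hg)
    · left; conv_lhs => rw [← hg]
      group
    · right; rw [← inv_inv ρ]; conv_lhs => rw [← hg]
      group

omit H in
theorem Nr.of_comm {ρ g : G} (h : Commute ρ g) : g ∈ Nr ρ :=
  Or.inl (by rw [← h.eq, mul_inv_cancel_right])

theorem Cfg.triv {S S' : SubT} {a : C → C} {i : C} {ρ : G} (K : SideC S S' a)
    (s : Std φ S' a i ρ) {c : C} (hc : c ∈ S.sub) (h : φ c ∈ Nr ρ) : c = 1 := by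
  have e := conj_eq (s.act _ (K.le _ (inv_mem hc)).1)
  have e1 := (s.act _ (K.le _ hc).1).inv
  rw [H.uniq (s.act _ (K.le _ (inv_mem hc)).1) e1] at e
  rcases h with h | h
  · rw [h, eq_comm, mul_eq_right, ← map_one φ] at e
    exact K.fpf c hc (mul_inv_eq_one.mp (H.inj e)).symm
  · rw [h, inv_of_cube s.cube, mul_left_inj] at e
    have hz := K.gm _ K.zm
    have e2 := s.act _ (K.le _ hz).1
    rw [e] at e2
    have e3 := H.of_eq e2
    rw [← CM.z_comm, mul_inv_cancel_right] at e3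
    exact absurd (K.fpf _ hz e3.symm) CM.z_ne

theorem Cfg.triv' {S S' : SubT} {a : C → C} {i : C} {ρ : G} (K : SideC S S' a)
    (s : Std φ S' a i ρ) {g : G} (hg : ∀ u ∈ S.gs, Rl φ g u u) (h : g ∈ Nr ρ) : g = 1 := by
  obtain ⟨r, rfl, hr⟩ := H.cen_of K.zm hg
  rw [H.triv K s (K.cen r hr) h, map_one]

omit H in
theorem Std.nr {S' : SubT} {a : C → C} {i : C} {ρ : G} (s : Std φ S' a i ρ) (hi : i * i = 1) :
    φ i ∈ Nr ρ := Or.inr (by
  rw [← map_inv, inv_eq_of_mul_eq_one_left hi]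
  exact eq_inv_of_mul_eq_one_left s.inv)

omit H in
theorem Std.nr' {S' : SubT} {a : C → C} {i : C} {ρ : G} (s : Std φ S' a i ρ) {c : C}
    (h : c ∈ S'.sub ∧ a c = c) : φ c ∈ Nr ρ := by
  have := s.act c h.1
  rw [h.2] at this
  exact Nr.of_comm this.comm

theorem Cfg.exists_w {S S' : SubT} {a : C → C} {i : C} {ρ : G} (K : SideC S S' a)
    (s : Std φ S' a i ρ) {y w s1 s2 s3 : C} (hi : i * i = 1)
    (h1 : (s1 ∈ S'.sub ∧ a s1 = s1) ∧ (s2 ∈ S'.sub ∧ a s2 = s2) ∧ (s3 ∈ S'.sub ∧ a s3 = s3))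
    (hy : ∀ u ∈ S.gs, y⁻¹ * a (a u) * y ∈ S.sub ∧ y * a (y⁻¹ * a (a u) * y) * y⁻¹ = u)
    (sol : ∀ u0 ∈ S.sub, ∃ u ∈ S.sub, y * (u * a u⁻¹) * y⁻¹ * u0 = 1)
    (pick : ∀ u ∈ S.sub, Tst S (y * u) i s1 s2 s3 → y * u = w) : Commute ρ (φ w) := by
  obtain ⟨r, er, hr⟩ := H.cen_of (g := φ y * ρ * (φ y)⁻¹ * (ρ * ρ)) K.zm fun u hu => by
    have a1 := K.gm u hu
    refine Rl.comp (Rl.conj ?_) ((s.act _ (K.le _ (K.le _ a1).2).1).comp (s.act _ (K.le _ a1).1))
    convert s.act _ (K.le _ (hy u hu).1).1 using 1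
    conv_lhs => rw [← (hy u hu).2]
    group
  obtain ⟨u, hu, eu⟩ := sol r (K.cen r hr)
  have e := conj_eq (s.act _ (K.le _ (inv_mem hu)).1)
  have cm : Commute ρ (φ (y * u)) := by
    have e2 := congrArg φ eu
    rw [map_mul, er, ← inv_of_cube s.cube, map_one, map_mul, map_mul, map_inv] at e2
    show _ * _ = _ * _
    rw [map_mul]
    calc _ = φ y * φ (u * a u⁻¹) * (φ y)⁻¹ * (φ y * ρ * (φ y)⁻¹ * ρ⁻¹) * ρ * (φ y * φ u) := by
          rw [e2, one_mul]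
      _ = φ y * (φ (u * a u⁻¹) * ρ) * φ u := by group
      _ = _ := by rw [← e]; group
  rw [← pick u hu ?_]
  · exact cm
  have n0 := Nr.of_comm cm
  have ni := s.nr hi
  have n1 := s.nr' h1.1
  have n2 := s.nr' h1.2.1
  have n3 := s.nr' h1.2.2
  generalize y * u = w at *
  refine ⟨fun h => H.triv K s h ?_, fun h => H.triv K s h ?_, fun h => H.triv K s h ?_,
    fun h => H.triv K s h ?_, fun h => H.triv K s h ?_⟩ <;> simp only [map_mul] <;>
    repeat' first | assumption | apply mul_mem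

omit H in
/-- The full configuration. -/
structure Full (φ : C →* G) (e e' : Bool) (ρ1 ρ2 : G) : Prop where
  s1 : Std φ SR2 (al1 e e') (i1 e e') ρ1
  s2 : Std φ SR1 (al e) x45 ρ2
  cm : Commute ρ1 ρ2
  w1 : Commute ρ1 (φ (w43 e e'))
  w2 : Commute ρ2 (φ (w32 e e'))

theorem Cfg.w1 {e e' : Bool} {ρ : G} (s : Std φ SR2 (al1 e e') (i1 e e') ρ) :
    Commute ρ (φ (w43 e e')) :=
  H.exists_w (side1 e e') s (y := y43) (by cases e <;> cases e' <;> decide +kernel)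
    (by cases e <;> cases e' <;> decide +kernel) (by cases e <;> cases e' <;> decide +kernel)
    (solve1 e e') (pick1 e e')

theorem Cfg.w2 {e : Bool} (e' : Bool) {ρ : G} (s : Std φ SR1 (al e) x45 ρ) :
    Commute ρ (φ (w32 e e')) :=
  H.exists_w (side2 e) s (y := y32) (by decide +kernel)
    (by cases e <;> decide +kernel) (by cases e <;> decide +kernel)
    (solve2 e) (pick2 e e')

theorem Cfg.full [Finite G] {e e' : Bool} (h7 : e = true ↔ Col φ (x24 * x13))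
    (h8 : e' = true ↔ Col φ (x24 * x35)) (h : IsConj (φ z) (φ x14)) (h' : IsConj (φ z) (φ x25)) :
    ∃ ρ1 ρ2, Full φ e e' ρ1 ρ2 := by
  obtain ⟨ρ1, s1⟩ := H.std1 h7 h8 h'
  obtain ⟨ρ2, s2⟩ := H.std2 h7 h8 h
  obtain ⟨ρ1, ρ2, s1, s2, cm⟩ := H.both s1 s2
  exact ⟨ρ1, ρ2, s1, s2, cm, H.w1 s1, H.w2 e' s2⟩

omit H

/-- Evaluation of a number before it is used. -/
def force (n : ℕ) (k : ℕ → ℕ) : ℕ := @Nat.rec (fun _ => ℕ) (k 0) (fun m _ => k (Nat.succ m)) n

theorem force_eq (n : ℕ) (k : ℕ → ℕ) : force n k = k n := by cases n <;> rfl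

/-- The action of a word. -/
def run (f : ℕ → C → C) (w : List ℕ) (n : ℕ) : ℕ :=
  @List.rec ℕ (fun _ => ℕ) n (fun l _ m => force m fun m => code (f l (dec m))) w

theorem code_inj {c d : C} (h : code c = code d) : c = d := by rw [← dec_code c, h, dec_code]

theorem run_spec {ev : ℕ → G} {f : ℕ → C → C} {ok : ℕ → Bool} {S : Subgroup C} {M : Subgroup G}
    (h : ∀ l, ok l = true → ∃ m ∈ M, ∀ v ∈ S, f l v ∈ S ∧ ev l * φ v = φ (f l v) * m) :
    ∀ w : List ℕ, w.all ok = true → ∃ m ∈ M, ∀ v ∈ S, ∃ d ∈ S, run f w (code v) = code d ∧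
      evL ev w * φ v = φ d * m
  | [], _ => ⟨1, one_mem _, fun v hv => ⟨v, hv, rfl, by rw [evL_nil, one_mul, mul_one]⟩⟩
  | l :: w, hw => by
    rw [List.all_cons, Bool.and_eq_true] at hw
    obtain ⟨m, hm, h1⟩ := h l hw.1
    obtain ⟨m', hm', h2⟩ := run_spec h w hw.2
    refine ⟨m * m', mul_mem hm hm', fun v hv => ?_⟩
    obtain ⟨d, hd, e1, e2⟩ := h2 v hv
    refine ⟨_, (h1 d hd).1, ?_, ?_⟩
    · rw [show run f (l :: w) (code v) = force (run f w (code v)) fun m => code (f l (dec m))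
        from rfl, force_eq, e1, dec_code]
    · rw [evL_cons, mul_assoc, e2, ← mul_assoc, (h1 d hd).2, mul_assoc]

/-- The check for a word in the letters of one side. -/
def chkS (f : ℕ → C → C) (ok : ℕ → Bool) (gs : List C) (w : List ℕ) : Bool :=
  w.all ok && (1 :: gs).all fun g => Nat.beq (run f w (code g)) (code g)

theorem chkS_spec {ev : ℕ → G} {f : ℕ → C → C} {ok : ℕ → Bool} {S : Subgroup C} {M : Subgroup G}
    (h : ∀ l, ok l = true → ∃ m ∈ M, ∀ v ∈ S, f l v ∈ S ∧ ev l * φ v = φ (f l v) * m)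
    {gs : List C} (hg : ∀ g ∈ gs, g ∈ S) {w : List ℕ} (hw : chkS f ok gs w = true) :
    evL ev w ∈ M ∧ ∀ g ∈ gs, Rl φ (evL ev w) g g := by
  rw [chkS, Bool.and_eq_true, List.all_eq_true (l := 1 :: gs)] at hw
  obtain ⟨m, hm, h1⟩ := run_spec h w hw.1
  have k : ∀ g ∈ 1 :: gs, g ∈ S → evL ev w * φ g = φ g * m := fun g hg hS => by
    obtain ⟨d, -, e1, e2⟩ := h1 g hS
    rwa [code_inj (e1.symm.trans (Nat.eq_of_beq_eq_true (hw.2 g hg)))] at e2
  have e := k 1 List.mem_cons_self (one_mem _)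
  rw [map_one, mul_one, one_mul] at e
  exact ⟨e ▸ hm, fun g h => Rl.of_comm (by rw [k g (List.mem_cons_of_mem _ h) (hg g h), e])⟩

/-- The table part of a letter. -/
def cl (e e' : Bool) : ℕ → C
  | 1 => i1 e e' | 2 => b12 e | 3 => b22 e e' | 4 => x45 | 5 => i1 e e' | 6 => w32 e e'
  | 7 => w43 e e' | 8 => x45 | _ => 1

/-- The other part. -/
def rl (ρ1 ρ2 : G) : ℕ → G
  | 5 => ρ1 | 8 => ρ2 | _ => 1

/-- The action of the other part. -/
def ac (e e' : Bool) : ℕ → C → C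
  | 5 => al1 e e' | 8 => al e | _ => id

/-- The part in the first complement. -/
def lc1 (e e' : Bool) : ℕ → C
  | 7 => w43 e e'
  | 5 => pw [i1 e e', b21 e e', b22 e e', t2 e e'] (byte (pt1 e e') 0)
  | 8 => pw [i1 e e', b21 e e', b22 e e', t2 e e'] (byte (pt1 e e') 3)
  | l => pw [i1 e e', b21 e e', b22 e e', t2 e e'] (byte (pt1 e e') (Nat.pred l))

/-- The part in the second complement. -/
def lc2 (e e' : Bool) : ℕ → C
  | 6 => w32 e e'
  | 5 => pw [x45, b11 e, b12 e, t1 e] (byte (pt2 e e') 0)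
  | 8 => pw [x45, b11 e, b12 e, t1 e] (byte (pt2 e e') 3)
  | l => pw [x45, b11 e, b12 e, t1 e] (byte (pt2 e e') (Nat.pred l))

/-- The letters. -/
def evF (φ : C →* G) (e e' : Bool) (ρ1 ρ2 : G) (l : ℕ) : G := φ (cl e e' l) * rl ρ1 ρ2 l

/-- The check of a relator. -/
def chkW (e e' : Bool) (w : List ℕ) : Bool :=
  chkS (fun l v => cl e e' l * v) (fun l => [0, 1, 2, 3, 4, 6, 7].elem l) [] w ||
  chkS (fun l v => cl e e' l * ac e e' l v * (lc1 e e' l)⁻¹) (fun l => [1, 2, 3, 4, 5, 7, 8].elem l)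
    SU1.gs w ||
  chkS (fun l v => cl e e' l * ac e e' l v * (lc2 e e' l)⁻¹) (fun l => [1, 2, 3, 4, 5, 6, 8].elem l)
    SU2.gs w

theorem clos1 : ∀ e e' : Bool, ∀ l ∈ [1, 2, 3, 4, 5, 7, 8], ∀ v ∈ U1,
    cl e e' l * ac e e' l v * (lc1 e e' l)⁻¹ ∈ U1 := by decide +kernel

theorem clos2 : ∀ e e' : Bool, ∀ l ∈ [1, 2, 3, 4, 5, 6, 8], ∀ v ∈ U2,
    cl e e' l * ac e e' l v * (lc2 e e' l)⁻¹ ∈ U2 := by decide +kernel

theorem Full.rl_ac {e e' : Bool} {ρ1 ρ2 : G} (h : Full φ e e' ρ1 ρ2) (l : ℕ) {v : C} (hv : v ∈ R)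
    (c : C) : evF φ e e' ρ1 ρ2 l * φ v = φ (cl e e' l * ac e e' l v * c⁻¹) * (φ c * rl ρ1 ρ2 l) := by
  have : Rl φ (rl ρ1 ρ2 l) v (ac e e' l v) := by
    unfold rl ac
    split
    · exact h.s1.act v (R_R2 v hv)
    · exact h.s2.act v (R_R1 v hv)
    · exact Rl.refl v
  unfold Rl at this
  rw [evF, map_mul, map_mul, ← this, map_inv]; group

theorem Cfg.chk (H : Cfg φ) {e e' : Bool} {ρ1 ρ2 : G} (h : Full φ e e' ρ1 ρ2) {w : List ℕ}
    (hw : chkW e e' w = true) : evL (evF φ e e' ρ1 ρ2) w = 1 := by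
  rw [chkW, Bool.or_eq_true, Bool.or_eq_true] at hw
  rcases hw with (hw | hw) | hw
  · refine mem_bot.mp (chkS_spec (φ := φ) (S := ⊤) (M := ⊥) (fun l hl => ⟨1, one_mem _, fun v _ =>
      ⟨mem_top _, ?_⟩⟩) (by simp) hw).1
    have := List.mem_of_elem_eq_true hl
    simp only [List.mem_cons, List.not_mem_nil, or_false] at this
    rcases this with rfl | rfl | rfl | rfl | rfl | rfl | rfl <;>
      rw [evF, map_mul, mul_one, rl, mul_one] <;> omega
  · have hp : ∀ n, φ (pw [i1 e e', b21 e e', b22 e e', t2 e e'] n) ∈ Nr ρ1 := fun n =>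
      pw_mem (K := (Nr ρ1).comap φ) (by
        simp only [List.mem_cons, List.not_mem_nil, or_false]
        rintro _ (rfl | rfl | rfl | rfl)
        · exact h.s1.nr (by cases e <;> cases e' <;> decide +kernel)
        all_goals exact h.s1.nr' (by cases e <;> cases e' <;> decide +kernel)) n
    have hm : ∀ l, φ (lc1 e e' l) * rl ρ1 ρ2 l ∈ Nr ρ1 := fun l => by
      refine mul_mem ?_ ?_
      · unfold lc1
        split
        · exact Nr.of_comm h.w1
        all_goals exact hp _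
      · unfold rl
        split
        · exact Nr.of_comm (Commute.refl _)
        · exact Nr.of_comm h.cm
        · exact one_mem _
    obtain ⟨h1, h2⟩ := chkS_spec (φ := φ) (ev := evF φ e e' ρ1 ρ2) (S := U1) (M := Nr ρ1)
      (fun l hl => ⟨φ (lc1 e e' l) * rl ρ1 ρ2 l, hm l, fun v hv =>
        ⟨clos1 e e' l (List.mem_of_elem_eq_true hl) v hv, h.rl_ac l (U1_R v hv) _⟩⟩)
      (side1 e e').gm hw
    exact H.triv' (side1 e e') h.s1 h2 h1
  · have hp : ∀ n, φ (pw [x45, b11 e, b12 e, t1 e] n) ∈ Nr ρ2 := fun n =>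
      pw_mem (K := (Nr ρ2).comap φ) (by
        simp only [List.mem_cons, List.not_mem_nil, or_false]
        rintro _ (rfl | rfl | rfl | rfl)
        · exact h.s2.nr (by decide +kernel)
        all_goals exact h.s2.nr' (by cases e <;> decide +kernel)) n
    have hm : ∀ l, φ (lc2 e e' l) * rl ρ1 ρ2 l ∈ Nr ρ2 := fun l => by
      refine mul_mem ?_ ?_
      · unfold lc2
        split
        · exact Nr.of_comm h.w2
        all_goals exact hp _
      · unfold rl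
        split
        · exact Nr.of_comm h.cm.symm
        · exact Nr.of_comm (Commute.refl _)
        · exact one_mem _
    obtain ⟨h1, h2⟩ := chkS_spec (φ := φ) (ev := evF φ e e' ρ1 ρ2) (S := U2) (M := Nr ρ2)
      (fun l hl => ⟨φ (lc2 e e' l) * rl ρ1 ρ2 l, hm l, fun v hv =>
        ⟨clos2 e e' l (List.mem_of_elem_eq_true hl) v hv, h.rl_ac l (U2_R v hv) _⟩⟩)
      (side2 e).gm hw
    exact H.triv' (side2 e) h.s2 h2 h1

theorem Cfg.rels (H : Cfg φ) {e e' : Bool} {ρ1 ρ2 : G} (h : Full φ e e' ρ1 ρ2) {Rs : List (List ℕ)}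
    (hw : Rs.all (chkW e e') = true) : Rels (evF φ e e' ρ1 ρ2) Rs := fun r hr =>
  H.chk h (List.all_eq_true.mp hw r hr)

theorem Cfg.good (H : Cfg φ) {e e' : Bool} {ρ1 ρ2 : G} (h : Full φ e e' ρ1 ρ2) :
    Good (evF φ e e' ρ1 ρ2) 148080050112590643456 :=
  good_of_rels (m := 9) (by rw [evF, cl, rl, map_one, one_mul] <;> omega) (fun l hl => by
    rw [evF, cl, rl, map_one, one_mul] <;> omega) (by norm_num)
    (H.rels h (by cases e <;> cases e' <;> decide +kernel))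

end Cfsg.H5.He
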