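import Cfsg.Agent.H5.HeE
import Cfsg.Agent.H5.HeG.Iso
import Cfsg.Agent.H5.HeL.Main

/-!
A simple group of order 4030387200 with two classes of involutions and the involution
centraliser of the Held group is the Held group.
-/

set_option autoImplicit false
set_option synthInstance.maxSize 4096
set_option maxRecDepth 100000

namespace Cfsg.H5.He

open Subgroup H8 L0 H6

local notation "z" => (CM.z : C)

variable {G : Type*} [Group G] {φ : C →* G}

theorem chk_he : HeG.R.all (chkW true true) = true := by decide +kernel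

theorem chk_l5 : HeL.R.all (chkW false false) = true := by decide +kernel

theorem evF_four {e e' : Bool} {ρ1 ρ2 : G} : evF φ e e' ρ1 ρ2 4 = φ x45 := mul_one _

theorem Cfg.hom_he (H : Cfg φ) {ρ1 ρ2 : G} (h : Full φ true true ρ1 ρ2) :
    ∃ ψ : Spor.He →* G, Function.Injective ψ ∧
      ∀ l, ψ (evS He.ev HeG.sg l) = evF φ true true ρ1 ρ2 l := by
  have := H6.He.simple
  obtain ⟨ψ, hψ⟩ := HeG.lift_he (H.good h) (H.rels h chk_he)
  exact ⟨ψ, injective_of_simple ψ (by
    rw [hψ 4, evF_four, ← map_one φ]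
    exact fun e => absurd (H.inj e) (by decide +kernel)), hψ⟩

theorem Cfg.hom_l5 (H : Cfg φ) {ρ1 ρ2 : G} (h : Full φ false false ρ1 ρ2) :
    ∃ ψ : HeL.Grp →* G, Function.Injective ψ ∧
      ∀ l, ψ (HeL.ev l) = evF φ false false ρ1 ρ2 l := by
  have := HeL.simple
  obtain ⟨ψ, hψ⟩ := HeL.lift (H.good h) (H.rels h chk_l5)
  exact ⟨ψ, injective_of_simple ψ (by
    rw [hψ 4, evF_four, ← map_one φ]
    exact fun e => absurd (H.inj e) (by decide +kernel)), hψ⟩

theorem Cfg.count [Finite G] (H : Cfg φ) {e e' : Bool} (h7 : e = true ↔ Col φ (x24 * x13))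
    (h8 : e' = true ↔ Col φ (x24 * x35)) (hc : ∀ c, Col φ c → IsConj (φ z) (φ c)) :
    16 ∣ Nat.card {d // IsConj (φ z) d} + 15 * TN.sum fun s : L => if s * s = 1 then
      TN.sum fun q : Q => if (⟨q, s⟩ : C) * ⟨q, s⟩ = 1 ∧ colf e e' (lab ⟨q, s⟩) = 1 then 1 else 0
      else 0 := by
  let E : Subgroup Q := subOfMul {p | p * p = 1 ∧ lab ⟨p, 1⟩ < 3} (by decide +kernel)
    (fun p hp q hq => (by decide +kernel : ∀ p : Q, p * p = 1 ∧ lab ⟨p, 1⟩ < 3 →
      ∀ q : Q, q * q = 1 ∧ lab ⟨q, 1⟩ < 3 → p * q * (p * q) = 1 ∧ lab ⟨p * q, 1⟩ < 3) p hp q hq)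
  have inj : Function.Injective (φ.comp CM.inl) :=
    H.inj.comp fun p q h => congrArg CM.q h
  have key : ∀ c : C, IsConj (φ z) (φ c) ↔ c * c = 1 ∧ colf e e' (lab c) = 1 := fun c => by
    constructor
    · intro h
      have h1 : c * c = 1 := H.inj (by
        rw [map_mul, map_one, sq_of_isConj (by rw [← map_mul, CM.z_z, map_one]) h])
      rcases H.col_cases h7 h8 h1 with h2 | h2 | h2
      · rw [h2.2, map_one, isConj_one_left] at h
        exact absurd (H.inj (h.trans (map_one φ).symm)) CM.z_ne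
      · exact ⟨h1, h2.1⟩
      · exact absurd (Or.inl h) h2.2.2
    · rintro ⟨h1, h⟩
      rcases H.col_cases h7 h8 h1 with h2 | h2 | h2
      · omega
      · exact hc c h2.2.2
      · omega
  have hb := burnside_class (E.map (φ.comp CM.inl)) (by
    rintro _ ⟨p, hp, rfl⟩ hp1
    exact (key ⟨p, 1⟩).mpr ((by decide +kernel : ∀ e e' : Bool, ∀ p : Q, p * p = 1 ∧ lab ⟨p, 1⟩ < 3 →
      p ≠ 1 → (⟨p, 1⟩ : C) * ⟨p, 1⟩ = 1 ∧ colf e e' (lab ⟨p, 1⟩) = 1) e e' p hp
        fun e => hp1 (by rw [e, map_one])))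
  have c1 : Nat.card E = 16 :=
    (TN.card_subtype fun p : Q => p * p = 1 ∧ lab ⟨p, 1⟩ < 3).trans (by decide +kernel)
  rwa [card_map_of_injective inj, c1, H.card_fix, Nat.card_congr (Equiv.subtypeEquivRight key),
    CM.card_sq _ 1 fun _ h => congrArg CM.s h.1] at hb

theorem he_equiv [Finite G] [IsSimpleGroup G] {t : G} (ht : orderOf t = 2)
    (N : Subgroup (centralizer {t})) [N.Normal] (hQ : IsExtraspecial 2 N) (hc : Nat.card N = 2 ^ 7)
    (h2 : centralizer (N : Set (centralizer ({t} : Set G))) ≤ N)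
    (e : centralizer ({t} : Set G) ⧸ N ≃* Matrix.SpecialLinearGroup (Fin 3) (ZMod 2))
    (hG : Nat.card G = 4030387200) (htwo : ∃ x y : G, ∀ t : G, orderOf t = 2 →
      IsConj t x ∨ IsConj t y) : Nonempty (Spor.He ≃* G) := by
  classical
  have : Fact (Nat.Prime 2) := ⟨Nat.prime_two⟩
  obtain ⟨φ, H⟩ := exists_cfg ht N hQ hc h2 e hG
  obtain ⟨x, y, hxy⟩ := htwo
  have o : ∀ c : C, c * c = 1 ∧ c ≠ 1 → orderOf (φ c) = 2 := fun c h => by
    rw [orderOf_injective φ H.inj]
    exact orderOf_eq_prime (by rw [pow_two, h.1]) h.2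
  have ns := H.not_col (c := x14 * x25) (by decide +kernel) (by decide +kernel)
  have k : ∀ c : C, c * c = 1 ∧ c ≠ 1 → ¬ IsConj (φ c) (φ (x14 * x25)) → IsConj (φ z) (φ c) :=
    fun c h1 h2 => by
    have h3 : ¬ IsConj (φ z) (φ (x14 * x25)) := fun h => ns (Or.inl h)
    rcases hxy _ (o _ h1) with a | a <;> rcases hxy _ (o z (by decide +kernel)) with b | b <;>
      rcases hxy _ (o (x14 * x25) (by decide +kernel)) with d | d <;>
      first | exact b.trans a.symm | exact absurd (a.trans d.symm) h2 |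
        exact absurd (b.trans d.symm) h3
  have k1 := k x14 (by decide +kernel) fun h => ns (Or.inr (Or.inl h))
  have k2 := k x25 (by decide +kernel) fun h => ns (Or.inr (Or.inr (Or.inl h)))
  have k3 := k x24 (by decide +kernel) fun h => ns (Or.inr (Or.inr (Or.inr h)))
  have h7 : decide (Col φ (x24 * x13)) = true ↔ _ := decide_eq_true_iff
  have h8 : decide (Col φ (x24 * x35)) = true ↔ _ := decide_eq_true_iff
  generalize decide (Col φ (x24 * x13)) = e7, decide (Col φ (x24 * x35)) = e8 at h7 h8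
  have cnt := H.count h7 h8 (by
    rintro c (h | h | h | h)
    exacts [h, k1.trans h, k2.trans h, k3.trans h])
  rw [H.card_class hG] at cnt
  obtain ⟨ρ1, ρ2, h⟩ := H.full h7 h8 k1 k2
  cases e7 <;> cases e8
  · obtain ⟨ψ, h1, -⟩ := H.hom_l5 h
    have := card_dvd_of_injective ψ h1
    rw [HeL.main.1, hG] at this
    omega
  · exact absurd cnt (by decide +kernel)
  · exact absurd cnt (by decide +kernel)
  · obtain ⟨ψ, h1, -⟩ := H.hom_he h
    exact equiv_of_injective ψ h1 (by rw [hG, H6.He.main.1])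

end Cfsg.H5.He
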