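import Cfsg.Agent.H5.HeP
import Cfsg.Agent.L0.Class2

/-!
A self-centralising normal extraspecial subgroup of order 128 with an automorphism of order seven.
-/

set_option autoImplicit false
set_option synthInstance.maxSize 4096
set_option maxRecDepth 100000

namespace Cfsg.H5

open Subgroup

variable {H : Type*} [Group H]

/-- A self-centralising normal extraspecial subgroup of order `n` with centre `⟨z⟩`. -/
structure ESn (n : ℕ) (Q : Subgroup H) (z : H) : Prop where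
  conj : ∀ g, ∀ q ∈ Q, g * q * g⁻¹ ∈ Q
  card : Nat.card Q = n
  zQ : z ∈ Q
  z1 : z ≠ 1
  zz : z * z = 1
  zc : ∀ g, z * g = g * z
  cen : ∀ g : H, (∀ q ∈ Q, g * q = q * g) → g = 1 ∨ g = z
  comm : ∀ p ∈ Q, ∀ q ∈ Q, q * p = p * q ∨ q * p = z * (p * q)
  sq : ∀ q ∈ Q, q * q = 1 ∨ q * q = z

theorem esn_of [Finite H] {n : ℕ} {Q : Subgroup H} [hn : Q.Normal] {z : H} (hz : orderOf z = 2)
    (hzc : ∀ g, z * g = g * z) (hQ : IsExtraspecial 2 Q) (hc : Nat.card Q = n)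
    (h2 : centralizer (Q : Set H) ≤ Q) : ESn n Q z := by
  have z1 : z ≠ 1 := by rintro rfl; simp at hz
  have zz : z * z = 1 := by rw [← pow_two, ← hz, pow_orderOf_eq_one]
  have zQ : z ∈ Q := h2 (fun q _ => (hzc q).symm)
  obtain ⟨z', h1, h2', h3⟩ := L0.es_two_center hQ
  have hz' : z' = ⟨z, zQ⟩ := by
    rcases (h3 ⟨z, zQ⟩).mp (mem_center_iff.mpr fun g => Subtype.ext (hzc g).symm) with h | h
    · exact absurd (congrArg Subtype.val h) z1
    · exact h.symm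
  subst hz'
  have key : ∀ x : Q, x ∈ center Q → (x : H) = 1 ∨ (x : H) = z := fun x hx =>
    ((h3 x).mp hx).imp (congrArg Subtype.val) (congrArg Subtype.val)
  refine ⟨fun g q hq => hn.conj_mem q hq g, hc, zQ, z1, zz, hzc, fun g hg => ?_,
    fun p hp q hq => ?_, fun q hq => ?_⟩
  · have hgQ : g ∈ Q := h2 fun q hq => (hg q hq).symm
    exact key ⟨g, hgQ⟩ (mem_center_iff.mpr fun q => Subtype.ext (hg q q.2).symm)
  · have := key _ (L0.comm_mem_center (L0.es_le hQ) ⟨q, hq⟩ ⟨p, hp⟩)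
    simp only [commutatorElement_def, coe_mul, coe_inv] at this
    rcases this with h | h
    · left
      calc q * p = (q * p * q⁻¹ * p⁻¹) * (p * q) := by group
        _ = p * q := by rw [h, one_mul]
    · right
      calc q * p = (q * p * q⁻¹ * p⁻¹) * (p * q) := by group
        _ = z * (p * q) := by rw [h]
  · have : Fact (Nat.Prime 2) := ⟨Nat.prime_two⟩
    have := key _ (L0.es_pow_mem hQ ⟨q, hq⟩)
    simpa [pow_two] using this

open Classical in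
/-- The commutator form. -/
noncomputable def bf (a b : H) : ZMod 2 := if b * a = a * b then 0 else 1

theorem bf_symm (a b : H) : bf a b = bf b a := by
  unfold bf
  classical
  convert if_congr (eq_comm (a := b * a)) rfl rfl

theorem bf_eq_zero {a b : H} : bf a b = 0 ↔ b * a = a * b := by
  unfold bf
  split_ifs with h
  · simp [h]
  · simp [h]

theorem bf_map (σ : H ≃* H) (a b : H) : bf (σ a) (σ b) = bf a b := by
  unfold bf
  rw [← map_mul, ← map_mul, σ.injective.eq_iff]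

theorem zmod2_cases : ∀ a : ZMod 2, a = 0 ∨ a = 1 := by decide

namespace ESn

variable {n : ℕ} {Q : Subgroup H} {z : H} (E : ESn n Q z)
include E

theorem pow_four {q : H} (hq : q ∈ Q) : q ^ 4 = 1 := by
  have : q ^ 4 = (q * q) * (q * q) := by simp [pow_succ, mul_assoc]
  rw [this]
  rcases E.sq q hq with h | h <;> rw [h]
  · simp
  · exact E.zz

theorem of_bf_one {a b : H} (ha : a ∈ Q) (hb : b ∈ Q) (h : bf a b = 1) : b * a = z * (a * b) :=
  (E.comm a ha b hb).resolve_left fun e => by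
    rw [bf_eq_zero.mpr e] at h
    exact absurd h (by decide)

theorem bf_one {a b : H} (h : b * a = z * (a * b)) : bf a b = 1 :=
  (zmod2_cases _).resolve_left fun e => by
    rw [bf_eq_zero.mp e] at h
    exact E.z1 (by simpa using h.symm)

theorem bf_mul {a b c : H} (ha : a ∈ Q) (hb : b ∈ Q) (hc : c ∈ Q) :
    bf (a * b) c = bf a c + bf b c := by
  rcases zmod2_cases (bf a c) with h1 | h1 <;> rcases zmod2_cases (bf b c) with h2 | h2 <;>
    rw [h1, h2]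
  · rw [bf_eq_zero] at h1 h2
    exact bf_eq_zero.mpr (by rw [← mul_assoc, h1, mul_assoc, h2, mul_assoc])
  · rw [bf_eq_zero] at h1
    have h2 := E.of_bf_one hb hc h2
    exact E.bf_one (by rw [← mul_assoc, h1, mul_assoc, h2, ← mul_assoc, ← E.zc]; group)
  · rw [bf_eq_zero] at h2
    have h1 := E.of_bf_one ha hc h1
    exact E.bf_one (by rw [← mul_assoc, h1, mul_assoc, mul_assoc, h2]; group)
  · have h1 := E.of_bf_one ha hc h1
    have h2 := E.of_bf_one hb hc h2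
    refine bf_eq_zero.mpr ?_
    rw [← mul_assoc, h1, mul_assoc, mul_assoc, h2, ← mul_assoc a, ← E.zc, mul_assoc,
      ← mul_assoc z z, E.zz]
    group

theorem bf_z (a : H) : bf z a = 0 := bf_eq_zero.mpr (E.zc a).symm

theorem of_bf {a : H} (h : ∀ d ∈ Q, bf a d = 0) : a = 1 ∨ a = z :=
  E.cen a fun q hq => (bf_eq_zero.mp (h q hq)).symm

variable {σ : H ≃* H} (hσ : ∀ q ∈ Q, σ q ∈ Q) (σz : σ z = z)
  (h7 : ∀ q, σ (σ (σ (σ (σ (σ (σ q)))))) = q)

omit E in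
/-- Killed by `1 + x + x³` modulo the centre. -/
def TF (Q : Subgroup H) (σ : H ≃* H) (a : H) : Prop :=
  a ∈ Q ∧ ∀ d ∈ Q, bf a d + bf (σ a) d + bf (σ (σ (σ a))) d = 0

omit E in
/-- Killed by `1 + x² + x³` modulo the centre. -/
def TG (Q : Subgroup H) (σ : H ≃* H) (a : H) : Prop :=
  a ∈ Q ∧ ∀ d ∈ Q, bf a d + bf (σ (σ a)) d + bf (σ (σ (σ a))) d = 0

omit E in
/-- Fixed modulo the centre. -/
def TK (Q : Subgroup H) (σ : H ≃* H) (a : H) : Prop := a ∈ Q ∧ ∀ d ∈ Q, bf (σ a) d = bf a d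

include hσ h7

omit E in
theorem shift {P : H → Prop} (h : ∀ d ∈ Q, P (σ d)) : ∀ d ∈ Q, P d := fun d hd =>
  h7 d ▸ h _ (hσ _ (hσ _ (hσ _ (hσ _ (hσ _ (hσ _ hd))))))

omit E in
theorem TF.map {a : H} (h : TF Q σ a) : TF Q σ (σ a) :=
  ⟨hσ _ h.1, shift hσ h7 fun d hd => by simpa only [bf_map] using h.2 d hd⟩

omit E in
theorem TG.map {a : H} (h : TG Q σ a) : TG Q σ (σ a) :=
  ⟨hσ _ h.1, shift hσ h7 fun d hd => by simpa only [bf_map] using h.2 d hd⟩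

omit E in
theorem TK.map {a : H} (h : TK Q σ a) : TK Q σ (σ a) :=
  ⟨hσ _ h.1, shift hσ h7 fun d hd => by simpa only [bf_map] using h.2 d hd⟩

omit E h7 in
theorem TF.dual {a : H} (h : TF Q σ a) {d : H} (hd : d ∈ Q) :
    bf (σ (σ (σ d))) a + bf (σ (σ d)) a + bf d a = 0 := by
  have := h.2 _ (hσ _ (hσ _ (hσ _ hd)))
  simpa only [bf_map, bf_symm a] using this

omit E h7 in
theorem TG.dual {a : H} (h : TG Q σ a) {d : H} (hd : d ∈ Q) :
    bf (σ (σ (σ d))) a + bf (σ d) a + bf d a = 0 := by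
  have := h.2 _ (hσ _ (hσ _ (hσ _ hd)))
  simpa only [bf_map, bf_symm a] using this

omit E in
theorem TF.ff {a b : H} (h : TF Q σ a) (h' : TF Q σ b) : bf b a = 0 := by
  have e1 := h'.2 a h.1
  have e2 := (h'.map hσ h7).2 a h.1
  have e3 := h.dual hσ h'.1
  have e4 := h.dual hσ (hσ _ h'.1)
  revert e1 e2 e3 e4
  generalize bf b a = c0, bf (σ b) a = c1, bf (σ (σ b)) a = c2, bf (σ (σ (σ b))) a = c3,
    bf (σ (σ (σ (σ b)))) a = c4
  revert c0 c1 c2 c3 c4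
  decide

omit E in
theorem TG.gg {a b : H} (h : TG Q σ a) (h' : TG Q σ b) : bf b a = 0 := by
  have e1 := h'.2 a h.1
  have e2 := (h'.map hσ h7).2 a h.1
  have e3 := h.dual hσ h'.1
  have e4 := h.dual hσ (hσ _ h'.1)
  revert e1 e2 e3 e4
  generalize bf b a = c0, bf (σ b) a = c1, bf (σ (σ b)) a = c2, bf (σ (σ (σ b))) a = c3,
    bf (σ (σ (σ (σ b)))) a = c4
  revert c0 c1 c2 c3 c4
  decide

omit E in
theorem TF.fk {a b : H} (h : TF Q σ a) (h' : TK Q σ b) : bf b a = 0 := by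
  have e3 := h.dual hσ h'.1
  rw [((h'.map hσ h7).map hσ h7).2 a h.1, (h'.map hσ h7).2 a h.1, h'.2 a h.1] at e3
  revert e3
  generalize bf b a = c
  revert c
  decide

omit E in
theorem TG.gk {a b : H} (h : TG Q σ a) (h' : TK Q σ b) : bf b a = 0 := by
  have e3 := h.dual hσ h'.1
  rw [((h'.map hσ h7).map hσ h7).2 a h.1, (h'.map hσ h7).2 a h.1, h'.2 a h.1] at e3
  revert e3
  generalize bf b a = c
  revert c
  decide

theorem decomp {q : H} (hq : q ∈ Q) : ∃ k a b, TK Q σ k ∧ TF Q σ a ∧ TG Q σ b ∧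
    ∀ d ∈ Q, bf q d = bf k d + bf a d + bf b d := by
  have q1 := hσ _ hq
  have q2 := hσ _ q1
  have q3 := hσ _ q2
  have q4 := hσ _ q3
  have q5 := hσ _ q4
  have q6 := hσ _ q5
  refine ⟨q * σ q * σ (σ q) * σ (σ (σ q)) * σ (σ (σ (σ q))) * σ (σ (σ (σ (σ q)))) *
      σ (σ (σ (σ (σ (σ q))))), q * σ q * σ (σ q) * σ (σ (σ (σ q))),
      q * σ (σ (σ q)) * σ (σ (σ (σ (σ q)))) * σ (σ (σ (σ (σ (σ q))))), ⟨?_, fun d hd => ?_⟩,
      ⟨?_, fun d hd => ?_⟩, ⟨?_, fun d hd => ?_⟩, fun d hd => ?_⟩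
  any_goals (repeat' apply mul_mem) <;> assumption
  all_goals
    simp (disch := (repeat' apply mul_mem) <;> assumption) only [map_mul, h7, E.bf_mul]
    generalize bf q d = c0, bf (σ q) d = c1, bf (σ (σ q)) d = c2, bf (σ (σ (σ q))) d = c3,
      bf (σ (σ (σ (σ q)))) d = c4, bf (σ (σ (σ (σ (σ q))))) d = c5,
      bf (σ (σ (σ (σ (σ (σ q)))))) d = c6
    revert c0 c1 c2 c3 c4 c5 c6
    decide

include σz

theorem exists_pair (hne : ∃ q ∈ Q, σ q ≠ q) : ∃ a b, TF Q σ a ∧ TG Q σ b ∧ bf a b = 1 := by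
  by_contra hcon
  have h0 : ∀ a b, TF Q σ a → TG Q σ b → bf a b = 0 := fun a b ha hb =>
    (zmod2_cases _).resolve_right fun e => hcon ⟨a, b, ha, hb, e⟩
  have hF : ∀ a, TF Q σ a → ∀ d ∈ Q, bf a d = 0 := by
    intro a ha d hd
    obtain ⟨k, a', b, hk, ha', hb, e⟩ := E.decomp hσ h7 hd
    rw [bf_symm, e a ha.1, ha.fk hσ h7 hk, ha.ff hσ h7 ha', bf_symm, h0 a b ha hb]
    rfl
  have hG : ∀ a, TG Q σ a → ∀ d ∈ Q, bf a d = 0 := by
    intro a ha d hd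
    obtain ⟨k, a', b, hk, ha', hb, e⟩ := E.decomp hσ h7 hd
    rw [bf_symm, e a ha.1, ha.gk hσ h7 hk, ha.gg hσ h7 hb, h0 a' a ha' ha]
    rfl
  have hK : ∀ q ∈ Q, σ q = q ∨ σ q = z * q := by
    intro q hq
    obtain ⟨k, a, b, hk, ha, hb, e⟩ := E.decomp hσ h7 hq
    have : ∀ d ∈ Q, bf (σ q * q⁻¹) d = 0 := shift hσ h7 fun d hd => by
      have h1 := E.bf_mul (Q.inv_mem hq) hq (hσ d hd)
      rw [inv_mul_cancel, bf_eq_zero.mpr (by simp), e _ (hσ d hd), hF a ha _ (hσ d hd),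
        hG b hb _ (hσ d hd), ← hk.2 _ (hσ d hd), bf_map] at h1
      rw [E.bf_mul (hσ q hq) (Q.inv_mem hq) (hσ d hd), bf_map, e d hd, hF a ha d hd, hG b hb d hd]
      linear_combination -h1
    rcases E.of_bf this with h | h
    · exact Or.inl (mul_inv_eq_one.mp h)
    · exact Or.inr (mul_inv_eq_iff_eq_mul.mp h)
  obtain ⟨q, hq, hne⟩ := hne
  have h1 := (hK q hq).resolve_left hne
  have h2 : σ (σ q) = q := by rw [h1, map_mul, σz, h1, ← mul_assoc, E.zz, one_mul]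
  have h3 := h7 q
  rw [h2, h2, h2] at h3
  exact hne h3

omit hσ h7 σz in
theorem normalise {a a1 a3 : H} (ha : a ∈ Q) (h1 : a1 ∈ Q) (h3 : a3 ∈ Q)
    (s1 : a * a = z → a1 * a1 = z ∧ a3 * a3 = z) (s0 : a * a = 1 → a1 * a1 = 1)
    (h : ∀ d ∈ Q, bf a d + bf a1 d + bf a3 d = 0) (c1 : bf a a1 = 0) (c2 : bf a a3 = 0)
    (c3 : bf a1 a3 = 0) : a * a = 1 ∧ (a3 = a * a1 ∨ a3 = z * (a * a1)) := by
  have hw := E.of_bf (a := a * a1 * a3) fun d hd => by
    rw [E.bf_mul (mul_mem ha h1) h3 hd, E.bf_mul ha h1 hd, h d hd]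
  rw [bf_eq_zero] at c1 c2 c3
  have w2 : a * a1 * a3 * (a * a1 * a3) = 1 := by
    rcases hw with e | e <;> rw [e]
    · simp
    · exact E.zz
  have w3 : a * a1 * a3 * (a * a1 * a3) = a * a * (a1 * a1) * (a3 * a3) := by
    calc _ = a * a1 * (a3 * a) * a1 * a3 := by group
      _ = a * (a1 * a) * (a3 * a1) * a3 := by rw [c2]; group
      _ = _ := by rw [c1, c3]; group
  have aa : a * a = 1 := (E.sq a ha).resolve_right fun e => by
    rw [w3, (s1 e).1, (s1 e).2, e, E.zz, one_mul] at w2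
    exact E.z1 w2
  have k : a * a1 * (a * a1) = 1 := by
    calc _ = a * (a1 * a) * a1 := by group
      _ = a * a * (a1 * a1) := by rw [c1]; group
      _ = 1 := by rw [aa, s0 aa, one_mul]
  refine ⟨aa, hw.imp (fun e => ?_) (fun e => ?_)⟩
  · rw [← one_mul a3, ← k, mul_assoc, e, mul_one]
  · rw [← one_mul a3, ← k, mul_assoc, e, E.zc]

theorem exists_rel (hne : ∃ q ∈ Q, σ q ≠ q) : ∃ a b, a ∈ Q ∧ b ∈ Q ∧ σ (σ (σ a)) = a * σ a ∧
    σ (σ (σ b)) = b * σ (σ b) ∧ He.PQ7.Rel a (σ a) (σ (σ a)) b (σ b) (σ (σ b)) z := by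
  have sq : ∀ {a c : H}, a * a = c → σ c = c → σ a * σ a = c := fun h h' => by
    rw [← map_mul, h, h']
  have zz : ∀ a, z * a * (z * a) = a * a := fun a => by
    rw [mul_assoc, ← mul_assoc a, ← E.zc, ← mul_assoc, ← mul_assoc, E.zz, one_mul]
  have bz : ∀ {a : H}, a ∈ Q → ∀ d ∈ Q, bf (z * a) d = bf a d := fun ha d hd => by
    rw [E.bf_mul E.zQ ha hd, E.bf_z, zero_add]
  obtain ⟨a, b, ha, hb, hab⟩ := E.exists_pair hσ σz h7 hne
  obtain ⟨a, ha, aa, a3, hab⟩ : ∃ a, TF Q σ a ∧ a * a = 1 ∧ σ (σ (σ a)) = a * σ a ∧ bf a b = 1 := by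
    have f1 := ha.map hσ h7
    have f3 := (f1.map hσ h7).map hσ h7
    obtain ⟨aa, e | e⟩ := E.normalise ha.1 f1.1 f3.1
      (fun e => ⟨sq e σz, sq (sq (sq e σz) σz) σz⟩) (fun e => sq e (map_one σ)) ha.2
      (f1.ff hσ h7 ha) (f3.ff hσ h7 ha) (f3.ff hσ h7 f1)
    · exact ⟨a, ha, aa, e, hab⟩
    · refine ⟨z * a, ⟨mul_mem E.zQ ha.1, fun d hd => ?_⟩, by rw [zz, aa], ?_, ?_⟩
      · simp only [map_mul, σz]
        rw [bz ha.1 d hd, bz f1.1 d hd, bz f3.1 d hd, ha.2 d hd]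
      · simp only [map_mul, σz]
        rw [e, ← mul_assoc, E.zz, mul_assoc, ← mul_assoc a z, ← E.zc, mul_assoc, ← mul_assoc z z,
          E.zz, one_mul]
      · rw [bz ha.1 b hb.1, hab]
  obtain ⟨b, hb, bb, b3, hab⟩ :
      ∃ b, TG Q σ b ∧ b * b = 1 ∧ σ (σ (σ b)) = b * σ (σ b) ∧ bf b a = 1 := by
    have f2 := (hb.map hσ h7).map hσ h7
    have f3 := f2.map hσ h7
    rw [bf_symm] at hab
    obtain ⟨aa, e | e⟩ := E.normalise hb.1 f2.1 f3.1
      (fun e => ⟨sq (sq e σz) σz, sq (sq (sq e σz) σz) σz⟩)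
      (fun e => sq (sq e (map_one σ)) (map_one σ)) hb.2
      (f2.gg hσ h7 hb) (f3.gg hσ h7 hb) (f3.gg hσ h7 f2)
    · exact ⟨b, hb, aa, e, hab⟩
    · refine ⟨z * b, ⟨mul_mem E.zQ hb.1, fun d hd => ?_⟩, by rw [zz, aa], ?_, ?_⟩
      · simp only [map_mul, σz]
        rw [bz hb.1 d hd, bz f2.1 d hd, bz f3.1 d hd, hb.2 d hd]
      · simp only [map_mul, σz]
        rw [e, ← mul_assoc, E.zz, mul_assoc, ← mul_assoc b z, ← E.zc, mul_assoc, ← mul_assoc z z,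
          E.zz, one_mul]
      · rw [bz hb.1 a ha.1, hab]
  obtain ⟨b, ⟨hb, bb, b3⟩, c0, c1, c2⟩ : ∃ b, (TG Q σ b ∧ b * b = 1 ∧ σ (σ (σ b)) = b * σ (σ b)) ∧
      bf b a = 1 ∧ bf (σ b) a = 1 ∧ bf (σ (σ b)) a = 1 := by
    have st : ∀ {b}, (TG Q σ b ∧ b * b = 1 ∧ σ (σ (σ b)) = b * σ (σ b)) →
        (TG Q σ (σ b) ∧ σ b * σ b = 1 ∧ σ (σ (σ (σ b))) = σ b * σ (σ (σ b))) := fun h =>
      ⟨h.1.map hσ h7, sq h.2.1 (map_one σ), by rw [← map_mul, ← h.2.2]⟩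
    have p0 := And.intro hb (And.intro bb b3)
    have p1 := st p0
    have p2 := st p1
    have p3 := st p2
    have p4 := st p3
    have p5 := st p4
    have p6 := st p5
    have e3 := p0.1.2 a ha.1
    have e4 := p1.1.2 a ha.1
    have e5 := p2.1.2 a ha.1
    have e6 := p3.1.2 a ha.1
    have e7 := p4.1.2 a ha.1
    rw [h7] at e7
    have key : ∀ c0 c1 c2 c3 c4 c5 c6 : ZMod 2, c0 = 1 → c0 + c2 + c3 = 0 → c1 + c3 + c4 = 0 →
        c2 + c4 + c5 = 0 → c3 + c5 + c6 = 0 → (c0 = 1 ∧ c1 = 1 ∧ c2 = 1) ∨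
          (c3 = 1 ∧ c4 = 1 ∧ c5 = 1) ∨ (c5 = 1 ∧ c6 = 1 ∧ c0 = 1) ∨ (c6 = 1 ∧ c0 = 1 ∧ c1 = 1) := by
      decide
    rcases key _ _ _ _ _ _ _ hab e3 e4 e5 e6 with h | h | h | h
    · exact ⟨_, p0, h⟩
    · exact ⟨_, p3, h⟩
    · exact ⟨_, p5, by rwa [h7]⟩
    · exact ⟨_, p6, by rwa [h7]⟩
  have a1 := ha.map hσ h7
  have a2 := a1.map hσ h7
  have b1 := hb.map hσ h7
  have b2 := b1.map hσ h7
  have c3 : bf (σ (σ (σ b))) a = 0 := by
    have := hb.2 a ha.1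
    rw [c0, c2] at this
    linear_combination this - (by decide : (1 + 1 : ZMod 2) = 0)
  have d1 : bf b (σ a) = 0 := by
    have := hb.2 _ a1.1
    rw [bf_map, bf_map, c1, c2] at this
    linear_combination this - (by decide : (1 + 1 : ZMod 2) = 0)
  have d2 : bf b (σ (σ a)) = 0 := by
    have := hb.2 _ a2.1
    rw [bf_map, bf_map, bf_map, bf_map, c0, c1] at this
    linear_combination this - (by decide : (1 + 1 : ZMod 2) = 0)
  have o : ∀ {x y : H}, x ∈ Q → y ∈ Q → bf y x = 1 → y * x = z * (x * y) := fun hx hy h =>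
    E.of_bf_one hx hy (by rwa [bf_symm])
  have o0 : ∀ {x y : H}, bf y x = 0 → y * x = x * y := fun h => (bf_eq_zero.mp h).symm
  refine ⟨a, b, ha.1, hb.1, a3, b3, aa, sq aa (map_one σ), sq (sq aa (map_one σ)) (map_one σ), bb,
    sq bb (map_one σ), sq (sq bb (map_one σ)) (map_one σ), E.zz, o0 (ha.ff hσ h7 a1),
    o0 (ha.ff hσ h7 a2), o0 (a1.ff hσ h7 a2), o0 (hb.gg hσ h7 b1), o0 (hb.gg hσ h7 b2),
    o0 (b1.gg hσ h7 b2), o ha.1 hb.1 c0, o ha.1 b1.1 c1, o ha.1 b2.1 c2, o0 d1,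
    o a1.1 b1.1 (by rw [bf_map, c0]), o a1.1 b2.1 (by rw [bf_map, c1]), o0 d2,
    o0 (by rw [bf_map, d1]), o a2.1 b2.1 (by rw [bf_map, bf_map, c0]), E.zc _, E.zc _, E.zc _,
    E.zc _, E.zc _, E.zc _⟩

end ESn

end Cfsg.H5
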