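import Cfsg.Agent.H5.HeY

/-!
A subgroup containing the involution centraliser and both elements of order three is the whole
group.
-/

set_option autoImplicit false
set_option synthInstance.maxSize 4096
set_option maxRecDepth 100000

namespace Cfsg.H5.He

open Subgroup H8 L0 H6

local notation "z" => (CM.z : C)

universe u

variable {G : Type u} [Group G] {φ : C →* G}

/-- Conjugate by an element of a subgroup. -/
def MC (φ : C →* G) (M : Subgroup G) (c d : C) : Prop := ∃ m ∈ M, Rl φ m c d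

theorem MC.symm {M : Subgroup G} {c d : C} (h : MC φ M c d) : MC φ M d c := by
  obtain ⟨m, hm, h⟩ := h
  exact ⟨m⁻¹, inv_mem hm, h.symm⟩

theorem MC.trans {M : Subgroup G} {c d e : C} (h : MC φ M c d) (h' : MC φ M d e) : MC φ M c e := by
  obtain ⟨m, hm, h⟩ := h
  obtain ⟨m', hm', h'⟩ := h'
  exact ⟨m' * m, mul_mem hm' hm, h'.comp h⟩

theorem MC.isConj {M : Subgroup G} {c d : C} (h : MC φ M c d) : IsConj (φ c) (φ d) := by
  obtain ⟨m, -, h⟩ := h
  exact h.isConj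

theorem mc_rep {M : Subgroup G} (hM : ∀ c, φ c ∈ M) {c : C} (h : c * c = 1) :
    MC φ M c (K00.rep (lab c)) := by
  obtain ⟨-, d, hd⟩ := K00.conj h
  exact ⟨φ d, hM d, by have := Rl.of (φ := φ) d c; rwa [hd] at this⟩

theorem mc_step {M : Subgroup G} (hM : ∀ c, φ c ∈ M) {S : SubT} {a : C → C} {i : C} {ρ : G}
    (s : Std φ S a i ρ) (hρ : ρ ∈ M) (u : C) {j k : ℕ}
    (h : u ∈ S.sub ∧ u * u = 1 ∧ a u * a u = 1 ∧ lab u = j ∧ lab (a u) = k) :
    MC φ M (K00.rep j) (K00.rep k) := by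
  obtain ⟨h1, h2, h3, rfl, rfl⟩ := h
  exact (mc_rep hM h2).symm.trans (MC.trans ⟨ρ, hρ, s.act u h1⟩ (mc_rep hM h3))

/-- The hypotheses on the subgroup. -/
structure Ov (φ : C →* G) (e e' : Bool) (M : Subgroup G) : Prop where
  H : Cfg φ
  h7 : e = true ↔ Col φ (x24 * x13)
  h8 : e' = true ↔ Col φ (x24 * x35)
  le : ∀ c, φ c ∈ M
  f1 : ∀ c, c * c = 1 → colf e e' (lab c) = 1 → MC φ M c z
  f0 : ∀ c, c * c = 1 → colf e e' (lab c) = 0 → MC φ M c sv

theorem Full.ov {e e' : Bool} {ρ1 ρ2 : G} (h : Full φ e e' ρ1 ρ2) (H : Cfg φ)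
    (h7 : e = true ↔ Col φ (x24 * x13)) (h8 : e' = true ↔ Col φ (x24 * x35)) {M : Subgroup G}
    (hM : ∀ c, φ c ∈ M) (h1 : ρ1 ∈ M) (h2 : ρ2 ∈ M) : Ov φ e e' M := by
  have j12 := mc_step hM h.s2 h2 z (j := 1) (k := 2) (by cases e <;> decide +kernel)
  have j13 := mc_step hM h.s1 h1 z (j := 1) (k := 3) (by cases e <;> cases e' <;> decide +kernel)
  have j35 := mc_step hM h.s2 h2 x25 (j := 3) (k := 5) (by cases e <;> decide +kernel)
  have j46 := mc_step hM h.s2 h2 sv (j := 4) (k := 6) (by cases e <;> decide +kernel)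
  have j7 : MC φ M (K00.rep (cond e 2 4)) (K00.rep 7) := by
    cases e
    · exact mc_step hM h.s2 h2 (x35 * x12 * x14) (by decide +kernel)
    · exact mc_step hM h.s2 h2 (x12 * x14 * z) (by decide +kernel)
  have j8 : MC φ M (K00.rep (cond e' 3 4)) (K00.rep 8) := by
    cases e'
    · exact mc_step hM h.s1 h1 (x25 * x45 * x13 * z) (by cases e <;> decide +kernel)
    · exact mc_step hM h.s1 h1 (x35 * x45 * z) (by cases e <;> decide +kernel)
  obtain ⟨v0, v1, v2, v3, v4, v5, v6, v7, v7', v8, v8'⟩ := colf_val e e'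
  have r : ∀ a, MC φ M a a := fun a => ⟨1, one_mem _, Rl.refl a⟩
  refine ⟨H, h7, h8, hM, fun c hc h => (mc_rep hM hc).trans ?_, fun c hc h => (mc_rep hM hc).trans ?_⟩
  · rw [← show K00.rep 1 = z from K00.r1]
    have hl : lab c < 9 := (K00.conj hc).1
    generalize lab c = j at *
    interval_cases j
    · omega
    · exact r _
    · exact j12.symm
    · exact j13.symm
    · omega
    · exact (j13.trans j35).symm
    · omega
    · cases e
      · omega
      · exact (j12.trans j7).symm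
    · cases e'
      · omega
      · exact (j13.trans j8).symm
  · rw [← (by decide +kernel : K00.rep 4 = sv)]
    have hl : lab c < 9 := (K00.conj hc).1
    generalize lab c = j at *
    interval_cases j
    · omega
    · omega
    · omega
    · omega
    · exact r _
    · omega
    · exact j46.symm
    · cases e
      · exact j7.symm
      · omega
    · cases e'
      · exact j8.symm
      · omega

variable [Finite G]

theorem Cfg.wcR (H : Cfg φ) {g : G} (h : ∀ r ∈ R, ∃ t ∈ T, Rl φ g r t) :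
    g ∈ Nm φ SU1 ⊓ Nm φ SU2 :=
  ⟨H.wc1 fun u hu => h u (U1_R u hu), H.wc2 fun u hu => h u (U2_R u hu)⟩

theorem Cfg.nmF (H : Cfg φ) {g : G} (h : g ∈ Nm φ SU1 ⊓ Nm φ SU2) {f : C} (hf : f ∈ F) :
    ∃ d ∈ F, Rl φ g f d := by
  obtain ⟨d, hd, e⟩ := h.1 f (F_U1 f hf)
  obtain ⟨d', hd', e'⟩ := h.2 f (F_U2 f hf)
  exact ⟨d, F_of d hd (H.uniq e e' ▸ hd'), e⟩

theorem nmR {g : G} (h : g ∈ Nm φ SU1 ⊓ Nm φ SU2) {c : C} (hc : c ∈ R) : ∃ d ∈ R, Rl φ g c d :=
  SR.le (K := subOfMul {c | ∃ d ∈ R, Rl φ g c d} ⟨1, one_mem _, Rl.one g⟩ (by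
    rintro a ⟨a', ha, e⟩ b ⟨b', hb, e'⟩
    exact ⟨_, mul_mem ha hb, e.mul e'⟩)) (fun a ha => by
    rcases (by revert a; decide +kernel : a ∈ U1 ∨ a ∈ U2) with h1 | h1
    · obtain ⟨d, hd, e⟩ := h.1 a h1
      exact ⟨d, U1_R d hd, e⟩
    · obtain ⟨d, hd, e⟩ := h.2 a h1
      exact ⟨d, U2_R d hd, e⟩) hc

theorem Cfg.conjT (H : Cfg φ) {P : Subgroup G} (hP : IsPGroup 2 P) (hR : R.map φ ≤ P) :
    ∃ g ∈ Nm φ SU1 ⊓ Nm φ SU2, ∀ x ∈ P, ∃ c ∈ T, g * x * g⁻¹ = φ c := by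
  have : Fact (Nat.Prime 2) := ⟨Nat.prime_two⟩
  obtain ⟨g, -, hg⟩ := H.syl.exists_cj_le hP le_top
  have k : ∀ x ∈ P, ∃ c ∈ T, g * x * g⁻¹ = φ c := fun x hx => by
    obtain ⟨c, hc, e⟩ := cj_le_iff_forall.mp hg x hx
    exact ⟨c, hc, e.symm⟩
  exact ⟨g, H.wcR fun r hr => k _ (hR (mem_map_of_mem φ hr)), k⟩

omit [Finite G] in
theorem Cfg.comm_of (H : Cfg φ) {g x : G} {c a b : C} (e : g * x * g⁻¹ = φ c) (h : Rl φ g a b)
    (hx : x * φ a = φ a * x) : c * b = b * c := H.inj (by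
  unfold Rl at h
  rw [map_mul, map_mul, ← e, ← h, conj_mul, conj_mul, hx])

theorem mem_R_of {g x : G} (hg : g ∈ Nm φ SU1 ⊓ Nm φ SU2) {c : C} (hc : c ∈ R)
    (e : g * x * g⁻¹ = φ c) : x ∈ R.map φ := by
  obtain ⟨d, hd, e'⟩ := nmR (inv_mem hg) hc
  unfold Rl at e'
  exact ⟨d, hd, by rw [← e', ← e]; group⟩

namespace Ov

variable {e e' : Bool} {M : Subgroup G} (O : Ov φ e e' M)
include O

theorem not_conj : ¬ IsConj (φ z) (φ sv) := fun h =>
  O.H.not_col (c := sv) (by decide +kernel) (by decide +kernel) (Or.inl h)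

theorem inv_cases {u : G} (hu : u ∈ M) (h : u * u = 1) (h1 : u ≠ 1) :
    ∃ m ∈ M, m * u * m⁻¹ = φ z ∨ m * u * m⁻¹ = φ sv := by
  have : Fact (Nat.Prime 2) := ⟨Nat.prime_two⟩
  obtain ⟨m, hm, c, -, e⟩ := (O.H.syl.mono (K := M) (by rintro _ ⟨c, -, rfl⟩; exact O.le c)
    le_top).exists_conj_mem hu ⟨1, by rw [pow_one, pow_two, h]⟩
  have hc : c * c = 1 := O.H.inj (by rw [map_mul, e, conj_mul, h, map_one]; simp)
  rcases O.H.col_cases O.h7 O.h8 hc with k | k | k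
  · rw [k.2, map_one, eq_comm, conj_eq_one_iff] at e
    exact absurd e h1
  · obtain ⟨n, hn, e2⟩ := O.f1 c hc k.1
    exact ⟨n * m, mul_mem hn hm, Or.inl (by unfold Rl at e2; rw [← e2, e]; group)⟩
  · obtain ⟨n, hn, e2⟩ := O.f0 c hc k.1
    exact ⟨n * m, mul_mem hn hm, Or.inr (by unfold Rl at e2; rw [← e2, e]; group)⟩

theorem emb {g d : G} (hd : IsConj (φ z) d) (h1 : d ∈ M) (h2 : g * d * g⁻¹ ∈ M) : g ∈ M := by
  have key : ∀ {d}, IsConj (φ z) d → d ∈ M → ∃ m ∈ M, m * d * m⁻¹ = φ z := fun {d} hd h1 => by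
    obtain ⟨m, hm, e | e⟩ := O.inv_cases h1
      (sq_of_isConj (by rw [← map_mul, CM.z_z, map_one]) hd)
      (ne_one_of_isConj (fun e => CM.z_ne (O.H.inj (e.trans (map_one φ).symm))) hd)
    · exact ⟨m, hm, e⟩
    · exact absurd (hd.trans (isConj_iff.mpr ⟨m, e⟩)) O.not_conj
  obtain ⟨m, hm, e⟩ := key hd h1
  obtain ⟨m', hm', e'⟩ := key (hd.trans (isConj_iff.mpr ⟨g, rfl⟩)) h2
  obtain ⟨c, hc⟩ := O.H.cen (m' * g * m⁻¹) (by
    nth_rewrite 1 [← e]
    rw [← e']; group)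
  have := O.le c
  rwa [hc, mul_mem_cancel_right (inv_mem hm), mul_mem_cancel_left hm'] at this

theorem col0 {g : G} {c d : C} (h : Rl φ g c d) (hc : c * c = 1 ∧ colf e e' (lab c) = 0) :
    colf e e' (lab d) = 0 := (O.H.col_inv O.h7 O.h8 hc.1 h).symm.trans hc.2

omit O [Finite G] in
theorem c0 (e e' : Bool) : (sv * sv = 1 ∧ colf e e' (lab sv) = 0) ∧
    (sw * sw = 1 ∧ colf e e' (lab sw) = 0) ∧
    (sw * sv * (sw * sv) = 1 ∧ colf e e' (lab (sw * sv)) = 0) := by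
  cases e <;> cases e' <;> decide +kernel

omit O [Finite G] in
theorem mem_K {x : G} : x ∈ centralizer {φ sv, φ sw} ↔
    x * φ sv = φ sv * x ∧ x * φ sw = φ sw * x := by
  simp [mem_centralizer_iff, eq_comm]

omit O [Finite G] in
theorem R_K {r : C} (hr : r ∈ R) : φ r ∈ centralizer {φ sv, φ sw} :=
  mem_K.mpr ⟨by rw [← map_mul, ← map_mul, comm_F (by decide +kernel) hr],
    by rw [← map_mul, ← map_mul, comm_F (by decide +kernel) hr]⟩

theorem sylR : IsSyl 2 (R.map φ) (centralizer {φ sv, φ sw}) := by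
  have : Fact (Nat.Prime 2) := ⟨Nat.prime_two⟩
  refine isSyl_of_maximal (by rintro _ ⟨r, hr, rfl⟩; exact R_K hr)
    ((IsPGroup.of_card (n := 8) SR.card).map φ) fun P hP h1 h2 x hx => ?_
  obtain ⟨g, hg, k⟩ := O.H.conjT hP h1
  obtain ⟨a, ha, ea⟩ := O.H.nmF hg (f := sw) (by decide +kernel)
  obtain ⟨b, hb, eb⟩ := O.H.nmF hg (f := sv) (by decide +kernel)
  obtain ⟨c, hc, e1⟩ := k x hx
  have h3 := O.H.comm_of e1 ea (mem_K.mp (h2 hx)).2
  have h4 := O.H.comm_of e1 eb (mem_K.mp (h2 hx)).1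
  have a0 := O.col0 ea (c0 e e').2.1
  refine mem_R_of hg ((cos_of hc ha a0 h3).resolve_right fun h => ?_) e1
  have k : ∀ f ∈ F, c * f = f * c → x12 * x45 * f = f * (x12 * x45) := fun f hf h' => by
    have := comm_F hf h
    rw [mul_assoc, h', ← mul_assoc, ← mul_assoc] at this
    exact mul_right_cancel this
  exact col0_FF e e' a ha a0 (k a ha h3) b hb (O.col0 eb (c0 e e').1)
    (O.col0 (ea.mul eb) (c0 e e').2.2) (k b hb h4)

theorem K_le (hS : SEC.{u}) : centralizer {φ sv, φ sw} ≤ M := by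
  have : Fact (Nat.Prime 2) := ⟨Nat.prime_two⟩
  set K := centralizer {φ sv, φ sw} with hK
  have cV : ∀ k ∈ K, ∀ v ∈ V4, k * φ v = φ v * k := by
    rintro k hk _ (rfl | rfl | rfl | rfl)
    · simp
    · exact (mem_K.mp hk).1
    · exact (mem_K.mp hk).2
    · rw [map_mul, ← mul_assoc, (mem_K.mp hk).2, mul_assoc, (mem_K.mp hk).1, mul_assoc]
  let N : Subgroup K := (V4.map φ).subgroupOf K
  have : N.Normal := ⟨by
    rintro n ⟨v, hv, e⟩ k
    refine ⟨v, hv, ?_⟩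
    have e' : φ v = n := e
    show φ v = k * n * (k : G)⁻¹
    rw [← e', cV k k.2 v hv, mul_inv_cancel_right]⟩
  let π := QuotientGroup.mk' N
  have hπ : ∀ k : K, π k = 1 ↔ ∃ v ∈ V4, φ v = k := fun k => QuotientGroup.eq_one_iff k
  have mX : ∀ k : K, π k ∈ (M.subgroupOf K).map π ↔ (k : G) ∈ M := fun k => by
    refine ⟨?_, fun h => ⟨k, h, rfl⟩⟩
    rintro ⟨m, hm, e⟩
    obtain ⟨v, -, e2⟩ := (hπ (m⁻¹ * k)).mp (by rw [map_mul, map_inv, e, inv_mul_cancel])
    have := O.le v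
    rw [e2] at this
    exact (mul_mem_cancel_left (inv_mem hm)).mp this
  intro k hk
  refine (mX ⟨k, hk⟩).mp ?_
  by_contra hn
  have m1 : φ x13 ∈ K := R_K (by decide +kernel)
  have m2 : φ x34 ∈ K := R_K (by decide +kernel)
  have := hS (K ⧸ N) ((M.subgroupOf K).map π) (fun h => hn (h ▸ mem_top _)) (by
      intro g x hx h1 h2 h3
      obtain ⟨g, rfl⟩ := QuotientGroup.mk'_surjective N g
      obtain ⟨x, rfl⟩ := QuotientGroup.mk'_surjective N x
      rw [← map_inv, ← map_mul, ← map_mul] at h3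
      rw [mX] at hx h3 ⊢
      rw [← map_mul, hπ] at h1
      obtain ⟨v, hv, h1⟩ := h1
      have h1 : φ v = x * x := h1
      obtain ⟨m, hm, r, hr, er⟩ := (O.sylR.mono (K := K ⊓ M) (by
        rintro _ ⟨r, hr, rfl⟩
        exact ⟨R_K hr, O.le r⟩) inf_le_left).exists_conj_mem (x := x) ⟨x.2, hx⟩ ⟨2, by
          rw [show (x : G) ^ 2 ^ 2 = x * x * (x * x) by
            rw [show 2 ^ 2 = 2 * 2 from rfl, pow_mul, pow_two, pow_two], ← h1, ← map_mul,
            (by rcases hv with rfl | rfl | rfl | rfl <;> decide +kernel : v * v = 1),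
            map_one]⟩
      obtain ⟨w, hw, w1, w2⟩ := R_V e e' r hr (by
        rw [O.H.inj (show φ (r * r) = φ v by
          rw [map_mul, er, conj_mul, ← h1, cV m hm.1 v hv, mul_inv_cancel_right])]
        exact hv) fun h => h2 ((hπ x).mpr ⟨r, h, by
          have := cV m⁻¹ (inv_mem hm.1) r h
          calc _ = m⁻¹ * φ r * m := by rw [this, inv_mul_cancel_right]
            _ = _ := by rw [er]; group⟩)
      have wV : w ∈ V4 := (by decide +kernel : ∀ w ∈ [1, sv, sw, sw * sv], w ∈ V4) w hw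
      refine O.emb (d := x * φ w) ((O.f1 _ w1 w2).symm.isConj.trans (isConj_iff.mpr ⟨m⁻¹, ?_⟩))
        (mul_mem hx (O.le w)) ?_
      · rw [map_mul, er, inv_inv]
        calc _ = x * (m⁻¹ * φ w) * m := by group
          _ = _ := by rw [cV _ (inv_mem hm.1) w wV]; group
      · rw [← conj_mul, cV g g.2 w wV, mul_inv_cancel_right]
        exact mul_mem h3 (O.le w))
    (π ⟨_, m1⟩) ((mX _).mpr (O.le _)) (π ⟨_, m2⟩) ((mX _).mpr (O.le _))
    (by rw [← map_mul, hπ]; exact ⟨1, one_mem _, by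
      show _ = φ x13 * φ x13
      rw [← map_mul]; exact congrArg φ (by decide +kernel)⟩)
    (by rw [← map_mul, hπ]; exact ⟨1, one_mem _, by
      show _ = φ x34 * φ x34
      rw [← map_mul]; exact congrArg φ (by decide +kernel)⟩)
    (by rw [← map_mul, ← map_pow, hπ]; exact ⟨1, one_mem _, by
      show _ = (φ x13 * φ x34) ^ 4
      rw [← map_mul, ← map_pow]; exact congrArg φ (by decide +kernel)⟩)
  rw [← mul_inv_eq_one, ← map_mul, ← map_mul, ← map_inv, ← map_mul, hπ] at this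
  obtain ⟨v, hv, e1⟩ := this
  have e1 : φ v = φ x13 * φ x34 * (φ x34 * φ x13)⁻¹ := e1
  rw [← map_mul, ← map_mul, ← map_inv, ← map_mul] at e1
  rw [O.H.inj e1] at hv
  exact absurd hv (by decide +kernel)

theorem vpair {y : G} {a b : G} (h1 : y * φ sv * y⁻¹ = b) (h2 : y * φ sw * y⁻¹ = a)
    {E : Subgroup G} (hE : IsPGroup 2 E) (hc : ∀ x ∈ E, x * b = b * x ∧ x * a = a * x) :
    ∃ y', y' * φ sv * y'⁻¹ = b ∧ y' * φ sw * y'⁻¹ = a ∧
      ∀ x ∈ E, ∃ r ∈ R, y'⁻¹ * x * y' = φ r := by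
  have : Fact (Nat.Prime 2) := ⟨Nat.prime_two⟩
  obtain ⟨k, hk, h3⟩ := O.sylR.exists_cj_le (isPGroup_cj hE y⁻¹) (cj_le_iff_forall.mpr fun x hx =>
    mem_K.mpr ⟨by
      calc _ = y⁻¹ * (x * (y * φ sv * y⁻¹)) * y := by group
        _ = y⁻¹ * (y * φ sv * y⁻¹ * x) * y := by rw [h1, (hc x hx).1]
        _ = _ := by group, by
      calc _ = y⁻¹ * (x * (y * φ sw * y⁻¹)) * y := by group
        _ = y⁻¹ * (y * φ sw * y⁻¹ * x) * y := by rw [h2, (hc x hx).2]
        _ = _ := by group⟩)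
  have hk' := mem_K.mp (inv_mem hk)
  refine ⟨y * k⁻¹, ?_, ?_, fun x hx => ?_⟩
  · rw [← h1, mul_assoc y, hk'.1]; group
  · rw [← h2, mul_assoc y, hk'.2]; group
  · obtain ⟨r, hr, e⟩ := cj_le_iff_forall.mp h3 _ (conj_mem_cj hx)
    exact ⟨r, hr, by rw [e]; group⟩

theorem vp1 {S : SubT} (K : VS S)
    (wc : ∀ {g : G}, (∀ u ∈ S.sub, ∃ t ∈ T, Rl φ g u t) → ∀ u ∈ S.sub, ∃ d ∈ S.sub, Rl φ g u d)
    {y : G} {c : C} (hc : c ∈ S.sub) (h1 : Rl φ y sv sv) (h2 : Rl φ y sw c) :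
    c = sw ∨ c = sw * sv := by
  obtain ⟨y, h1, h2, h3⟩ := O.vpair h1 h2 (E := S.sub.map φ)
    (isPGroup_iff_forall.mpr (by
      rintro _ ⟨u, hu, rfl⟩
      exact ⟨1, by rw [pow_one, pow_two, ← map_mul, K.sq u hu, map_one]⟩)) (by
      rintro _ ⟨u, hu, rfl⟩
      exact ⟨by rw [← map_mul, ← map_mul, K.comm hu K.mem.1],
        by rw [← map_mul, ← map_mul, K.comm hu hc]⟩)
  have h1 : Rl φ y sv sv := h1
  have h2 : Rl φ y sw c := h2
  have h4 := wc (g := y⁻¹) fun u hu => by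
    obtain ⟨r, hr, e⟩ := h3 _ (mem_map_of_mem φ hu)
    exact ⟨r, R_T r hr, by unfold Rl; rw [inv_inv, e]⟩
  refine K.uniq e e' c hc (O.col0 h2 (c0 e e').2.1) (O.col0 (h2.mul h1) (c0 e e').2.2) fun u hu => ?_
  obtain ⟨d, hd, h5⟩ := h4 u hu
  have h6 := h5.symm
  rw [inv_inv] at h6
  have k : ∀ {a b}, a ∈ S.sub → Rl φ y a b → colf e e' (lab a) = 1 → colf e e' (lab b) = 1 :=
    fun ha h h' => (O.H.col_inv O.h7 O.h8 (K.sq _ ha) h).symm.trans h'
  rcases K.pv e e' d hd with (rfl | rfl | rfl | rfl) | h | h | h | h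
  · exact Or.inl (Or.inl (O.H.uniq h6 (Rl.one y)))
  · exact Or.inl (Or.inr (Or.inl (O.H.uniq h6 h2)))
  · exact Or.inl (Or.inr (Or.inr (Or.inl (O.H.uniq h6 h1))))
  · exact Or.inl (Or.inr (Or.inr (Or.inr (O.H.uniq h6 (h2.mul h1)))))
  · exact Or.inr (Or.inl (k hd h6 h))
  · exact Or.inr (Or.inr (Or.inl (k (mul_mem hd K.mem.2) (h6.mul h2) h)))
  · exact Or.inr (Or.inr (Or.inr (Or.inl (k (mul_mem hd K.mem.1) (h6.mul h1) h))))
  · exact Or.inr (Or.inr (Or.inr (Or.inr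
      (k (mul_mem hd (mul_mem K.mem.2 K.mem.1)) (h6.mul (h2.mul h1)) h))))

theorem vp2 {y : G} {c : C} (hc : c.s = 1) (h1 : Rl φ y sv sv) (h2 : Rl φ y sw c) : False := by
  have : Fact (Nat.Prime 2) := ⟨Nat.prime_two⟩
  have zz : φ z * φ z = 1 := by rw [← map_mul, CM.z_z, map_one]
  have zc : ∀ c, Commute (φ z) (φ c) := fun c => by
    show _ * _ = _ * _
    rw [← map_mul, ← map_mul, CM.z_comm]
  obtain ⟨y, h1, h2, h3⟩ := O.vpair h1 h2 (E := zpowers (φ z))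
    (isPGroup_zpowers (k := 1) (by rw [pow_one, pow_two, zz])) (by
      rintro _ ⟨k, rfl⟩
      exact ⟨(zc _).zpow_left k, (zc _).zpow_left k⟩)
  have h1 : Rl φ y sv sv := h1
  have h2 : Rl φ y sw c := h2
  obtain ⟨r, hr, er⟩ := h3 _ (mem_zpowers _)
  have key : ∀ {S : SubT}, VS S → (∀ {g : G}, (∀ u ∈ S.sub, ∃ t ∈ T, Rl φ g u t) →
      ∀ u ∈ S.sub, ∃ d ∈ S.sub, Rl φ g u d) → r ∈ S.sub → False := fun {S} K wc hr => by
    obtain ⟨_, ⟨c0', rfl⟩, h4⟩ := (O.H.syl.mono (K := φ.range) (map_le_range _ _)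
      le_top).exists_cj_le (Q := cj y (S.sub.map φ)) (isPGroup_cj (isPGroup_iff_forall.mpr (by
        rintro _ ⟨u, hu, rfl⟩
        exact ⟨1, by rw [pow_one, pow_two, ← map_mul, K.sq u hu, map_one]⟩)) y)
      (cj_le_iff_forall.mpr (by
        rintro _ ⟨u, hu, rfl⟩
        refine O.H.cen _ ?_
        calc _ = y * (φ u * (y⁻¹ * φ z * y)) * y⁻¹ := by group
          _ = y * (y⁻¹ * φ z * y * φ u) * y⁻¹ := by rw [er, ← map_mul, ← map_mul, K.comm hu hr]
          _ = _ := by group))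
    rw [← cj_mul] at h4
    have h5 := wc (g := φ c0' * y) fun u hu => by
      obtain ⟨t, ht, e⟩ := cj_le_iff_forall.mp h4 _ (mem_map_of_mem φ hu)
      exact ⟨t, ht, Eq.symm e⟩
    have a1 := (Rl.of (φ := φ) c0' _).comp h1
    have a2 := (Rl.of (φ := φ) c0' _).comp h2
    obtain ⟨d1, m1, b1⟩ := h5 _ K.mem.1
    obtain ⟨d2, m2, b2⟩ := h5 _ K.mem.2
    rw [O.H.uniq b1 a1] at m1
    rw [O.H.uniq b2 a2] at m2
    exact K.no e e' _ m2 (s_conj hc) (O.col0 a2 (c0 e e').2.1) _ m1 (s_conj (by decide +kernel))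
      (O.col0 a1 (c0 e e').1) (O.col0 (a2.mul a1) (c0 e e').2.2)
  rcases R_inv r hr (O.H.inj (by
    rw [map_mul, ← er, map_one]
    calc _ = y⁻¹ * (φ z * φ z) * y := by group
      _ = 1 := by rw [zz, mul_one, inv_mul_cancel])) with h | h
  · exact key vs1 O.H.wc1 h
  · exact key vs2 O.H.wc2 h

theorem sylS : IsSyl 2 ((T ⊓ centralizer {sv}).map φ) (centralizer {φ sv}) := by
  have : Fact (Nat.Prime 2) := ⟨Nat.prime_two⟩
  have RS : R ≤ T ⊓ centralizer {sv} := fun r hr =>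
    ⟨R_T r hr, mem_centralizer_singleton_iff.mpr (comm_F (by decide +kernel) hr)⟩
  refine isSyl_of_maximal (by
    rintro _ ⟨r, hr, rfl⟩
    exact mem_centralizer_singleton_iff.mpr (by
      rw [← map_mul, ← map_mul, mem_centralizer_singleton_iff.mp hr.2]))
    (((IsPGroup.of_card (n := 10) ST.card).to_le inf_le_left).map φ) fun P hP h1 h2 x hx => ?_
  obtain ⟨g, hg, k⟩ := O.H.conjT hP ((map_mono RS).trans h1)
  obtain ⟨b, hb, eb⟩ := O.H.nmF hg (f := sv) (by decide +kernel)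
  have b0 := O.col0 eb (c0 e e').1
  have jm : x12 * x45 ∈ T ⊓ centralizer {sv} :=
    ⟨(by decide +kernel : x12 * x45 ∈ T), mem_centralizer_singleton_iff.mpr (by decide +kernel)⟩
  have jP := h1 (mem_map_of_mem φ jm)
  obtain ⟨c, hc, e1⟩ := k x hx
  obtain ⟨c', hc', e2⟩ := k _ jP
  rcases cos_of hc hb b0 (O.H.comm_of e1 eb (mem_centralizer_singleton_iff.mp (h2 hx))) with h | h
  · exact map_mono RS (mem_R_of hg h e1)
  rcases cos_of hc' hb b0 (O.H.comm_of e2 eb (mem_centralizer_singleton_iff.mp (h2 jP))) with h' | h'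
  · obtain ⟨r, hr, e3⟩ := mem_R_of hg h' e2
    rw [O.H.inj e3] at hr
    exact absurd hr (by decide +kernel : x12 * x45 ∉ R)
  have := map_mono RS (mem_R_of hg (x := (φ (x12 * x45))⁻¹ * x) (mul_mem (inv_mem h') h) (by
    rw [← conj_mul, ← conj_inv, e1, e2, ← map_inv, ← map_mul]
    exact congrArg φ (by group)))
  exact (mul_mem_cancel_left (inv_mem (mem_map_of_mem φ jm))).mp this

theorem cen_le (hS : SEC.{u}) : centralizer {φ sv} ≤ M := by
  have : Fact (Nat.Prime 2) := ⟨Nat.prime_two⟩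
  have hK := O.K_le hS
  set K := centralizer {φ sv} with hK'
  have ss : φ sv * φ sv = 1 := by rw [← map_mul, (c0 e e').1.1, map_one]
  have cK : ∀ k : K, (k : G) * φ sv = φ sv * k := fun k => mem_centralizer_singleton_iff.mp k.2
  let N : Subgroup K := subOfMul {k | (k : G) = 1 ∨ (k : G) = φ sv} (Or.inl rfl) (by
    rintro a (ha | ha) b (hb | hb) <;>
      (show (a : G) * b = 1 ∨ (a : G) * b = φ sv; rw [ha, hb]; simp [ss]))
  have : N.Normal := ⟨by
    rintro n (e | e) k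
    · exact Or.inl (by simp [e])
    · refine Or.inr ?_
      show k * n * (k : G)⁻¹ = _
      rw [e, cK, mul_inv_cancel_right]⟩
  let π := QuotientGroup.mk' N
  have hπ : ∀ k l : K, π k = π l ↔ (k : G) = l ∨ (k : G) = l * φ sv := fun k l => by
    rw [eq_comm]
    refine QuotientGroup.eq.trans ?_
    show ((l : G)⁻¹ * k = 1 ∨ (l : G)⁻¹ * k = φ sv) ↔ _
    rw [inv_mul_eq_iff_eq_mul, inv_mul_eq_iff_eq_mul, mul_one]
  have mX : ∀ k : K, π k ∈ (M.subgroupOf K).map π ↔ (k : G) ∈ M := fun k => by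
    refine ⟨?_, fun h => ⟨k, h, rfl⟩⟩
    rintro ⟨m, hm, e⟩
    rcases (hπ _ _).mp e.symm with e | e <;> rw [e]
    exacts [hm, mul_mem hm (O.le _)]
  have mF : ∀ {f}, f ∈ F → φ f ∈ K := fun hf => mem_centralizer_singleton_iff.mpr (by
    rw [← map_mul, ← map_mul, comm_F (by decide +kernel) (U1_R _ (F_U1 _ hf))])
  let κ : F →* K := (φ.comp F.subtype).codRestrict K fun f => mF f.2
  have ιe : ∀ f g : F, π (κ f) = π (κ g) ↔ (f : C) = g ∨ (f : C) = g * sv := fun f g => by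
    refine (hπ _ _).trans ?_
    show φ f = φ g ∨ φ f = φ g * φ sv ↔ _
    rw [← map_mul, O.H.inj.eq_iff, O.H.inj.eq_iff]
  have ι1 : ∀ f : F, ¬ ((f : C) = 1 ∨ (f : C) = 1 * sv) → π (κ f) ≠ 1 := fun f h e =>
    h ((ιe f 1).mp (by rw [e, map_one, map_one]))
  have ιs : ∀ f, π (κ f) * π (κ f) = 1 := fun f => by
    rw [← map_mul, ← map_mul, show f * f = 1 from Subtype.ext (U1_sq f (F_U1 f f.2)), map_one,
      map_one]
  let w : F := ⟨sw, by decide +kernel⟩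
  have zs := zstar (t := π (κ w)) (orderOf_eq_prime (by rw [pow_two, ιs])
      (ι1 w (by decide +kernel)))
    (isIsolated_of_weaklyClosed (p := 2)
      (P := (((T ⊓ centralizer {sv}).map φ).subgroupOf K).map π) (by
      have := O.sylS.subgroupOf_top.map π
      rwa [← MonoidHom.range_eq_map, MonoidHom.range_eq_top.mpr (QuotientGroup.mk'_surjective N)]
        at this) ⟨κ w, mem_map_of_mem φ (x := sw) ⟨(by decide +kernel : sw ∈ T),
          mem_centralizer_singleton_iff.mpr (by decide +kernel)⟩, rfl⟩ (by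
      intro g
      obtain ⟨g, rfl⟩ := QuotientGroup.mk'_surjective N g
      rintro ⟨x, ⟨c, hc, ec⟩, e⟩
      have ec : φ c = x := ec
      change π x = π g * π (κ w) * (π g)⁻¹ at e
      show π g * π (κ w) * (π g)⁻¹ = _
      rw [← map_inv, ← map_mul, ← map_mul] at e ⊢
      obtain ⟨c, hc, ec⟩ : ∃ c ∈ T ⊓ centralizer {sv}, Rl φ g sw c := by
        rcases (hπ _ _).mp e.symm with e | e
        · exact ⟨c, hc, e.trans ec.symm⟩
        · exact ⟨c * sv, mul_mem hc ⟨(by decide +kernel : sv ∈ T),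
            mem_centralizer_singleton_iff.mpr rfl⟩, e.trans (by rw [map_mul, ec])⟩
      have g1 : Rl φ g sv sv := Rl.of_comm (cK g)
      have : c = sw ∨ c = sw * sv := by
        rcases S_inv c hc.1 (O.H.uniq (ec.mul ec) (by rw [(c0 true true).2.1.1]; exact Rl.one _))
          (mem_centralizer_singleton_iff.mp hc.2) with h | h | h
        · exact O.vp1 vs1 O.H.wc1 h g1 ec
        · exact O.vp1 vs2 O.H.wc2 h g1 ec
        · exact (O.vp2 h g1 ec).elim
      refine (hπ _ _).mpr ?_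
      rcases this with rfl | rfl
      · exact Or.inl ec
      · exact Or.inr (Eq.trans ec (map_mul φ _ _))))
  have cD : ∀ f : F, (f : C) * f = 1 ∧ colf e e' (lab f) = 1 → ∀ g, g * π (κ f) = π (κ f) * g →
      g ∈ (M.subgroupOf K).map π := fun f h g hg => by
    obtain ⟨g, rfl⟩ := QuotientGroup.mk'_surjective N g
    change π g * _ = _ * π g at hg
    rw [← mul_inv_eq_iff_eq_mul, ← map_inv, ← map_mul, ← map_mul] at hg
    refine (mX g).mpr (O.emb (O.f1 f h.1 h.2).symm.isConj (O.le f) ?_)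
    rcases (hπ _ _).mp hg with e | e
    · have e : (g : G) * φ f * (g : G)⁻¹ = φ f := e
      rw [e]; exact O.le f
    · have e : (g : G) * φ f * (g : G)⁻¹ = φ f * φ sv := e
      rw [e]; exact mul_mem (O.le f) (O.le sv)
  let a : F := ⟨z, by decide +kernel⟩
  let b : F := ⟨x14, by decide +kernel⟩
  have hO : pPrimeCore 2 (K ⧸ N) ≤ (M.subgroupOf K).map π :=
    gen4 (H7.coprime_card_pPrimeCore 2 _) (ιs a) (ιs b) (by
      rw [← map_mul, ← map_mul, ← map_mul, ← map_mul]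
      exact (ιe _ _).mpr (Or.inl (CM.z_comm _))) (ι1 a (by decide +kernel))
      (ι1 b (by decide +kernel)) ((ιe a b).not.mpr (by decide +kernel)) (by
      rintro _ (rfl | rfl | rfl)
      · exact cD a (by cases e <;> cases e' <;> decide +kernel)
      · exact cD b (by cases e <;> cases e' <;> decide +kernel)
      · rw [← map_mul, ← map_mul]
        exact cD (a * b) (by cases e <;> cases e' <;> decide +kernel))
  intro h hh
  have h1 := zs (π ⟨h, hh⟩)
  rw [inv_eq_of_mul_eq_one_left (ιs w)] at h1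
  obtain ⟨g, hg, e1⟩ := exists_conj_of_odd_orderOf_mul (by rw [conj_mul, ιs]; simp) (ιs w)
    (Nat.coprime_two_right.mp (Nat.Coprime.coprime_dvd_left (orderOf_dvd_natCard _ h1)
      (H7.coprime_card_pPrimeCore 2 _)))
  obtain ⟨m, hm, rfl⟩ := hO (zpowers_le.mpr h1 hg)
  have e2 : π (m * ⟨h, hh⟩ * κ w * (m * ⟨h, hh⟩)⁻¹) = π (κ w) := by
    rw [map_mul, map_mul, map_inv, map_mul]
    refine Eq.trans ?_ e1
    simp only [mul_inv_rev, mul_assoc]
  have zc : ∀ c, φ z * φ c = φ c * φ z := fun c => by rw [← map_mul, ← map_mul, CM.z_comm]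
  have n1 := cK (m * ⟨h, hh⟩)⁻¹
  refine (mul_mem_cancel_left (show (m : G) ∈ M from hm)).mp (inv_mem_iff.mp
    (O.emb (IsConj.refl _) (O.le z) (hK (mem_K.mpr ?_))))
  have e3 : (m : G) * h * φ sw * ((m : G) * h)⁻¹ = φ sw ∨
    (m : G) * h * φ sw * ((m : G) * h)⁻¹ = φ sw * φ sv := (hπ _ _).mp e2
  simp only [coe_mul, coe_inv] at n1
  generalize (m : G) * h = n at *
  have k : ∀ a b, n * a * n⁻¹ = b → φ z * b = b * φ z →
      n⁻¹ * φ z * n⁻¹⁻¹ * a = a * (n⁻¹ * φ z * n⁻¹⁻¹) := by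
    rintro a _ rfl h
    calc _ = n⁻¹ * (φ z * (n * a * n⁻¹)) * n := by group
      _ = _ := by rw [h]; group
  refine ⟨k _ (φ sv) (by rw [mul_assoc, ← n1, mul_inv_cancel_left]) (zc _), ?_⟩
  rcases e3 with e3 | e3
  · exact k _ _ e3 (zc _)
  · exact k _ _ e3 (by rw [← map_mul]; exact zc _)

theorem top (hS : SEC.{u}) : M = ⊤ := by
  have hC := O.cen_le hS
  have cen : ∀ u ∈ M, u * u = 1 → u ≠ 1 → ∀ g, g * u = u * g → g ∈ M := fun u hu h h1 g hg => by
    obtain ⟨m, hm, e⟩ := O.inv_cases hu h h1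
    have k : m * g * m⁻¹ * (m * u * m⁻¹) = m * u * m⁻¹ * (m * g * m⁻¹) := by
      rw [conj_mul, conj_mul, hg]
    have : m * g * m⁻¹ ∈ M := by
      rcases e with e | e <;> rw [e] at k
      · obtain ⟨c, hc⟩ := O.H.cen _ k
        exact hc ▸ O.le c
      · exact hC (mem_centralizer_singleton_iff.mpr k)
    rwa [mul_mem_cancel_right (inv_mem hm), mul_mem_cancel_left hm] at this
  rw [eq_top_iff]
  intro g _
  refine O.emb (IsConj.refl _) (O.le z) ?_
  have h1 : g * φ z * g⁻¹ * (g * φ z * g⁻¹) = 1 := by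
    rw [conj_mul, ← map_mul, CM.z_z, map_one]; simp
  have h2 : φ sv * φ sv = 1 := by rw [← map_mul, (c0 e e').1.1, map_one]
  obtain ⟨u, -, u2, u1, a, b⟩ := exists_central_inv h1 h2 fun h => by
    obtain ⟨k, -, e⟩ := exists_conj_of_odd_orderOf_mul h1 h2 h
    exact O.not_conj ((isConj_iff.mpr ⟨g, rfl⟩).trans (isConj_iff.mpr ⟨k, e⟩))
  exact cen u (hC (mem_centralizer_singleton_iff.mpr b)) u2 u1 _ a.symm

end Ov

end Cfsg.H5.He
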