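import Cfsg.Agent.H5.HeX
import Cfsg.Agent.H5.HeZ
import Cfsg.Agent.H5.HeV.C4.Main

/-!
The case in which the central involution is fused to one side only: the group is the point
stabiliser.
-/

set_option autoImplicit false
set_option synthInstance.maxSize 4096
set_option maxRecDepth 100000

namespace Cfsg.H5.He

open Subgroup H8 L0 H6

local notation "z" => (CM.z : C)

universe u

theorem central_inv_conj {G : Type*} [Group G] {a b u : G} (ha : a * a = 1) (hb : b * b = 1)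
    (hu : u ∈ zpowers (a * b)) :
    (IsConj a (u * a) ∧ IsConj b (u * b)) ∨ (IsConj b (u * a) ∧ IsConj a (u * b)) := by
  obtain ⟨k, rfl⟩ := hu
  have k1 : ∀ {v : G} (j : ℤ), v * (a * b) * v⁻¹ = (a * b)⁻¹ →
      IsConj v ((a * b) ^ (2 * j) * v) := fun {v} j h => isConj_iff.mpr ⟨(a * b) ^ j, by
    have := inverts_of_mem_zpowers h (y := ((a * b) ^ j)⁻¹) (inv_mem ⟨j, rfl⟩)
    rw [inv_inv, mul_inv_eq_iff_eq_mul] at this
    rw [mul_assoc, this, two_mul, zpow_add, mul_assoc]⟩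
  have h1 := inverts_mul_left ha hb
  have h2 := inverts_mul_right ha hb
  rcases Int.even_or_odd' k with ⟨j, rfl | rfl⟩
  · exact Or.inl ⟨k1 j h1, k1 j h2⟩
  · refine Or.inr ⟨?_, ?_⟩
    · have := k1 (j + 1) h2
      show IsConj b ((a * b) ^ (2 * j + 1) * a)
      rwa [show 2 * (j + 1) = 2 * j + 1 + 1 by ring, zpow_add_one, mul_assoc, mul_assoc a, hb,
        mul_one] at this
    · show IsConj a ((a * b) ^ (2 * j + 1) * b)
      rw [zpow_add_one, mul_assoc, mul_assoc a, hb, mul_one]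
      exact k1 j h1

/-- The nonidentity elements of the normal subgroup of order sixteen. -/
def A1s (c : C) : Prop := c.s = 1 ∧ c * c = 1 ∧ (lab c = 1 ∨ lab c = 2)

instance instDecA1s (c : C) : Decidable (A1s c) := inferInstanceAs (Decidable (_ ∧ _ ∧ _))

theorem a1s_all {P : C → Prop} (h : ∀ q : Q, A1s ⟨q, 1⟩ → P ⟨q, 1⟩) (c : C) (hc : A1s c) : P c := by
  obtain ⟨q, s⟩ := c
  obtain rfl : s = 1 := hc.1
  exact h q hc

theorem a1s_mul : ∀ a, A1s a → ∀ b, A1s b → a * b = b * a ∧ (a * b = 1 ∨ A1s (a * b)) :=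
  fun a ha => a1s_all (P := fun a => ∀ b, A1s b → a * b = b * a ∧ (a * b = 1 ∨ A1s (a * b)))
    (fun q hq => a1s_all ((by decide +kernel : ∀ q : Q, A1s ⟨q, 1⟩ → ∀ p : Q, A1s ⟨p, 1⟩ →
      (⟨q, 1⟩ : C) * ⟨p, 1⟩ = ⟨p, 1⟩ * ⟨q, 1⟩ ∧ ((⟨q, 1⟩ : C) * ⟨p, 1⟩ = 1 ∨
        A1s (⟨q, 1⟩ * ⟨p, 1⟩))) q hq)) a ha

/-- The elements for which the fusion argument works. -/
def Gd (w : C) : Prop := w * x14 = x14 * w ∧ x12 * w * x12⁻¹ * w⁻¹ = z ∧
  ∀ q : Q, A1s ⟨q, 1⟩ → (⟨q, 1⟩ : C) * w * (⟨q, 1⟩ : C)⁻¹ * w⁻¹ ≠ x14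

instance instDecGd (w : C) : Decidable (Gd w) := inferInstanceAs (Decidable (_ ∧ _ ∧ _))

theorem gd_of : ∀ a, A1s a → a * x25 = x25 * a → Gd (a * x25) :=
  a1s_all (by decide +kernel)

theorem lab2_s {c : C} (h : c * c = 1) (h1 : lab c = 1 ∨ lab c = 2) : A1s c := by
  refine ⟨?_, h, h1⟩
  obtain ⟨-, d, hd⟩ := K00.conj h
  have : (K00.rep (lab c)).s = 1 := by
    rcases h1 with e | e <;> rw [e] <;> decide +kernel
  have e := s_conj (c := d⁻¹) this
  rwa [← show d * c * d⁻¹ = K00.rep (lab c) from hd, inv_inv, ← mul_assoc, ← mul_assoc,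
    inv_mul_cancel, one_mul, inv_mul_cancel_right] at e

/-- The check of a relator of the point stabiliser. -/
def chkV (w : List ℕ) : Bool :=
  chkS (fun l v => cl false false l * v) (fun l => [0, 1, 2, 3, 4, 6, 7].elem l) [] w ||
  chkS (fun l v => cl false false l * ac false false l v * (lc2 false false l)⁻¹)
    (fun l => [1, 2, 3, 4, 6, 8].elem l) SU2.gs w

variable {G : Type u} [Group G] {φ : C →* G}

theorem Std.rl_ac {ρ : G} (s : Std φ SR1 (al false) x45 ρ) (l : ℕ) (hl : l ≠ 5) {v : C}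
    (hv : v ∈ R) (c : C) : evF φ false false 1 ρ l * φ v =
      φ (cl false false l * ac false false l v * c⁻¹) * (φ c * rl 1 ρ l) := by
  have : Rl φ (rl 1 ρ l) v (ac false false l v) := by
    unfold rl ac
    split
    · exact absurd rfl hl
    · exact s.act v (R_R1 v hv)
    · exact Rl.refl v
  unfold Rl at this
  rw [evF, map_mul, map_mul, ← this, map_inv]; group

theorem Cfg.chkV (H : Cfg φ) {ρ : G} (s : Std φ SR1 (al false) x45 ρ) {w : List ℕ}
    (hw : chkV w = true) : evL (evF φ false false 1 ρ) w = 1 := by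
  rw [He.chkV, Bool.or_eq_true] at hw
  rcases hw with hw | hw
  · refine mem_bot.mp (chkS_spec (φ := φ) (S := ⊤) (M := ⊥) (fun l hl => ⟨1, one_mem _, fun v _ =>
      ⟨mem_top _, ?_⟩⟩) (by simp) hw).1
    have := List.mem_of_elem_eq_true hl
    simp only [List.mem_cons, List.not_mem_nil, or_false] at this
    rcases this with rfl | rfl | rfl | rfl | rfl | rfl | rfl <;>
      rw [evF, map_mul, mul_one, rl, mul_one] <;> omega
  · have hp : ∀ n, φ (pw [x45, b11 false, b12 false, t1 false] n) ∈ Nr ρ := fun n =>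
      pw_mem (K := (Nr ρ).comap φ) (by
        simp only [List.mem_cons, List.not_mem_nil, or_false]
        rintro _ (rfl | rfl | rfl | rfl)
        · exact s.nr (by decide +kernel)
        all_goals exact s.nr' (by decide +kernel)) n
    have hm : ∀ l, φ (lc2 false false l) * rl 1 ρ l ∈ Nr ρ := fun l => by
      refine mul_mem ?_ ?_
      · unfold lc2
        split
        · exact Nr.of_comm (H.w2 false s)
        all_goals exact hp _
      · unfold rl
        split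
        · exact one_mem _
        · exact Nr.of_comm (Commute.refl _)
        · exact one_mem _
    obtain ⟨h1, h2⟩ := chkS_spec (φ := φ) (ev := evF φ false false 1 ρ) (S := U2) (M := Nr ρ)
      (fun l hl => by
        obtain ⟨k1, k2⟩ := (by decide : ∀ l ∈ [1, 2, 3, 4, 6, 8], l ∈ [1, 2, 3, 4, 5, 6, 8] ∧ l ≠ 5)
          l (List.mem_of_elem_eq_true hl)
        exact ⟨φ (lc2 false false l) * rl 1 ρ l, hm l, fun v hv =>
          ⟨clos2 false false l k1 v hv, s.rl_ac l k2 (U2_R v hv) _⟩⟩)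
      (side2 false).gm hw
    exact H.triv' (side2 false) s h2 h1

theorem Cfg.relV (H : Cfg φ) {ρ : G} (s : Std φ SR1 (al false) x45 ρ) {Rs : List (List ℕ)}
    (hw : (Rs.map (subst sgV)).all He.chkV = true) :
    Rels (evS (evF φ false false 1 ρ) sgV) Rs := fun r hr => by
  rw [evL_subst]
  exact H.chkV s (List.all_eq_true.mp hw _ (List.mem_map_of_mem hr))

theorem Cfg.goodV (H : Cfg φ) {ρ : G} (s : Std φ SR1 (al false) x45 ρ) :
    Good (evS (evF φ false false 1 ρ) sgV) 148080050112590643456 :=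
  good_of_rels (m := 9) rfl (fun l hl => by
    unfold evS
    rw [List.getD_eq_default _ _ hl, evL_nil]) (by norm_num) (H.relV s (by decide +kernel))

theorem evS_V {ev : ℕ → G} : ∀ l ∈ [1, 2, 3, 4, 6, 7, 8], evS ev sgV l = ev l := by
  simp only [List.mem_cons, List.not_mem_nil, or_false]
  rintro _ (rfl | rfl | rfl | rfl | rfl | rfl | rfl) <;> exact evL_singleton _ _

theorem evF_C {e e' : Bool} {ρ1 ρ2 : G} : ∀ l ∈ [1, 2, 3, 4, 6, 7],
    evF φ e e' ρ1 ρ2 l = φ (cl e e' l) := by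
  simp only [List.mem_cons, List.not_mem_nil, or_false]
  rintro _ (rfl | rfl | rfl | rfl | rfl | rfl) <;> exact mul_one _

theorem Cfg.rel78 (H : Cfg φ) {ρ : G} (s : Std φ SR1 (al false) x45 ρ) :
    evL (evF φ false false 1 ρ) [7, 8, 7, 8, 7, 8, 7, 8] = 1 := by
  set ev := evF φ false false 1 ρ with hev
  obtain ⟨-, h1⟩ := chkS_spec (φ := φ) (ev := ev) (S := U1) (M := ⊤)
    (f := fun l v => cl false false l * ac false false l v * (cl false false l)⁻¹)
    (ok := fun l => [7, 8].elem l) (fun l hl => by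
      obtain ⟨k1, k2⟩ := (by decide +kernel : ∀ l ∈ [7, 8], l ≠ 5 ∧ ∀ v ∈ U1,
        cl false false l * ac false false l v * (cl false false l)⁻¹ ∈ U1) l
        (List.mem_of_elem_eq_true hl)
      exact ⟨_, mem_top _, fun v hv => ⟨k2 v hv, s.rl_ac l k1 (U1_R v hv) _⟩⟩)
    (side1 false false).gm (w := [7, 8, 7, 8, 7, 8, 7, 8]) (by decide +kernel)
  obtain ⟨r, er, hr⟩ := H.cen_of (side1 false false).zm h1
  have rU := (side1 false false).cen r hr
  have q : ∀ w, He.chkV w = true → evL ev w = 1 := fun w hw => H.chkV s hw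
  have s1 := q [1, 1] (by decide +kernel)
  have s7 := q [7, 7] (by decide +kernel)
  have s8 := q [8, 8] (by decide +kernel)
  have c17 := q [1, 7, 1, 7] (by decide +kernel)
  have c18 := q [1, 8, 1, 8] (by decide +kernel)
  simp only [evL_cons, evL_nil, mul_one] at s1 s7 s8 c17 c18
  have e4 : φ r = (ev 7 * ev 8) ^ 4 := by
    rw [er]
    simp only [evL_cons, evL_nil, mul_one, pow_succ, pow_zero, one_mul, mul_assoc]
  have cm : ∀ {a b : G}, a * a = 1 → b * b = 1 → a * (b * (a * b)) = 1 → Commute a b :=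
    fun {a b} ha hb h => by
      show _ * _ = _ * _
      rw [← mul_assoc] at h
      rw [← inv_eq_of_mul_eq_one_left h, mul_inv_rev, inv_eq_of_mul_eq_one_left ha,
        inv_eq_of_mul_eq_one_left hb]
  have ri : (φ r)⁻¹ = φ r := by rw [← map_inv, inv_eq_of_mul_eq_one_left (U1_sq r rU)]
  have mz : φ r ∈ zpowers (ev 7 * ev 8) := e4 ▸ pow_mem (mem_zpowers _) 4
  have k1 : ev 1 * φ r = φ r * ev 1 := by
    rw [e4]; exact ((cm s1 s7 c17).mul_right (cm s1 s8 c18)).pow_right 4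
  have k7 := inverts_of_mem_zpowers (inverts_mul_left s7 s8) mz
  have k8 := inverts_of_mem_zpowers (inverts_mul_right s7 s8) mz
  rw [ri] at k7 k8
  rw [hev, evF_C 1 (by decide), ← map_mul, ← map_mul] at k1
  rw [hev, evF_C 7 (by decide)] at k7
  have k8' : Rl φ (φ x45 * ρ) r r := k8
  rcases (by decide +kernel : ∀ r ∈ U1, cl false false 1 * r = r * cl false false 1 →
      cl false false 7 * r * (cl false false 7)⁻¹ = r → x45 * al false r * x45⁻¹ = r →
      r = 1 ∨ r = x13) r rU (H.inj k1) (H.of_eq k7)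
      (H.uniq ((Rl.of x45 _).comp (s.act r (R_R1 r (U1_R r rU)))) k8') with rfl | rfl
  · rw [← er, map_one]
  · exfalso
    have hm := HeV.C4.mem (H.goodV s) (show Rels _ ([7, 8, 7, 8, 7, 8, 7, 8, 1, 2, 1, 2] ::
        HeV.C4.R.tail) from List.forall_mem_cons.mpr ⟨by
      rw [evL_subst]
      show evL ev ([7, 8, 7, 8, 7, 8, 7, 8] ++ [1, 2, 1, 2]) = 1
      rw [evL_append, ← er, evL_congr (ev' := fun l => φ (cl false false l))
        (fun x hx => evF_C x (by revert x; decide)), ← map_evL, ← map_mul, ← map_one φ]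
      exact congrArg φ (by decide +kernel), H.relV s (by decide +kernel)⟩) [1] (by decide)
    let K : Subgroup C := subOfMul {c | c.q.val % 8 = 0 ∧ c.q.val < 64} (by decide +kernel)
      fun a ha b hb => by
        rw [CM.mul_def]
        exact (by decide +kernel : ∀ p : Q, p.val % 8 = 0 ∧ p.val < 64 → ∀ q : Q,
          q.val % 8 = 0 ∧ q.val < 64 → ∀ s : L, (p * A0.ap s q).val % 8 = 0 ∧
            (p * A0.ap s q).val < 64) _ ha _ hb _
    obtain ⟨c, hc, e⟩ := gen_le (K := K.map φ) (fun w hw => evL_mem_of_letters fun x hx => by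
      obtain ⟨k1, k2, k3⟩ := (by decide +kernel : ∀ w ∈ HeV.C4.Sub, ∀ x ∈ w,
        x ∈ [1, 2, 3, 4, 6, 7, 8] ∧ x ∈ [1, 2, 3, 4, 6, 7] ∧ (cl false false x).q.val % 8 = 0 ∧
          (cl false false x).q.val < 64) w hw x hx
      rw [evS_V x k1, evF_C x k2]
      exact mem_map_of_mem φ k3) hm
    rw [evL_singleton, evS_V 1 (by decide), evF_C 1 (by decide)] at e
    rw [H.inj e] at hc
    exact absurd (show (cl false false 1).q.val % 8 = 0 from hc.1) (by decide +kernel)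

variable [Finite G]

theorem Cfg.lab_of (H : Cfg φ) {ρ : G} (s : Std φ SR1 (al false) x45 ρ)
    (h7 : ¬ Col φ (x24 * x13)) (h25 : ¬ IsConj (φ z) (φ x25)) {c : C} :
    IsConj (φ z) (φ c) ↔ A1s c := by
  have mt : ∀ c, φ c ∈ (⊤ : Subgroup G) := fun _ => mem_top _
  have j12 := (mc_step mt s (mem_top _) z (j := 1) (k := 2) (by decide +kernel)).isConj
  have j35 := (mc_step mt s (mem_top _) x25 (j := 3) (k := 5) (by decide +kernel)).isConj
  rw [show K00.rep 1 = z from K00.r1] at j12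
  have sq : ∀ {c}, IsConj (φ z) (φ c) → c * c = 1 := fun h => H.inj (by
    rw [map_mul, map_one, sq_of_isConj (by rw [← map_mul, CM.z_z, map_one]) h])
  have pre : ∀ {c}, IsConj (φ z) (φ c) → lab c = 1 ∨ lab c = 2 ∨ lab c = 8 := fun {c} h => by
    have h1 := h.trans (conj_rep (sq h))
    have hl : lab c < 9 := (K00.conj (sq h)).1
    generalize lab c = j at *
    interval_cases j
    · rw [show K00.rep 0 = 1 from K00.r0, map_one, isConj_one_left] at h1
      exact absurd (H.inj (h1.trans (map_one φ).symm)) CM.z_ne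
    · simp
    · simp
    · exact absurd ((by decide +kernel : K00.rep 3 = x25) ▸ h1) h25
    · exact absurd (Or.inl h1) (H.not_col (by decide +kernel) (by decide +kernel))
    · exact absurd ((by decide +kernel : K00.rep 3 = x25) ▸ h1.trans j35.symm) h25
    · exact absurd (Or.inl h1) (H.not_col (by decide +kernel) (by decide +kernel))
    · exact absurd (Or.inl ((by decide +kernel : K00.rep 7 = x24 * x13) ▸ h1)) h7
    · simp
  have pos : ∀ {c}, c * c = 1 → lab c = 1 ∨ lab c = 2 → IsConj (φ z) (φ c) := fun {c} h h' => by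
    have h1 := (conj_rep (φ := φ) h).symm
    rcases h' with e | e <;> rw [e] at h1
    · exact (show K00.rep 1 = z from K00.r1) ▸ h1
    · exact j12.trans h1
  refine ⟨fun h => lab2_s (sq h) ?_, fun h => pos h.2.1 h.2.2⟩
  simp only [← or_assoc] at pre
  refine (pre h).resolve_right fun h8 => ?_
  have : Fact (Nat.Prime 2) := ⟨Nat.prime_two⟩
  have hb : IsConj (φ z) (φ (K00.rep 8)) := h8 ▸ h.trans (conj_rep (sq h))
  have pos' : ∀ {c}, c * c = 1 → (lab c = 1 ∨ lab c = 2) ∨ lab c = 8 → IsConj (φ z) (φ c) := by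
    rintro c h (h' | h')
    · exact pos h h'
    · exact hb.trans (h' ▸ (conj_rep h).symm)
  obtain ⟨g, hg⟩ := isConj_iff.mp hb
  have bU : K00.rep 8 ∈ U2 := by decide +kernel
  obtain ⟨n, hn, e⟩ := ctrl_gen (M := Nm φ SU2) H.syl (V := U2.map φ)
    (map_mono fun u hu => R_T u (U2_R u hu)) (fun g hg => H.wc2 fun u hu => by
      obtain ⟨t, ht, e⟩ := cj_le_iff_forall.mp hg _ (mem_map_of_mem φ hu)
      exact ⟨t, ht, Eq.symm e⟩)
    (A := {φ z}) (g := g) (by
      rintro _ ⟨r, hr, rfl⟩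
      exact mem_centralizer_singleton_iff.mpr (by rw [← map_mul, ← CM.z_comm, map_mul])) (by
      rintro _ rfl _ ⟨r, hr, rfl⟩
      rw [hg, ← map_mul, vs2.comm bU hr, map_mul])
  have e1 : Rl φ n z (K00.rep 8) := (e _ rfl).trans hg
  obtain ⟨d, hd, d1, d2, d3⟩ := (by decide +kernel : ∃ d ∈ U2,
    ((lab d = 1 ∨ lab d = 2) ∨ lab d = 8) ∧ d ≠ K00.rep 8 ∧
      ¬ ((lab (d * K00.rep 8) = 1 ∨ lab (d * K00.rep 8) = 2) ∨ lab (d * K00.rep 8) = 8))
  obtain ⟨d', hd', e2⟩ := inv_mem hn d hd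
  have e3 := e2.symm
  rw [inv_inv] at e3
  rcases (by decide +kernel : ∀ d ∈ U2, ((lab d = 1 ∨ lab d = 2) ∨ lab d = 8) → d = z ∨
      ((lab (d * z) = 1 ∨ lab (d * z) = 2) ∨ lab (d * z) = 8)) d' hd'
      (pre ((pos' (U2_sq d hd) d1).trans e2.isConj)) with rfl | k
  · exact d2 (H.uniq e3 e1)
  · exact d3 (pre ((pos' (U2_sq _ (mul_mem hd' (by decide +kernel))) k).trans (e3.mul e1).isConj))

omit [Finite G] in
theorem Cfg.ti (H : Cfg φ) (key : ∀ {c}, IsConj (φ z) (φ c) ↔ A1s c) {x y w : G}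
    (hx : IsConj (φ z) x) (hy : IsConj (φ z) y) (hw : IsConj (φ z) w) (h1 : x * y = y * x)
    (h2 : w * y = y * w) : x * w = w * x ∧ (x * w = 1 ∨ IsConj (φ z) (x * w)) := by
  obtain ⟨g, rfl⟩ := isConj_iff.mp hy
  have k : ∀ {x}, IsConj (φ z) x → x * (g * φ z * g⁻¹) = g * φ z * g⁻¹ * x →
      ∃ a, A1s a ∧ x = g * φ a * g⁻¹ := fun {x} hx h => by
    obtain ⟨a, ha⟩ := H.cen (g⁻¹ * x * g) (by
      calc _ = g⁻¹ * (x * (g * φ z * g⁻¹)) * g := by group
        _ = _ := by rw [h]; group)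
    exact ⟨a, key.mp (hx.trans (isConj_iff.mpr ⟨g⁻¹, by rw [ha, inv_inv]⟩)), by rw [ha]; group⟩
  obtain ⟨a, ha, rfl⟩ := k hx h1
  obtain ⟨b, hb, rfl⟩ := k hw h2
  obtain ⟨m1, m2⟩ := a1s_mul a ha b hb
  rw [conj_mul, conj_mul, ← map_mul, ← map_mul, ← m1]
  refine ⟨rfl, m2.imp (fun e => by rw [e]; simp) fun e => ?_⟩
  exact (key.mpr e).trans (isConj_iff.mpr ⟨g, rfl⟩)

theorem Cfg.class_comm (H : Cfg φ) (key : ∀ {c}, IsConj (φ z) (φ c) ↔ A1s c) {d : G}
    (hd : IsConj (φ z) d) : d * φ z = φ z * d := by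
  have zz : φ z * φ z = 1 := by rw [← map_mul, CM.z_z, map_one]
  have sq : ∀ {d}, IsConj (φ z) d → d * d = 1 := fun h => sq_of_isConj zz h
  have zc : ∀ c, φ c * φ z = φ z * φ c := fun c => by rw [← map_mul, ← map_mul, CM.z_comm]
  have up : ∀ {u d}, IsConj (φ z) d → IsConj (φ z) (u * d) → u ≠ 1 → u * d = d * u →
      IsConj (φ z) u := fun {u d} h1 h2 u1 h => by
    have := (H.ti key h2 h1 h1 (by rw [mul_assoc, ← mul_assoc d, ← h, mul_assoc]) rfl).2
    rw [mul_assoc, sq h1, mul_one] at this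
    exact this.resolve_left u1
  have od : ∀ {a d}, IsConj (φ z) a → IsConj (φ z) d → a * d ≠ d * a → Odd (orderOf (a * d)) :=
    fun {a d} ha hd h => by
    by_contra hc
    obtain ⟨u, hu, -, u1, c1, c2⟩ := exists_central_inv (sq ha) (sq hd) hc
    have : IsConj (φ z) (u * a) := by
      rcases central_inv_conj (sq ha) (sq hd) hu with k | k
      exacts [ha.trans k.1, hd.trans k.1]
    exact h (H.ti key ha (up ha this u1 c1) hd c1.symm c2.symm).1
  have h14 : IsConj (φ z) (φ x14) := key.mpr (by decide +kernel)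
  have K : ∀ {w d}, Gd w → IsConj (φ z) d → d * φ w = φ w * d → d * φ z = φ z * d := by
    intro w d hw hd hc
    by_contra hn
    have cw : ∀ {a}, a * φ w = φ w * a → ∀ g ∈ zpowers (a * d), Commute g (φ w) := by
      rintro a ha _ ⟨k, rfl⟩
      exact (Commute.mul_left ha hc).zpow_left k
    obtain ⟨g1, m1, e1⟩ := exists_conj_of_odd_orderOf_mul zz (sq hd)
      (od (IsConj.refl _) hd (Ne.symm hn))
    obtain ⟨g2, m2, e2⟩ := exists_conj_of_odd_orderOf_mul (sq h14) (sq hd)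
      (od h14 hd fun h => hn (H.ti key hd h14 (IsConj.refl _) h.symm (zc _).symm).1)
    have c1 := cw (zc w).symm g1 m1
    have c2 := cw (by rw [← map_mul, ← map_mul, hw.1]) g2 m2
    have r1 : Rl φ (g2⁻¹ * g1) z x14 := by
      unfold Rl
      calc _ = g2⁻¹ * (g1 * φ z * g1⁻¹) * g2 := by group
        _ = _ := by rw [e1, ← e2]; group
    have r2 : Rl φ (g2⁻¹ * g1) w w := Rl.of_comm (c2.inv_left.mul_left c1)
    generalize g2⁻¹ * g1 = g at r1 r2
    have h12 : IsConj (φ z) (g * φ x12 * g⁻¹) :=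
      (key.mpr (by decide +kernel)).trans (isConj_iff.mpr ⟨g, rfl⟩)
    obtain ⟨a, ha⟩ := H.cen _ (H.ti key h12 h14 (IsConj.refl _) (by
      rw [← show g * φ z * g⁻¹ = φ x14 from r1, conj_mul, conj_mul, zc]) (zc _).symm).1
    have r3 : Rl φ g x12 a := ha.symm
    have := ((r3.mul r2).mul r3.inv).mul r2.inv
    rw [hw.2.1] at this
    exact a1s_all (P := fun a => a * w * a⁻¹ * w⁻¹ ≠ x14) hw.2.2 a (key.mp (ha ▸ h12))
      (H.uniq this r1)
  have tt : φ x25 * φ x25 = 1 := by rw [← map_mul, (by decide +kernel : x25 * x25 = 1), map_one]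
  have g0 : Gd x25 := by decide +kernel
  obtain ⟨u, hu, -, u1, c1, c2⟩ := exists_central_inv (sq hd) tt fun h => by
    obtain ⟨k, -, e⟩ := exists_conj_of_odd_orderOf_mul (sq hd) tt h
    exact absurd (key.mp (hd.trans (isConj_iff.mpr ⟨k, e⟩))) (by decide +kernel)
  rcases central_inv_conj (sq hd) tt hu with k | k
  · have hu' := up hd (hd.trans k.1) u1 c1
    exact (H.ti key hd hu' (IsConj.refl _) c1.symm (K g0 hu' c2).symm).1
  · have h1 := hd.trans k.2
    have h2 : u * φ x25 * φ x25 = φ x25 * (u * φ x25) := by rw [← mul_assoc, ← c2]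
    obtain ⟨a, ha⟩ := H.cen _ (K g0 h1 h2)
    rw [← ha] at h1 h2
    refine K (gd_of a (key.mp h1) (H.inj (by rw [map_mul, map_mul, h2]))) hd ?_
    rw [map_mul, ha, mul_assoc u, tt, mul_one, c1]

theorem Cfg.caseB (H : Cfg φ) {e e' : Bool} (h7 : e = true ↔ Col φ (x24 * x13))
    (h8 : e' = true ↔ Col φ (x24 * x35)) (h14 : IsConj (φ z) (φ x14))
    (h25 : ¬ IsConj (φ z) (φ x25)) :
    Nonempty (G ≃* MulAction.stabilizer S5 (Pi.single 0 1 : Fin 5 → ZMod 2)) := by
  obtain ⟨ρ, s⟩ := H.std2 h7 h8 h14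
  have mt : ∀ c, φ c ∈ (⊤ : Subgroup G) := fun _ => mem_top _
  cases e
  swap
  · have j12 := mc_step mt s (mem_top _) z (j := 1) (k := 2) (by decide +kernel)
    have j27 := mc_step mt s (mem_top _) (x12 * x14 * z) (j := 2) (k := 7) (by decide +kernel)
    have j75 := mc_step mt s (mem_top _) (x25 * x13 * x14 * z * x23) (j := 7) (k := 5)
      (by decide +kernel)
    have j35 := mc_step mt s (mem_top _) x25 (j := 3) (k := 5) (by decide +kernel)
    have := (((j12.trans j27).trans j75).trans j35.symm).isConj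
    rw [show K00.rep 1 = z from K00.r1, (by decide +kernel : K00.rep 3 = x25)] at this
    exact absurd this h25
  have key : ∀ {c}, IsConj (φ z) (φ c) ↔ A1s c :=
    H.lab_of s (fun h => absurd (h7.mpr h) (by decide)) h25
  have hG : Nat.card G = 322560 := by
    rw [← card_class_mul (φ z), H.card_cen, Nat.card_congr (Equiv.subtypeEquivRight
      (q := fun d => IsConj (φ z) d ∧ d * φ z = φ z * d)
      fun d => ⟨fun h => ⟨h, H.class_comm key h⟩, fun h => h.1⟩), H.card_fix,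
      Nat.card_congr (Equiv.subtypeEquivRight fun _ => key),
      CM.card_sq _ 1 fun _ h => congrArg CM.s h.2.1]
    decide +kernel
  obtain ⟨χ, hχ⟩ := HeV.lift (H.goodV s) (show Rels _ ([7, 8, 7, 8, 7, 8, 7, 8] :: HeV.R.tail) from
    List.forall_mem_cons.mpr ⟨by rw [evL_subst]; exact H.rel78 s, H.relV s (by decide +kernel)⟩)
  have hM : ∀ c, φ c ∈ χ.range := fun c => by
    have := gen_C false false (K := χ.range.comap φ) fun l hl => ⟨HeV.ev l, by
      rw [hχ, evS_V l (by revert l; decide), evF_C l hl]⟩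
    exact (this ▸ mem_top c : c ∈ χ.range.comap φ)
  have hρ : ρ ∈ χ.range := (mul_mem_cancel_left (hM x45)).mp ⟨HeV.ev 8, by
    rw [hχ, evS_V 8 (by decide)]; rfl⟩
  have j12 := mc_step hM s hρ z (j := 1) (k := 2) (by decide +kernel)
  have sur : Function.Surjective χ := fun g => by
    have h1 : IsConj (φ z) (g * φ z * g⁻¹) := isConj_iff.mpr ⟨g, rfl⟩
    obtain ⟨a, ha⟩ := H.cen _ (H.class_comm key h1)
    have h2 := key.mp (ha ▸ h1)
    have h3 := mc_rep hM h2.2.1
    obtain ⟨m, hm, e⟩ : MC φ χ.range a (K00.rep 1) := by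
      rcases h2.2.2 with e | e <;> rw [e] at h3
      exacts [h3, h3.trans j12.symm]
    rw [show K00.rep 1 = z from K00.r1] at e
    obtain ⟨c, hc⟩ := H.cen _ (e.comp (show Rl φ g z a from ha.symm)).comm
    exact (mul_mem_cancel_left hm).mp (hc ▸ hM c)
  obtain ⟨h1, ⟨π⟩⟩ := iso_V
  have : Finite HeV.Grp := Nat.finite_of_card_ne_zero (by rw [h1]; norm_num)
  exact ⟨(MulEquiv.ofBijective χ (sur.bijective_of_nat_card_le (by rw [h1, hG]))).symm.trans π⟩

theorem chk_w : HeW.R.all (chkW false true) = true := by decide +kernel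

theorem Full.top {e e' : Bool} {ρ1 ρ2 : G} (h : Full φ e e' ρ1 ρ2) (H : Cfg φ)
    (h7 : e = true ↔ Col φ (x24 * x13)) (h8 : e' = true ↔ Col φ (x24 * x35)) (hS : SEC.{u})
    {P : Type*} [Group P] {ψ : P →* G} (hi : Function.Injective ψ)
    (hM : ∀ l, evF φ e e' ρ1 ρ2 l ∈ ψ.range) : Nonempty (G ≃* P) := by
  have h1 : ∀ c, φ c ∈ ψ.range := fun c => by
    have := gen_C e e' (K := ψ.range.comap φ) fun l hl => by
      have := hM l
      rwa [evF_C l hl] at this
    exact (this ▸ mem_top c : c ∈ ψ.range.comap φ)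
  have := (h.ov H h7 h8 h1 ((mul_mem_cancel_left (h1 _)).mp (hM 5))
    ((mul_mem_cancel_left (h1 _)).mp (hM 8))).top hS
  exact ⟨(MulEquiv.ofBijective ψ ⟨hi, MonoidHom.range_eq_top.mp this⟩).symm⟩

theorem Cfg.caseW (H : Cfg φ) (hS : SEC.{u}) (h7 : false = true ↔ Col φ (x24 * x13))
    (h8 : true = true ↔ Col φ (x24 * x35)) (h14 : IsConj (φ z) (φ x14))
    (h25 : IsConj (φ z) (φ x25)) : Nonempty (G ≃* M24) := by
  obtain ⟨ρ1, ρ2, h⟩ := H.full h7 h8 h14 h25
  have := HeW.simple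
  obtain ⟨ψ, hψ⟩ := HeW.lift (H.good h) (H.rels h chk_w)
  obtain ⟨π⟩ := h.top H h7 h8 hS (injective_of_simple ψ (by
    rw [hψ 4, evF_four, ← map_one φ]
    exact fun e => absurd (H.inj e) (by decide +kernel))) fun l => ⟨_, hψ l⟩
  obtain ⟨π'⟩ := iso_W
  exact ⟨π.trans π'⟩

theorem Cfg.main (H : Cfg φ) (hS : SEC.{u}) (h14 : IsConj (φ z) (φ x14)) :
    (∃ v : Fin 5 → ZMod 2, v ≠ 0 ∧ Nonempty (G ≃* MulAction.stabilizer S5 v)) ∨
      Nonempty (G ≃* S5) ∨ Nonempty (G ≃* M24) ∨ Spor.IsoHe G := by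
  classical
  have h7 : decide (Col φ (x24 * x13)) = true ↔ _ := decide_eq_true_iff
  have h8 : decide (Col φ (x24 * x35)) = true ↔ _ := decide_eq_true_iff
  generalize decide (Col φ (x24 * x13)) = e7, decide (Col φ (x24 * x35)) = e8 at h7 h8
  by_cases h25 : IsConj (φ z) (φ x25)
  swap
  · exact Or.inl ⟨_, by decide +kernel, H.caseB h7 h8 h14 h25⟩
  right
  cases e7 <;> cases e8
  · obtain ⟨ρ1, ρ2, h⟩ := H.full h7 h8 h14 h25
    obtain ⟨ψ, h1, h2⟩ := H.hom_l5 h
    obtain ⟨π⟩ := h.top H h7 h8 hS h1 fun l => ⟨_, h2 l⟩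
    obtain ⟨χ, hb, -⟩ := hom_S5
    exact Or.inl ⟨π.trans (MulEquiv.ofBijective χ hb)⟩
  · exact Or.inr (Or.inl (H.caseW hS h7 h8 h14 h25))
  · refine Or.inr (Or.inl (H.dual.caseW hS
      (by rw [col_du, (by decide +kernel : du (x24 * x13) = x24 * x35)]; exact h8)
      (by rw [col_du, (by decide +kernel : du (x24 * x35) = x24 * x13)]; exact h7) ?_ ?_))
    · simp only [MonoidHom.comp_apply, du_z, (by decide +kernel : du x14 = x25)]; exact h25
    · simp only [MonoidHom.comp_apply, du_z, (by decide +kernel : du x25 = x14)]; exact h14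
  · obtain ⟨ρ1, ρ2, h⟩ := H.full h7 h8 h14 h25
    obtain ⟨ψ, h1, h2⟩ := H.hom_he h
    exact Or.inr (Or.inr (h.top H h7 h8 hS h1 fun l => ⟨_, h2 l⟩))

theorem tetra (hS : SEC.{u}) {s : S5}
    (hs : (s : Matrix (Fin 5) (Fin 5) (ZMod 2)) = Matrix.transvection 0 1 1) {t : G}
    (ht : orderOf t = 2) (e : centralizer {t} ≃* centralizer {s}) {g : G}
    (hq : g * t * g⁻¹ ∈ centralizer {t})
    (hp : (⟨g * t * g⁻¹, hq⟩ : centralizer {t}) ∈ pCore 2 (centralizer {t}))
    (hne : g * t * g⁻¹ ≠ t) :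
    (∃ v : Fin 5 → ZMod 2, v ≠ 0 ∧ Nonempty (G ≃* MulAction.stabilizer S5 v)) ∨
      Nonempty (G ≃* S5) ∨ Nonempty (G ≃* M24) ∨ Spor.IsoHe G := by
  obtain ⟨φ, H, rfl⟩ := exists_cfg' hs ht e
  obtain ⟨c, hc⟩ := H.cen _ (mem_centralizer_singleton_iff.mp hq)
  have h : IsConj (φ z) (φ c) := isConj_iff.mpr ⟨g, hc.symm⟩
  have sq : c * c = 1 := H.inj (by
    rw [map_mul, map_one, sq_of_isConj (by rw [← map_mul, CM.z_z, map_one]) h])
  let κ : C →* centralizer {φ z} := φ.codRestrict _ fun c => mem_centralizer_singleton_iff.mpr (by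
    rw [← map_mul, ← map_mul, CM.z_comm])
  have hp' : κ c ∈ pCore 2 (centralizer {φ z}) := by
    rwa [show κ c = ⟨_, hq⟩ from Subtype.ext hc]
  have hs1 : c.s = 1 := by
    by_contra hn
    obtain ⟨l, h1, h2⟩ := (by decide +kernel : ∀ x : L, x * x = 1 → x ≠ 1 → ∃ l : L,
      x * (l * x * l⁻¹) * (x * (l * x * l⁻¹)) * (x * (l * x * l⁻¹)) = 1 ∧ x * (l * x * l⁻¹) ≠ 1)
      c.s (congrArg CM.s sq) hn
    obtain ⟨k, hk⟩ := H7.isPGroup_pCore 2 _ ⟨_, mul_mem hp'
      ((pCore_normal 2 _).conj_mem _ hp' (κ ⟨1, l⟩))⟩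
    have h3 : (c * (⟨1, l⟩ * c * (⟨1, l⟩ : C)⁻¹)) ^ 2 ^ k = 1 := H.inj (by
      rw [map_one, map_pow, map_mul, map_mul, map_mul, map_inv]
      exact congrArg (fun x => x.1.1) hk)
    have h4 := congrArg prS h3
    rw [map_one, map_pow, map_mul, map_mul, map_mul, map_inv] at h4
    rw [← pow_three'] at h1
    refine h2 (orderOf_eq_one_iff.mp (Nat.eq_one_of_dvd_coprimes
      ((by norm_num : Nat.Coprime 2 3).pow_left k) (orderOf_dvd_of_pow_eq_one h4)
      (orderOf_dvd_of_pow_eq_one h1)))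
  have h1 := h.trans (conj_rep sq)
  obtain ⟨q, s⟩ := c
  obtain rfl : s = 1 := hs1
  rcases (by decide +kernel : ∀ q : Q, (⟨q, 1⟩ : C) * ⟨q, 1⟩ = 1 → (⟨q, 1⟩ : C) = 1 ∨
    (⟨q, 1⟩ : C) = z ∨ K00.rep (lab ⟨q, 1⟩) = x14 ∨ K00.rep (lab ⟨q, 1⟩) = x25 ∨
      lab ⟨q, 1⟩ = 4) q sq with k | k | k | k | k
  · rw [k, map_one, isConj_one_left] at h
    exact absurd (H.inj (h.trans (map_one φ).symm)) CM.z_ne
  · exact absurd (by rw [← hc, k]) hne
  · exact H.main hS (k ▸ h1)
  · refine H.dual.main hS ?_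
    simp only [MonoidHom.comp_apply, du_z, (by decide +kernel : du x14 = x25)]
    exact k ▸ h1
  · rw [k] at h1
    exact absurd (Or.inl h1) (H.not_col (by decide +kernel) (by decide +kernel))

end Cfsg.H5.He
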