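import Cfsg.Agent.H5.HeE
import Cfsg.Agent.H5.ZStar
import Cfsg.Agent.H9.Generation

/-!
General lemmas and finite facts for the generation argument.
-/

set_option autoImplicit false
set_option synthInstance.maxSize 4096
set_option maxRecDepth 100000

namespace Cfsg.H5.He

open Subgroup H8 L0 H6

local notation "z" => (CM.z : C)

universe u

/-- A consequence of Bender's theorem on strongly embedded subgroups. -/
def SEC : Prop := ∀ (G : Type u) [Group G] [Finite G] (X : Subgroup G), X ≠ ⊤ →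
  (∀ g, ∀ x ∈ X, x * x = 1 → x ≠ 1 → g * x * g⁻¹ ∈ X → g ∈ X) →
  ∀ u ∈ X, ∀ v ∈ X, u * u = 1 → v * v = 1 → (u * v) ^ 4 = 1 → u * v = v * u

theorem gen4 {G : Type*} [Group G] [Finite G] {K M : Subgroup G} [K.Normal]
    (hK : (Nat.card K).Coprime 2) {a b : G} (ha : a * a = 1) (hb : b * b = 1) (hab : a * b = b * a)
    (a1 : a ≠ 1) (b1 : b ≠ 1) (ab : a ≠ b)
    (h : ∀ d, d = a ∨ d = b ∨ d = a * b → ∀ g, g * d = d * g → g ∈ M) : K ≤ M := by
  have : Fact (Nat.Prime 2) := ⟨Nat.prime_two⟩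
  have e1 : a * (a * b) = b := by rw [← mul_assoc, ha, one_mul]
  have e2 : b * (a * b) = a := by rw [hab, ← mul_assoc, hb, one_mul]
  have e3 : a * b * a = b := by rw [hab, mul_assoc, ha, mul_one]
  have e4 : a * b * b = a := by rw [mul_assoc, hb, mul_one]
  have e5 : a * b * (a * b) = 1 := by rw [← mul_assoc, e3, hb]
  let A : Subgroup G := subOfMul {d | d = 1 ∨ d = a ∨ d = b ∨ d = a * b} (Or.inl rfl) (by
    rintro _ (rfl | rfl | rfl | rfl) _ (rfl | h | h | h) <;> (try rw [h]) <;>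
      simp [ha, hb, e1, e2, e3, e4, e5, ← hab])
  have sq : ∀ d ∈ A, d * d = 1 := by
    rintro _ (rfl | rfl | rfl | rfl)
    exacts [mul_one _, ha, hb, e5]
  have : IsMulCommutative A := ⟨⟨fun x y => Subtype.ext (by
    have h1 := sq _ (mul_mem x.2 y.2)
    show x.1 * y.1 = y.1 * x.1
    rw [← inv_eq_of_mul_eq_one_left h1, mul_inv_rev, inv_eq_of_mul_eq_one_left (sq _ x.2),
      inv_eq_of_mul_eq_one_left (sq _ y.2)])⟩⟩
  obtain ⟨n, hn⟩ := IsPGroup.iff_card.mp ((isPGroup_iff_forall (p := 2) (H := A)).mpr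
    fun x hx => ⟨1, by rw [pow_one, pow_two, sq x hx]⟩)
  refine H9.generation_noncyclic (A := A) le_normalizer_of_normal
    (by rw [hn]; exact (hK.symm).pow_left n) (fun hc => ?_) fun d hd d1 g hg =>
      h d (hd.resolve_left d1) g (mem_centralizer_singleton_iff.mp hg.2)
  obtain ⟨g, hg⟩ := hc.exists_generator
  have k : ∀ x : A, x ≠ 1 → x = g := fun x x1 => by
    obtain ⟨k, rfl⟩ := hg x
    have g2 : g ^ (2 : ℤ) = 1 := by rw [zpow_two]; exact Subtype.ext (sq _ g.2)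
    rcases Int.even_or_odd' k with ⟨j, rfl | rfl⟩
    · exact absurd (by simp only [zpow_mul, g2, one_zpow]) x1
    · simp only [zpow_add, zpow_mul, g2, one_zpow, one_mul, zpow_one]
  exact ab (congrArg Subtype.val ((k ⟨a, Or.inr (Or.inl rfl)⟩ fun e => a1 (congrArg Subtype.val e)).trans
    (k ⟨b, Or.inr (Or.inr (Or.inl rfl))⟩ fun e => b1 (congrArg Subtype.val e)).symm))

theorem exists_central_inv {G : Type*} [Group G] [Finite G] {a b : G} (ha : a * a = 1)
    (hb : b * b = 1) (h : ¬ Odd (orderOf (a * b))) :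
    ∃ u ∈ zpowers (a * b), u * u = 1 ∧ u ≠ 1 ∧ u * a = a * u ∧ u * b = b * u := by
  have : Fact (Nat.Prime 2) := ⟨Nat.prime_two⟩
  obtain ⟨j, hj, e⟩ := exists_orderOf_eq_of_dvd_card (H := zpowers (a * b)) (p := 2)
    (by rw [Nat.card_zpowers]; exact (Nat.not_odd_iff_even.mp h).two_dvd)
  have j2 : j * j = 1 := by rw [← pow_two, ← e, pow_orderOf_eq_one]
  have ji : j⁻¹ = j := inv_eq_of_mul_eq_one_right j2
  have h1 := inverts_of_mem_zpowers (inverts_mul_left ha hb) hj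
  have h2 := inverts_of_mem_zpowers (inverts_mul_right ha hb) hj
  rw [ji, mul_inv_eq_iff_eq_mul] at h1 h2
  exact ⟨j, hj, j2, by rintro rfl; simp at e, h1.symm, h2.symm⟩

/-- An involution of rank two. -/
def sv : C := x14 * x25
/-- Another one. -/
def sw : C := x14 * z * x24

/-- The four-group of involutions of rank two. -/
def V4 : Subgroup C := subOfMul {c | c = 1 ∨ c = sv ∨ c = sw ∨ c = sw * sv} (Or.inl rfl) (by
  rintro _ (rfl | rfl | rfl | rfl) _ (rfl | rfl | rfl | rfl) <;>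
    (show _ = _ ∨ _ = _ ∨ _ = _ ∨ _ = _; decide +kernel))

instance instDecV (c : C) : Decidable (c ∈ V4) :=
  inferInstanceAs (Decidable (c = 1 ∨ c = sv ∨ c = sw ∨ c = sw * sv))

instance (priority := 20000) instDecExistsList (l : List C) (p : C → Prop) [DecidablePred p] :
    Decidable (∃ c, c ∈ l ∧ p c) := List.decidableBEx p l

theorem cosT : ∀ c ∈ T, c ∈ R ∨ x12 * c ∈ R ∨ x45 * c ∈ R ∨ x12 * x45 * c ∈ R := by decide +kernel

theorem col0_F : ∀ e e' : Bool, ∀ a ∈ F, colf e e' (lab a) = 0 →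
    x12 * a ≠ a * x12 ∧ x45 * a ≠ a * x45 := by decide +kernel

theorem col0_FF : ∀ e e' : Bool, ∀ a ∈ F, colf e e' (lab a) = 0 → x12 * x45 * a = a * (x12 * x45) →
    ∀ b ∈ F, colf e e' (lab b) = 0 → colf e e' (lab (a * b)) = 0 →
    x12 * x45 * b ≠ b * (x12 * x45) := by decide +kernel

theorem R_inv : ∀ r ∈ R, r * r = 1 → r ∈ U1 ∨ r ∈ U2 := by decide +kernel

theorem R_V : ∀ e e' : Bool, ∀ r ∈ R, r * r ∈ V4 → r ∉ V4 → ∃ v ∈ [1, sv, sw, sw * sv],
    r * v * (r * v) = 1 ∧ colf e e' (lab (r * v)) = 1 := by decide +kernel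

theorem S_inv : ∀ c ∈ T, c * c = 1 → c * sv = sv * c → c ∈ U1 ∨ c ∈ U2 ∨ c.s = 1 := by
  decide +kernel

/-- Every coset contains an element of colour one. -/
def PV (S : SubT) (e e' : Bool) (c f : C) : Prop := ∀ u ∈ S.sub,
  (u = 1 ∨ u = c ∨ u = f ∨ u = c * f) ∨ colf e e' (lab u) = 1 ∨ colf e e' (lab (u * c)) = 1 ∨
    colf e e' (lab (u * f)) = 1 ∨ colf e e' (lab (u * (c * f))) = 1

instance instDecPV (S : SubT) (e e' : Bool) (c f : C) : Decidable (PV S e e' c f) :=
  inferInstanceAs (Decidable (∀ u ∈ S.sub, _))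

/-- The facts about the four-group inside an elementary abelian subgroup of order 64. -/
structure VS (S : SubT) : Prop where
  mem : sv ∈ S.sub ∧ sw ∈ S.sub
  pv : ∀ e e' : Bool, PV S e e' sw sv
  uniq : ∀ e e' : Bool, ∀ c ∈ S.sub, colf e e' (lab c) = 0 → colf e e' (lab (c * sv)) = 0 →
    PV S e e' c sv → c = sw ∨ c = sw * sv
  no : ∀ e e' : Bool, ∀ u ∈ S.sub, u.s = 1 → colf e e' (lab u) = 0 → ∀ v ∈ S.sub, v.s = 1 →
    colf e e' (lab v) = 0 → colf e e' (lab (u * v)) ≠ 0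
  sq : ∀ u ∈ S.sub, u * u = 1
  le : ∀ u ∈ S.sub, u ∈ T

theorem vs1 : VS SU1 := ⟨by decide +kernel, by decide +kernel, by decide +kernel, by decide +kernel,
  U1_sq, fun u hu => R_T u (U1_R u hu)⟩
theorem vs2 : VS SU2 := ⟨by decide +kernel, by decide +kernel, by decide +kernel, by decide +kernel,
  U2_sq, fun u hu => R_T u (U2_R u hu)⟩

theorem VS.comm {S : SubT} (K : VS S) {u v : C} (hu : u ∈ S.sub) (hv : v ∈ S.sub) :
    u * v = v * u := by
  rw [← inv_eq_of_mul_eq_one_left (K.sq _ (mul_mem hu hv)), mul_inv_rev,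
    inv_eq_of_mul_eq_one_left (K.sq u hu), inv_eq_of_mul_eq_one_left (K.sq v hv)]

theorem comm_F {f r : C} (hf : f ∈ F) (hr : r ∈ R) : r * f = f * r :=
  mem_centralizer_singleton_iff.mp (SR.le (K := centralizer {f})
    (fun g hg => mem_centralizer_singleton_iff.mpr (F_R f hf g hg)) hr)

theorem cos_of {e e' : Bool} {c f : C} (hc : c ∈ T) (hf : f ∈ F) (h0 : colf e e' (lab f) = 0)
    (h : c * f = f * c) : c ∈ R ∨ x12 * x45 * c ∈ R := by
  have k : ∀ a : C, a * c ∈ R → a * f = f * a := fun a ha => by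
    have := comm_F hf ha
    rw [mul_assoc, h, ← mul_assoc, ← mul_assoc] at this
    exact mul_right_cancel this
  rcases cosT c hc with h1 | h1 | h1 | h1
  · exact Or.inl h1
  · exact absurd (k _ h1) (col0_F e e' f hf h0).1
  · exact absurd (k _ h1) (col0_F e e' f hf h0).2
  · exact Or.inr h1

/-- The projection onto the simple quotient. -/
def prS : C →* L := MonoidHom.mk' CM.s fun a b => by rw [CM.mul_def]

theorem prS_apply (c : C) : prS c = c.s := rfl

theorem s_conj {c d : C} (h : d.s = 1) : (c * d * c⁻¹).s = 1 := by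
  rw [← prS_apply] at h ⊢
  rw [map_mul, map_mul, h, mul_one, map_inv, mul_inv_cancel]

end Cfsg.H5.He
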