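import Cfsg.Agent.H5.HeF
import Cfsg.Agent.H5.HeY
import Cfsg.Agent.H5.HeW.Main
import Cfsg.Agent.H5.HeV.C1.Main
import Cfsg.Agent.H5.HeV.C2.Main
import Cfsg.Agent.H5.HeV.C3.Main
import Cfsg.Agent.H6.M24
import Cfsg.Agent.H6.More2
import Cfsg.Agent.H3.SL2

/-!
The presented groups are the linear group of degree five over two elements, its point stabiliser
and the large Mathieu group; the table group is the centraliser of a transvection.
-/

set_option autoImplicit false
set_option maxRecDepth 100000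
set_option synthInstance.maxSize 4096
set_option Elab.async false

namespace Cfsg.H5.He

open Subgroup H6 Matrix

local notation "z" => (CM.z : C)

/-- The linear group. -/
abbrev S5 : Type := SpecialLinearGroup (Fin 5) (ZMod 2)

theorem card_S5 : Nat.card S5 = 9999360 := by
  have h := H3.card_SL_mul (n := Fin 5) (F := ZMod 2)
  rw [Matrix.card_GL_field, Nat.card_units] at h
  rw [ZMod.card, Nat.card_zmod, (by decide : ∏ i : Fin 5, (2 ^ 5 - 2 ^ (i : ℕ)) = 9999360)] at h
  exact (mul_one _).symm.trans h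

/-- The row of a letter. -/
def ta (x : ℕ) : Fin 5 := [0, 0, 2, 3, 4, 2, 3, 4, 1].getD x 0
/-- The column of a letter. -/
def tb (x : ℕ) : Fin 5 := [1, 2, 3, 4, 1, 0, 2, 3, 4].getD x 1

theorem tab : ∀ x < 9, ta x ≠ tb x := by decide +kernel

/-- The coded rows of a letter. -/
def rwT (x k : ℕ) : ℕ := 256 ^ k + if k = (ta x).val then 256 ^ (tb x).val else 0

/-- The action on coded vectors. -/
noncomputable def imgT (x p : ℕ) : ℕ := H6.pv 2 (rwT x) p 5 5

theorem hact : MAct (fun x => matP 2 (Equiv.refl (Fin 5)) (rwT x)) (decP 2 (Equiv.refl (Fin 5)))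
    imgT 9 := mact_pv (by norm_num) _ _

/-- A transvection. -/
def mkT (i j : Fin 5) (h : i ≠ j) : S5 := ⟨transvection i j 1, det_transvection_of_ne i j h 1⟩

/-- The letters. -/
def evT (x : ℕ) : S5 := if h : 1 ≤ x ∧ x < 9 then mkT _ _ (tab x h.2) else 1

theorem hμ : ∀ x, 1 ≤ x → x < 9 → SpecialLinearGroup.coeMonoidHom (evT x) =
    matP 2 (Equiv.refl (Fin 5)) (rwT x) := by
  intro x h1 h2
  unfold evT
  rw [dif_pos ⟨h1, h2⟩]
  exact (by decide +kernel : ∀ x < 9, transvection (ta x) (tb x) (1 : ZMod 2) =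
    matP 2 (Equiv.refl (Fin 5)) (rwT x)) x h2

theorem oraT : Oracle evT imgT 9 [1, 256, 65536, 16777216, 4294967296] :=
  hact.oracle SpecialLinearGroup.coeMonoidHom_injective hμ (decP_basis 2 _) (by decide +kernel)

theorem hom_S5 : ∃ ψ : HeL.Grp →* S5, Function.Bijective ψ ∧ ∀ l, ψ (HeL.ev l) = evT l := by
  have := HeL.simple
  obtain ⟨ψ, hψ⟩ := HeL.lift
    (oraT.good (dif_neg (by omega)) (fun l hl => dif_neg (by omega)) (by decide +kernel))
    (oraT.rels (by decide +kernel))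
  have h1 : ψ (HeL.ev 1) ≠ 1 := by
    rw [hψ, ← evL_singleton evT 1]
    exact hact.ne hμ (w := []) (p := 1) (i := 2) (by decide +kernel) (by decide +kernel)
      (by decide +kernel)
  exact ⟨ψ, (injective_of_simple ψ h1).bijective_of_nat_card_le (by rw [HeL.main.1, card_S5]), hψ⟩

namespace LBV

def HW : List (List ℕ) := [[1], [2], [3], [4], [6], [7], [8]]

def kW0 : List (List ℕ) := [[nat_lit 2], [nat_lit 3], [nat_lit 4], [nat_lit 6], [nat_lit 7], [nat_lit 8]]

theorem k0 : lvlChk HeL.img 155 9 [] (0, kW0, unp 14 (nat_lit 0x17020000120200000e0200000d0500000a02000009050000060500000601000004050000040100000204000001040000010000000003)) = true := by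
  decide +kernel

def kW1 : List (List ℕ) := [[nat_lit 2], [nat_lit 3], [nat_lit 4], [nat_lit 7], [nat_lit 8]]

theorem k1 : lvlChk HeL.img 155 9 [0] (1, kW1, unp 13 (nat_lit 0x1704000017020000120200000e0200000e0100000a0200000a0100000a000000040400000401000004000000010300000100)) = true := by
  decide +kernel

def kW2 : List (List ℕ) := [[nat_lit 1], [nat_lit 2, nat_lit 1, nat_lit 2]]

theorem k2 : lvlChk HeL.img 155 9 [1,0] (3, kW2, unp 3 (nat_lit 0xb000000030100000300)) = true := by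
  decide +kernel

def kW3 : List (List ℕ) := [[nat_lit 3], [nat_lit 4], [nat_lit 8], [nat_lit 2, nat_lit 3, nat_lit 2]]

theorem k3 : lvlChk HeL.img 155 9 [3,1,0] (4, kW3, unp 11 (nat_lit 0x170100000e010000060200000d0200000d000000040300000a0100001201000009020000040200000400)) = true := by
  decide +kernel

def kW4 : List (List ℕ) := [[nat_lit 2, nat_lit 3, nat_lit 2, nat_lit 1, nat_lit 2, nat_lit 3, nat_lit 2, nat_lit 1]]

theorem k4 : lvlChk HeL.img 155 9 [4,3,1,0] (8, kW4, unp 1 (nat_lit 0x800)) = true := by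
  decide +kernel

def kW5 : List (List ℕ) := [[nat_lit 4], [nat_lit 3, nat_lit 4, nat_lit 3], [nat_lit 2, nat_lit 3, nat_lit 4, nat_lit 3, nat_lit 2]]

theorem k5 : lvlChk HeL.img 155 9 [8,4,3,1,0] (10, kW5, unp 7 (nat_lit 0x1800000017010000220000000a0200001d0000000a0100000a00)) = true := by
  decide +kernel

def kW6 : List (List ℕ) := [[nat_lit 2, nat_lit 3, nat_lit 4, nat_lit 3, nat_lit 2, nat_lit 1, nat_lit 2, nat_lit 3, nat_lit 4, nat_lit 3, nat_lit 2, nat_lit 1]]

theorem k6 : lvlChk HeL.img 155 9 [10,8,4,3,1,0] (17, kW6, unp 1 (nat_lit 0x1100)) = true := by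
  decide +kernel

theorem lbH [Finite (gen HeL.ev HW)] : LBn HeL.φ (gen HeL.ev HW) 155 [17,10,8,4,3,1,0] 322560 :=
  LBn.cast ((((((((LBn.nil HeL.φ _ 155).stepU HeL.hφ (mem_of_memChk HeL.hev (V := [[1], [2], [3], [4], [5], [6]]) (by decide +kernel)) k0).stepU HeL.hφ (mem_of_memChk HeL.hev (V := [[1], [2], [3], [5], [6]]) (by decide +kernel)) k1).stepU HeL.hφ (mem_of_memChk HeL.hev (V := [[0], [1,0,1]]) (by decide +kernel)) k2).stepU HeL.hφ (mem_of_memChk HeL.hev (V := [[2], [3], [6], [1,2,1]]) (by decide +kernel)) k3).stepU HeL.hφ (mem_of_memChk HeL.hev (V := [[1,2,1,0,1,2,1,0]]) (by decide +kernel)) k4).stepU HeL.hφ (mem_of_memChk HeL.hev (V := [[3], [2,3,2], [1,2,3,2,1]]) (by decide +kernel)) k5).stepU HeL.hφ (mem_of_memChk HeL.hev (V := [[1,2,3,2,1,0,1,2,3,2,1,0]]) (by decide +kernel)) k6) (by decide +kernel)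


end LBV

theorem ubV {G : Type*} [Group G] {ev : ℕ → G} (hev : Good ev 148080050112590643456)
    (hR : Rels ev HeV.R) : UB (gen ev HeV.X) 322560 :=
  ((UB.bot.cover (HeV.C3.cover hev hR)).cover (HeV.C2.cover hev hR)).cover (HeV.C1.cover hev hR)

/-- The letters of the point stabiliser. -/
def sgV : List (List ℕ) := [[], [1], [2], [3], [4], [], [6], [7], [8]]

theorem iso_V : Nat.card HeV.Grp = 322560 ∧
    Nonempty (HeV.Grp ≃* MulAction.stabilizer S5 (Pi.single 0 1 : Fin 5 → ZMod 2)) := by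
  have := HeL.finite
  obtain ⟨ψ, hb, hψ⟩ := hom_S5
  obtain ⟨θ, hθ⟩ := HeV.lift (oraT.good_evS (σ := sgV) (by decide +kernel))
    (oraT.rels_evS (by decide +kernel))
  obtain ⟨hf, hu⟩ := (HeV.hX ▸ ubV HeV.hev HeV.hR).top
  have st : ∀ x < 9, x ≠ 5 → evT x ∈ MulAction.stabilizer S5 (Pi.single 0 1 : Fin 5 → ZMod 2) :=
    by
      intro x hx h5
      unfold evT
      split_ifs with h
      · exact (by decide +kernel : ∀ x < 9, x ≠ 5 → 1 ≤ x → transvection (ta x) (tb x) (1 : ZMod 2) *ᵥ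
          (Pi.single 0 1 : Fin 5 → ZMod 2) = Pi.single 0 1) x hx h5 h.1
      · exact one_mem _
  have h1 : θ.range ≤ MulAction.stabilizer S5 (Pi.single 0 1 : Fin 5 → ZMod 2) := by
    rw [range_eq_genS hθ HeV.hX]
    exact gen_le fun w hw => evL_mem_of_letters fun x hx =>
      st x ((by decide +kernel : ∀ w ∈ HeV.X.map (subst sgV), ∀ x ∈ w, x < 9 ∧ x ≠ 5) w hw x hx).1
        ((by decide +kernel : ∀ w ∈ HeV.X.map (subst sgV), ∀ x ∈ w, x < 9 ∧ x ≠ 5) w hw x hx).2
  have h2 : (gen HeL.ev LBV.HW).map ψ ≤ θ.range := by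
    rw [map_gen, funext hψ, range_eq_genS hθ HeV.hX]
    exact gen_mono _ (by decide +kernel)
  have h3 : 322560 ≤ Nat.card θ.range := by
    refine le_trans ?_ (card_le_of_le h2)
    rw [card_map_of_injective hb.1]
    exact LBV.lbH.1.le_card
  have h4 : Nat.card θ.range ≤ Nat.card HeV.Grp :=
    Nat.card_le_card_of_surjective _ θ.rangeRestrict_surjective
  have h5 : Nat.card θ.range = 322560 := by omega
  have hi : Function.Injective θ := by
    have := (θ.rangeRestrict_surjective.bijective_of_nat_card_le (by omega)).1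
    exact fun a b e => this (Subtype.ext e)
  refine ⟨by omega, ⟨(MonoidHom.ofInjective hi).trans (MulEquiv.subgroupCongr ?_)⟩⟩
  have hp : θ.range.index = 31 := by
    have := θ.range.card_mul_index
    rw [h5, card_S5] at this
    omega
  have hd := index_dvd_of_le h1
  rw [hp] at hd
  rcases (Nat.dvd_prime (by norm_num)).mp hd with h | h
  · rw [index_eq_one] at h
    have : evT 5 ∈ MulAction.stabilizer S5 (Pi.single 0 1 : Fin 5 → ZMod 2) := h ▸ mem_top _
    exact absurd (show transvection (ta 5) (tb 5) (1 : ZMod 2) *ᵥ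
      (Pi.single 0 1 : Fin 5 → ZMod 2) = Pi.single 0 1 from this) (by decide +kernel)
  · refine eq_of_le_of_card_ge h1 ?_
    have := (MulAction.stabilizer S5 (Pi.single 0 1 : Fin 5 → ZMod 2)).card_mul_index
    rw [h, card_S5] at this
    omega

/-- The letters in the Mathieu group. -/
def sgW : List (List ℕ) := [[], [10,7,4,10,8,5,14,5], [8,14,8,14,6,8,11,12,3], [3,14,6,5,3,10,6,2],
  [8,10,3,6,4,7,12,4], [9,6,8,7,14,6,13,6], [4,13,3,12,5,2,5,5], [10,7,14,6,5,6,14,12],
  [12,5,12,5,3,4,12]]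

theorem iso_W : Nonempty (HeW.Grp ≃* M24) := by
  have := HeW.simple
  obtain ⟨ψ, hψ⟩ := HeW.lift (M24.ora.good_evS (σ := sgW) (by decide +kernel))
    (M24.ora.rels_evS (by decide +kernel))
  have h1 : ψ.range ≤ M24 := by
    rw [range_eq_genS hψ HeW.hX]
    exact gen_le fun w _ => evL_mem_of_letters fun x _ => M24.mem x
  have hi : Function.Injective ψ := injective_of_simple ψ (x := HeW.ev 1) (by
    intro e
    have h := (M24.lab.tr (w := sgW.getD 1 []) (by decide +kernel)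
      (p := 0) (by norm_num)).1
    rw [hψ] at e
    rw [show evL M24.ev (sgW.getD 1 []) = 1 from e, map_one, inv_one, Equiv.Perm.one_apply] at h
    exact absurd (M24.lab.inj _ (by norm_num) _ (by decide +kernel) h) (by decide +kernel))
  refine ⟨(MonoidHom.ofInjective hi).trans (MulEquiv.subgroupCongr (eq_of_le_of_card_ge h1 ?_))⟩
  rw [← Nat.card_congr (MonoidHom.ofInjective hi).toEquiv, HeW.main.1]
  exact M24.card_le

/-- Words for generators of the table group. -/
def gw (e e' : Bool) : List (List ℕ) := cond e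
  (cond e' [[2,3,2,1,2,3,2],[6,2,1,2,6],[1,6,2,1,2,6],[4,7,3,4,3,7],[7,3,4,3,7],[3,2,3,4,3,2,3],[1,4,1,4],[2,3,7,6,2,3],[2,3,2,6,2,7,3,2,4],[2,1,2,4,3,2,4,1,2,6]]
    [[1],[3,6,2,1,2,3,6],[1,6,2,1,2,6],[2,3,4,3,2],[2,3,4,3,2,4],[3,2,3,4,3,2,3],[1,2,1,2,6,2,1,2,6],[1,3,2,1,7,6,2,1],[3,7,3,4,6,7,6],[7,3,4,6,7,3,6,7]])
  (cond e' [[1],[1,3,2,1,2,3],[2,1,2],[1,2,3,4,3,2,1],[2,7,3,4,3,2,7],[3,2,3,4,3,2,3],[2,6,2,7,6,2,7,6,7],[2,3,6,2,7,6,7,3],[1,6,7,3,2,1,2],[2,3,2,6,2,3,2]]
    [[1],[1,3,2,1,2,3],[2,1,2],[2,3,4,3,2],[2,3,4,3,2,4],[3,2,3,4,3,2,3],[1,2,3,4,3,2,1,2,3,4,3,2],[3,2,7,6,2],[6,7,3],[3,6]])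

theorem gen_C (e e' : Bool) {K : Subgroup C} (h : ∀ l ∈ [1, 2, 3, 4, 6, 7], cl e e' l ∈ K) :
    K = ⊤ := by
  have h1 : ∀ w ∈ gw e e', evL (cl e e') w ∈ K := fun w hw => evL_mem_of_letters fun x hx =>
    h x ((by decide +kernel : ∀ e e' : Bool, ∀ w ∈ gw e e', ∀ x ∈ w, x ∈ [1, 2, 3, 4, 6, 7])
      e e' w hw x hx)
  obtain ⟨h2, h3⟩ := (by decide +kernel : ∀ e e' : Bool,
    (∀ g ∈ Q.gs, ∃ w ∈ gw e e', evL (cl e e') w = ⟨g, 1⟩) ∧
    ∀ g ∈ L.gs, ∃ w ∈ gw e e', evL (cl e e') w = ⟨1, g⟩) e e'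
  have a : ∀ q : Q, (⟨q, 1⟩ : C) ∈ K := fun q => Q.ind (P := fun q => (⟨q, 1⟩ : C) ∈ K) K.one_mem
    (fun g hg m ih => by
      obtain ⟨w, hw, e1⟩ := h2 g hg
      have := K.mul_mem (e1 ▸ h1 w hw) ih
      rwa [CM.inl_mul] at this) q
  have b : ∀ s : L, (⟨1, s⟩ : C) ∈ K := fun s => L.ind (P := fun s => (⟨1, s⟩ : C) ∈ K) K.one_mem
    (fun g hg m ih => by
      obtain ⟨w, hw, e1⟩ := h3 g hg
      have := K.mul_mem (e1 ▸ h1 w hw) ih
      rw [CM.mul_def] at this
      simpa only [gt, tz_false, A0.ap_one, mul_one] using this) s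
  rw [eq_top_iff]
  intro c _
  have := K.mul_mem (a c.q) (b c.s)
  rwa [CM.inl_mul, mul_one] at this

/-- The relators of the table group. -/
def RC : List (List ℕ) := [[5], [8], [1,3,1,3], [1,4,1,4], [2,4,2,4], [1,2,1,2,1,2,1,2],
  [2,3,2,3,2,3,2,3], [3,4,3,4,3,4,3,4], [1,2,1,3,2,1,3,2,1,3,2,3], [2,3,2,4,3,2,4,3,2,4,3,4],
  [1,7,1,7], [4,6,4,6], [2,6,2,6,2,6], [3,7,3,7,3,7], [6,7,6,7,6,7,6,7], [1,2,1,2,6,2,1,2,6],
  [2,3,2,3,6,2,3,2,6], [2,3,2,3,7,3,2,3,7], [3,4,3,4,7,3,4,3,7]]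

theorem ubC {G : Type*} [Group G] {ev : ℕ → G} (hev : Good ev 148080050112590643456)
    (hR : Rels ev RC) : UB (gen ev HeV.X) 21504 := by
  have c3 : Cover (gen ev HeV.C3.Sub) (gen ev HeV.C3.X) 1024 :=
    cert_cover hev hR (by decide +kernel) HeV.C3.hC HeV.C3.hw HeV.C3.hb (by norm_num) HeV.C3.hc
  have c2 : Cover (gen ev HeV.C2.Sub) (gen ev HeV.C2.X) 21 :=
    cert_cover hev hR (by decide +kernel) HeV.C2.hC HeV.C2.hw HeV.C2.hb (by norm_num) HeV.C2.hc
  refine ((UB.bot.cover c3).cover c2).mono (gen_le fun w hw => ?_)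
  rcases (by revert w; decide +kernel : w ∈ RC ∨ w ∈ HeV.C2.X) with h | h
  · rw [hR w h]; exact one_mem _
  · exact evL_mem_gen ev h

/-- The letters of the table group. -/
def sgC : List (List ℕ) := [[], [1], [2], [3], [4], [], [6], [7], []]

theorem hom_C : ∃ ψ : C →* S5, (ψ z : Matrix (Fin 5) (Fin 5) (ZMod 2)) = transvection 0 1 1 := by
  obtain ⟨ψ, hψ⟩ := exists_hom_of_UB (evM := evS (cl false false) sgC) (ev := evS evT sgC)
    (inv := 148080050112590643456) (R := RC) (X := HeV.X) (N := 21504)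
    (good_of_rels (m := 9) rfl (fun l hl => by
      unfold evS
      rw [List.getD_eq_default _ _ hl, evL_nil]) (by norm_num) (by unfold Rels; decide +kernel))
    (by unfold Rels; decide +kernel)
    (oraT.good_evS (by decide +kernel)) (oraT.rels_evS (by decide +kernel))
    (H5.pg_gen (n := 9) (by norm_num) (by decide +kernel)) (ubC (H5.pg_good _ _) (H5.pg_rels _ _))
    (gen_C false false fun l hl => by
      obtain ⟨h1, h2⟩ := (by decide +kernel : ∀ l ∈ [1, 2, 3, 4, 6, 7], [l] ∈ HeV.X ∧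
        cl false false l = evL (evS (cl false false) sgC) [l]) l hl
      rw [h2]
      exact evL_mem_gen _ h1) CM.card.ge
  refine ⟨ψ, ?_⟩
  rw [(by decide +kernel : z = evL (evS (cl false false) sgC) [1, 2, 3, 4, 3, 2, 1, 2, 3, 4, 3, 2]),
    map_evL, funext hψ, evL_subst]
  have := hact.eq_of_rows hμ (w := subst sgC [1, 2, 3, 4, 3, 2, 1, 2, 3, 4, 3, 2])
    (by decide +kernel) (decP_basis 2 _)
    (r := fun i => 256 ^ i.val + if i = 0 then 256 else 0) (by decide +kernel)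
  exact Eq.trans this (by decide +kernel)

theorem card_cenS {s : S5} (hs : (s : Matrix (Fin 5) (Fin 5) (ZMod 2)) = transvection 0 1 1) :
    Nat.card (centralizer {s}) ≤ 21504 := by
  obtain ⟨m, hm⟩ : ∃ m : centralizer {s} → Matrix (Fin 5) (Fin 5) (ZMod 2), ∀ g, m g = g.1.1 :=
    ⟨_, fun _ => rfl⟩
  have mm : ∀ g h, m (g * h) = m g * m h := fun g h => by rw [hm, hm, hm]; rfl
  have m1 : m 1 = 1 := hm 1
  have md : ∀ g, (m g).det = 1 := fun g => by rw [hm]; exact g.1.2
  have key : ∀ g, (∀ i, i ≠ 0 → m g i 0 = 0) ∧ (∀ j, j ≠ 1 → m g 1 j = 0) ∧ m g 0 0 = m g 1 1 :=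
    fun g => by
    have h : m g * transvection 0 1 1 = transvection 0 1 1 * m g := by
      rw [hm, ← hs]
      have h : (g : S5) * s = s * g := mem_centralizer_singleton_iff.mp g.2
      exact congrArg Subtype.val h
    simp only [transvection, mul_add, add_mul, mul_one, one_mul, add_right_inj] at h
    refine ⟨fun i hi => ?_, fun j hj => ?_, ?_⟩
    · have := congrFun (congrFun h i) 1
      rwa [mul_single_apply_same, mul_one, single_mul_apply_of_ne _ _ _ _ _ hi] at this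
    · have := congrFun (congrFun h 0) j
      rw [single_mul_apply_same, one_mul, mul_single_apply_of_ne _ _ _ _ _ hj] at this
      exact this.symm
    · have := congrFun (congrFun h 0) 1
      rwa [mul_single_apply_same, single_mul_apply_same, mul_one, one_mul] at this
  let B : centralizer {s} → Matrix (Fin 3) (Fin 3) (ZMod 2) := fun g =>
    of fun i j => m g (i.addNat 2) (j.addNat 2)
  have hB : ∀ g h, B (g * h) = B g * B h := fun g h => by
    ext i j
    show m (g * h) _ _ = _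
    rw [mm, mul_apply, mul_apply, Fin.sum_univ_five, Fin.sum_univ_three,
      (key g).1 _ (by revert i; decide), (key h).2.1 _ (by revert j; decide), zero_mul, mul_zero,
      zero_add, zero_add]
    rfl
  have hd : ∀ g, (B g).det = 1 := fun g => by
    have h1 : B 1 = 1 := by
      show (of fun i j => m 1 _ _) = _
      rw [m1]
      decide +kernel
    have := congrArg det (hB g g⁻¹)
    rw [mul_inv_cancel, h1, det_one, det_mul] at this
    exact (by decide : ∀ a b : ZMod 2, 1 = a * b → a = 1) _ _ this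
  have h0 : ∀ g, m g 0 0 = 1 := fun g => by
    by_contra hc
    have := det_eq_zero_of_column_eq_zero (A := m g) 0 fun i => by
      by_cases hi : i = 0
      · rw [hi]; exact (by decide : ∀ a : ZMod 2, a ≠ 1 → a = 0) _ hc
      · exact (key g).1 i hi
    rw [md] at this
    exact absurd this (by decide)
  have := Nat.card_le_card_of_injective
    (β := SpecialLinearGroup (Fin 3) (ZMod 2) × (Fin 4 → ZMod 2) × (Fin 3 → ZMod 2))
    (fun g : centralizer {s} => (⟨B g, hd g⟩, fun j => m g 0 j.succ,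
      fun i => m g (i.addNat 2) 1)) fun g h e => by
      have e1 : B g = B h := congrArg (fun p => p.1.1) e
      have e2 := congrFun (congrArg (fun p => p.2.1) e)
      have e3 := congrFun (congrArg (fun p => p.2.2) e)
      have e4 := fun i j => congrFun (congrFun e1 i) j
      obtain ⟨a1, a2, a3⟩ := key g
      obtain ⟨b1, b2, b3⟩ := key h
      refine Subtype.ext (Subtype.ext ((hm g).symm.trans (Eq.trans ?_ (hm h))))
      ext i j
      rcases (by revert i j; decide : (i = 0 ∧ j = 0) ∨ (i = 1 ∧ j = 1) ∨ (i ≠ 0 ∧ j = 0) ∨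
        (i = 1 ∧ j ≠ 1) ∨ (i = 0 ∧ ∃ k : Fin 4, j = k.succ) ∨
        (j = 1 ∧ ∃ k : Fin 3, i = k.addNat 2) ∨
        ∃ k l : Fin 3, i = k.addNat 2 ∧ j = l.addNat 2) with
        ⟨rfl, rfl⟩ | ⟨rfl, rfl⟩ | ⟨hi, rfl⟩ | ⟨rfl, hj⟩ | ⟨rfl, k, rfl⟩ | ⟨rfl, k, rfl⟩ |
        ⟨k, l, rfl, rfl⟩
      · rw [h0, h0]
      · rw [← a3, ← b3, h0, h0]
      · rw [a1 _ hi, b1 _ hi]
      · rw [a2 _ hj, b2 _ hj]
      · exact e2 k
      · exact e3 k
      · exact e4 k l
  rwa [Nat.card_prod, Nat.card_prod, card_sl3, Nat.card_fun, Nat.card_fun, Nat.card_zmod,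
    Nat.card_fin, Nat.card_fin] at this

theorem exists_cfg' {G : Type*} [Group G] {s : S5}
    (hs : (s : Matrix (Fin 5) (Fin 5) (ZMod 2)) = transvection 0 1 1) {t : G} (ht : orderOf t = 2)
    (e : centralizer {t} ≃* centralizer {s}) : ∃ φ : C →* G, Cfg φ ∧ φ z = t := by
  obtain ⟨ψ, hψ⟩ := hom_C
  have hz : ψ z = s := Subtype.ext (hψ.trans hs.symm)
  have hi : Function.Injective ψ := CM.injective A0.faith fun h => by
    rw [h] at hψ
    exact absurd (show (1 : Matrix (Fin 5) (Fin 5) (ZMod 2)) = transvection 0 1 1 from hψ)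
      (by decide +kernel)
  let κ : C →* centralizer {s} := ψ.codRestrict _ fun c => mem_centralizer_singleton_iff.mpr (by
    rw [← hz, ← map_mul, ← map_mul, CM.z_comm])
  have hk : Function.Bijective κ :=
    Function.Injective.bijective_of_nat_card_le (fun a b h => hi (congrArg Subtype.val h))
      (by rw [CM.card]; exact card_cenS hs)
  let φ : C →* G := (centralizer {t}).subtype.comp (e.symm.toMonoidHom.comp κ)
  have inj : Function.Injective φ := (subtype_injective _).comp (e.symm.injective.comp hk.1)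
  have sur : ∀ g, g * t = t * g → ∃ c, φ c = g := fun g hg => by
    obtain ⟨c, hc⟩ := hk.2 (e ⟨g, mem_centralizer_singleton_iff.mpr hg⟩)
    exact ⟨c, by
      show ((e.symm (κ c) : centralizer {t}) : G) = g
      rw [hc, e.symm_apply_apply]⟩
  have ez : φ z = t := by
    obtain ⟨c, hc⟩ := sur t rfl
    have cm : ∀ d, c * d = d * c := fun d => inj (by
      rw [map_mul, map_mul, hc]
      exact (mem_centralizer_singleton_iff.mp (e.symm (κ d)).2).symm)
    rcases zT c (t_cen1 (cm _) (cm _)) (cm _) (cm _) (cm _) (cm _) with rfl | rfl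
    · rw [← hc, map_one, orderOf_one] at ht
      exact absurd ht (by norm_num)
    · exact hc
  exact ⟨φ, ⟨inj, fun g hg => sur g (ez ▸ hg)⟩, ez⟩

end Cfsg.H5.He
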