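import Cfsg.Agent.H5.J2Ac
import Cfsg.Agent.L0.Class2

/-!
The structure of a group `2^(1+4) . A₅` with self-centralising extraspecial normal subgroup.
-/

set_option autoImplicit false
set_option synthInstance.maxSize 4096
set_option maxRecDepth 100000

namespace Cfsg.H5

open Subgroup

variable {H : Type*} [Group H]

/-- A self-centralising normal extraspecial subgroup of order 32 with centre `⟨z⟩`. -/
structure ES (Q : Subgroup H) (z : H) : Prop where
  conj : ∀ g, ∀ q ∈ Q, g * q * g⁻¹ ∈ Q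
  card : Nat.card Q = 32
  zQ : z ∈ Q
  z1 : z ≠ 1
  zz : z * z = 1
  zc : ∀ g, z * g = g * z
  cen : ∀ g : H, (∀ q ∈ Q, g * q = q * g) → g = 1 ∨ g = z
  comm : ∀ p ∈ Q, ∀ q ∈ Q, q * p = p * q ∨ q * p = z * (p * q)
  sq : ∀ q ∈ Q, q * q = 1 ∨ q * q = z

theorem es_of [Finite H] {Q : Subgroup H} [hn : Q.Normal] {z : H} (hz : orderOf z = 2)
    (hzc : ∀ g, z * g = g * z) (hQ : IsExtraspecial 2 Q) (hc : Nat.card Q = 32)
    (h2 : centralizer (Q : Set H) ≤ Q) : ES Q z := by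
  have z1 : z ≠ 1 := by rintro rfl; simp at hz
  have zz : z * z = 1 := by rw [← pow_two, ← hz, pow_orderOf_eq_one]
  have zQ : z ∈ Q := h2 (fun q _ => (hzc q).symm)
  obtain ⟨z', h1, h2', h3⟩ := L0.es_two_center hQ
  have hz' : z' = ⟨z, zQ⟩ := by
    rcases (h3 ⟨z, zQ⟩).mp (mem_center_iff.mpr fun g => Subtype.ext (hzc g).symm) with h | h
    · exact absurd (congrArg Subtype.val h) z1
    · exact h.symm
  subst hz'
  have key : ∀ x : Q, x ∈ center Q → (x : H) = 1 ∨ (x : H) = z := fun x hx =>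
    ((h3 x).mp hx).imp (congrArg Subtype.val) (congrArg Subtype.val)
  refine ⟨fun g q hq => hn.conj_mem q hq g, hc, zQ, z1, zz, hzc, fun g hg => ?_,
    fun p hp q hq => ?_, fun q hq => ?_⟩
  · have hgQ : g ∈ Q := h2 fun q hq => (hg q hq).symm
    exact key ⟨g, hgQ⟩ (mem_center_iff.mpr fun q => Subtype.ext (hg q q.2).symm)
  · have := key _ (L0.comm_mem_center (L0.es_le hQ) ⟨q, hq⟩ ⟨p, hp⟩)
    simp only [commutatorElement_def, coe_mul, coe_inv] at this
    rcases this with h | h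
    · left
      calc q * p = (q * p * q⁻¹ * p⁻¹) * (p * q) := by group
        _ = p * q := by rw [h, one_mul]
    · right
      calc q * p = (q * p * q⁻¹ * p⁻¹) * (p * q) := by group
        _ = z * (p * q) := by rw [h]
  · have : Fact (Nat.Prime 2) := ⟨Nat.prime_two⟩
    have := key _ (L0.es_pow_mem hQ ⟨q, hq⟩)
    simpa [pow_two] using this

theorem card_modEq_inf_centralizer [Finite H] {p : ℕ} [Fact p.Prime] {r : H} (hr : r ^ p = 1)
    (K : Subgroup H) (hK : ∀ k ∈ K, r * k * r⁻¹ ∈ K) :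
    Nat.card K ≡ Nat.card (K ⊓ centralizer {r} : Subgroup H) [MOD p] := by
  classical
  have := Fintype.ofFinite H
  let f : Function.End K := fun k => ⟨r * k * r⁻¹, hK k k.2⟩
  have hf : ∀ n : ℕ, ∀ k : K, (((f ^ n) k : K) : H) = r ^ n * k * (r ^ n)⁻¹ := by
    intro n
    induction n with
    | zero => intro k; simp; rfl
    | succ n ih =>
      intro k
      rw [pow_succ', pow_succ']
      show r * ((f ^ n) k : K) * r⁻¹ = _
      rw [ih]; group
  have h1 : f ^ p ^ 1 = 1 := by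
    funext k
    apply Subtype.ext
    rw [pow_one, hf, hr]; simp; rfl
  have h2 := Equiv.Perm.card_fixedPoints_modEq h1
  rw [← Nat.card_eq_fintype_card, ← Nat.card_eq_fintype_card] at h2
  have : Nat.card (Function.fixedPoints f) = Nat.card (K ⊓ centralizer {r} : Subgroup H) := by
    refine Nat.card_congr ⟨fun k => ⟨k.1.1, k.1.2, ?_⟩, fun k => ⟨⟨k.1, k.2.1⟩, ?_⟩,
      fun _ => rfl, fun _ => rfl⟩
    · have h : r * k.1.1 * r⁻¹ = k.1.1 := congrArg Subtype.val k.2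
      exact mem_centralizer_singleton_iff.mpr (by rw [← mul_inv_eq_iff_eq_mul.mp h])
    · apply Subtype.ext
      show r * k.1 * r⁻¹ = k.1
      rw [← mem_centralizer_singleton_iff.mp k.2.2]; group
  rwa [this] at h2

namespace ES

variable {Q : Subgroup H} {z : H}

theorem pow_four (E : ES Q z) {q : H} (hq : q ∈ Q) : q ^ 4 = 1 := by
  have : q ^ 4 = (q * q) * (q * q) := by simp [pow_succ, mul_assoc]
  rw [this]
  rcases E.sq q hq with h | h <;> rw [h]
  · simp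
  · exact E.zz

theorem card_cases [Finite H] (E : ES Q z) {K : Subgroup H} (hK : K ≤ Q)
    (h : Nat.card K % 5 = 2) : Nat.card K = 2 ∨ K = Q := by
  have h1 : Nat.card K ∣ 2 ^ 5 := by
    have := card_dvd_of_le hK
    rwa [E.card] at this
  obtain ⟨k, hk, e⟩ := (Nat.dvd_prime_pow Nat.prime_two).mp h1
  by_cases h5 : k = 5
  · right
    exact eq_of_le_of_card_ge hK (by rw [E.card, e, h5]; norm_num)
  · left
    rw [e] at h ⊢
    interval_cases k <;> omega

theorem eq_of_card_two [Finite H] (E : ES Q z) {K : Subgroup H} (hz : z ∈ K)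
    (h : Nat.card K = 2) {q : H} (hq : q ∈ K) : q = 1 ∨ q = z := by
  obtain ⟨x, -, hx⟩ := (Nat.card_eq_two_iff' (1 : K)).mp h
  by_cases h1 : q = 1
  · exact Or.inl h1
  · right
    have e1 := hx ⟨q, hq⟩ fun e => h1 (congrArg Subtype.val e)
    have e2 := hx ⟨z, hz⟩ fun e => E.z1 (congrArg Subtype.val e)
    exact congrArg Subtype.val (e1.trans e2.symm)

variable [Finite H] (E : ES Q z) {r : H} (hr : r ^ 5 = 1) (hr1 : r ≠ 1)
include E hr hr1

theorem fix_five {q : H} (hq : q ∈ Q) (h : r * q = q * r) : q = 1 ∨ q = z := by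
  have : Fact (Nat.Prime 5) := ⟨by norm_num⟩
  have h1 := card_modEq_inf_centralizer hr Q (E.conj r)
  rw [E.card] at h1
  rcases E.card_cases (K := Q ⊓ centralizer {r}) inf_le_left h1.symm with h2 | h2
  · exact E.eq_of_card_two (K := Q ⊓ centralizer {r})
      ⟨E.zQ, mem_centralizer_singleton_iff.mpr (E.zc r)⟩ h2
      ⟨hq, mem_centralizer_singleton_iff.mpr h.symm⟩
  · exfalso
    rcases E.cen r (fun x hx => by
      rw [← h2] at hx
      exact (mem_centralizer_singleton_iff.mp hx.2).symm) with h3 | h3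
    · exact hr1 h3
    · rw [h3, show z ^ 5 = (z * z) * (z * z) * z by simp [pow_succ, mul_assoc], E.zz] at hr
      exact E.z1 (by simpa using hr)

theorem fix_five' {q : H} (hq : q ∈ Q) (h : r * q * r⁻¹ = q ∨ r * q * r⁻¹ = z * q) :
    q = 1 ∨ q = z := by
  apply E.fix_five hr hr1 hq
  have h2 : Commute (r ^ 2) q := by
    rcases h with h | h
    · exact Commute.pow_left (mul_inv_eq_iff_eq_mul.mp h) 2
    · have : r ^ 2 * q * (r ^ 2)⁻¹ = q := by
        calc r ^ 2 * q * (r ^ 2)⁻¹ = r * (r * q * r⁻¹) * r⁻¹ := by rw [pow_two]; group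
          _ = r * z * q * r⁻¹ := by rw [h]; group
          _ = z * (r * q * r⁻¹) := by rw [← E.zc r]; group
          _ = q := by rw [h, ← mul_assoc, E.zz, one_mul]
      exact mul_inv_eq_iff_eq_mul.mp this
  have h3 := h2.pow_left 3
  rwa [← pow_mul, show 2 * 3 = 5 + 1 by norm_num, pow_succ, hr, one_mul] at h3

theorem eq_of_invariant {K : Subgroup H} (hK : K ≤ Q) (hz : z ∈ K)
    (hinv : ∀ k ∈ K, r * k * r⁻¹ ∈ K) {a : H} (ha : a ∈ K) (ha1 : a ≠ 1) (haz : a ≠ z) : K = Q := by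
  have : Fact (Nat.Prime 5) := ⟨by norm_num⟩
  have h1 := card_modEq_inf_centralizer hr K hinv
  have h2 : Nat.card (K ⊓ centralizer {r} : Subgroup H) = 2 := by
    rw [Nat.card_eq_two_iff' (1 : (K ⊓ centralizer {r} : Subgroup H))]
    refine ⟨⟨z, hz, mem_centralizer_singleton_iff.mpr (E.zc r)⟩,
      fun e => E.z1 (congrArg Subtype.val e), fun y hy => ?_⟩
    rcases E.fix_five hr hr1 (hK y.2.1) (mem_centralizer_singleton_iff.mp y.2.2).symm with h | h
    · exact absurd (Subtype.ext h) hy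
    · exact Subtype.ext h
  rw [h2] at h1
  rcases E.card_cases hK h1 with h3 | h3
  · rcases E.eq_of_card_two hz h3 ha with h | h <;> contradiction
  · exact h3

theorem rel_or {a0 a1 a2 a3 a4 : H} (hQ : a0 ∈ Q) (h2 : a0 * a0 = 1) (ha1 : a0 ≠ 1) (haz : a0 ≠ z)
    (r0 : r * a0 * r⁻¹ = a1) (r1 : r * a1 * r⁻¹ = a2) (r2 : r * a2 * r⁻¹ = a3)
    (r3 : r * a3 * r⁻¹ = a4) (r4 : r * a4 * r⁻¹ = a0) :
    PQ.Rel a0 a1 a2 a3 a4 z ∨ PM3.Rel a0 a1 a2 a3 a4 z := by
  have Q1 : a1 ∈ Q := r0 ▸ E.conj r _ hQ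
  have Q2 : a2 ∈ Q := r1 ▸ E.conj r _ Q1
  have Q3 : a3 ∈ Q := r2 ▸ E.conj r _ Q2
  have Q4 : a4 ∈ Q := r3 ▸ E.conj r _ Q3
  have sq : ∀ {x y : H}, r * x * r⁻¹ = y → x * x = 1 → y * y = 1 := by
    rintro x _ rfl h
    calc _ = r * (x * x) * r⁻¹ := by group
      _ = 1 := by rw [h]; group
  have s1 := sq r0 h2
  have s2 := sq r1 s1
  have s3 := sq r2 s2
  have s4 := sq r3 s3
  have cm : ∀ {x y x' y' : H}, r * x * r⁻¹ = x' → r * y * r⁻¹ = y' → x * y = y * x →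
      x' * y' = y' * x' := by
    rintro x y _ _ rfl rfl h
    calc _ = r * (x * y) * r⁻¹ := by group
      _ = _ := by rw [h]; group
  have ac : ∀ {x y x' y' : H}, r * x * r⁻¹ = x' → r * y * r⁻¹ = y' → x * y = z * (y * x) →
      x' * y' = z * (y' * x') := by
    rintro x y _ _ rfl rfl h
    calc _ = r * (x * y) * r⁻¹ := by group
      _ = (r * z) * (y * x) * r⁻¹ := by rw [h]; group
      _ = _ := by rw [← E.zc r]; group
  have sy : ∀ {x y : H}, x * y = z * (y * x) → y * x = z * (x * y) := by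
    intro x y h
    rw [h, ← mul_assoc, E.zz, one_mul]
  have hNQ : a0 * a1 * a2 * a3 * a4 ∈ Q :=
    Q.mul_mem (Q.mul_mem (Q.mul_mem (Q.mul_mem hQ Q1) Q2) Q3) Q4
  have hN : a0 * a1 * a2 * a3 * a4 = 1 ∨ a0 * a1 * a2 * a3 * a4 = z := by
    apply E.fix_five' hr hr1 hNQ
    have e : r * (a0 * a1 * a2 * a3 * a4) * r⁻¹ = (a1 * a2 * a3 * a4) * a0 := by
      calc _ = (r * a0 * r⁻¹) * (r * a1 * r⁻¹) * (r * a2 * r⁻¹) * (r * a3 * r⁻¹) *
            (r * a4 * r⁻¹) := by group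
        _ = _ := by rw [r0, r1, r2, r3, r4]
    rw [e]
    have := E.comm a0 hQ _ (Q.mul_mem (Q.mul_mem (Q.mul_mem Q1 Q2) Q3) Q4)
    simpa only [mul_assoc] using this
  have hNN : a0 * a1 * a2 * a3 * a4 * (a0 * a1 * a2 * a3 * a4) = 1 := by
    rcases hN with h | h <;> rw [h]
    · simp
    · exact E.zz
  rcases E.comm a0 hQ a1 Q1 with c1 | c1 <;> rcases E.comm a0 hQ a2 Q2 with c2 | c2
  · exfalso
    have c12 := cm r1 r0 c1
    have c23 := cm r2 r1 c12
    have c34 := cm r3 r2 c23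
    have c40 := cm r4 r3 c34
    have c13 := cm r2 r0 c2
    have c24 := cm r3 r1 c13
    have c30 := cm r4 r2 c24
    have hK := E.eq_of_invariant hr hr1 (K := Q ⊓ centralizer {a0, a1, a2, a3, a4}) inf_le_left
      ⟨E.zQ, fun g _ => (E.zc g).symm⟩ (fun k hk => ⟨E.conj r k hk.1, fun g hg => by
        have hk2 := hk.2
        simp only [Set.mem_insert_iff, Set.mem_singleton_iff] at hg
        rcases hg with rfl | rfl | rfl | rfl | rfl
        · exact cm r4 rfl (hk2 _ (by simp))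
        · exact cm r0 rfl (hk2 _ (by simp))
        · exact cm r1 rfl (hk2 _ (by simp))
        · exact cm r2 rfl (hk2 _ (by simp))
        · exact cm r3 rfl (hk2 _ (by simp))⟩) (a := a0) ⟨hQ, fun g hg => by
        simp only [Set.mem_insert_iff, Set.mem_singleton_iff] at hg
        rcases hg with rfl | rfl | rfl | rfl | rfl
        exacts [rfl, c1, c2, c30.symm, c40.symm]⟩ ha1 haz
    rcases E.cen a0 (fun q hq => by
      rw [← hK] at hq
      exact hq.2 a0 (by simp)) with h | h <;> contradiction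
  · exfalso
    have c12 := cm r1 r0 c1
    have c23 := cm r2 r1 c12
    have c34 := cm r3 r2 c23
    have c40 := cm r4 r3 c34
    have c13 := ac r2 r0 c2
    have c24 := ac r3 r1 c13
    have c30 := ac r4 r2 c24
    have c41 := ac r0 r3 c30
    exact E.z1 (PM2.z_eq ⟨h2, s1, s2, s3, s4, E.zz, c1, c2, sy c30, c40.symm, c12, c13, sy c41, c23,
      c24, c34, E.zc _, E.zc _, E.zc _, E.zc _, E.zc _, hNN⟩)
  · exfalso
    have c12 := ac r1 r0 c1
    have c23 := ac r2 r1 c12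
    have c34 := ac r3 r2 c23
    have c40 := ac r4 r3 c34
    have c13 := cm r2 r0 c2
    have c24 := cm r3 r1 c13
    have c30 := cm r4 r2 c24
    have c41 := cm r0 r3 c30
    exact E.z1 (PM1.z_eq ⟨h2, s1, s2, s3, s4, E.zz, c1, c2, c30.symm, sy c40, c12, c13, c41.symm, c23,
      c24, c34, E.zc _, E.zc _, E.zc _, E.zc _, E.zc _, hNN⟩)
  · have c12 := ac r1 r0 c1
    have c23 := ac r2 r1 c12
    have c34 := ac r3 r2 c23
    have c40 := ac r4 r3 c34
    have c13 := ac r2 r0 c2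
    have c24 := ac r3 r1 c13
    have c30 := ac r4 r2 c24
    have c41 := ac r0 r3 c30
    rcases hN with h | h
    · exact Or.inl ⟨h2, s1, s2, s3, s4, E.zz, c1, c2, sy c30, sy c40, c12, c13, sy c41, c23,
        c24, c34, E.zc _, E.zc _, E.zc _, E.zc _, E.zc _, h⟩
    · exact Or.inr ⟨h2, s1, s2, s3, s4, E.zz, c1, c2, sy c30, sy c40, c12, c13, sy c41, c23,
        c24, c34, E.zc _, E.zc _, E.zc _, E.zc _, E.zc _, h⟩

theorem exists_rel {a : H} (hQ : a ∈ Q) (h2 : a * a = 1) (ha1 : a ≠ 1) (haz : a ≠ z) :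
    ∃ a0 a1 a2 a3 a4 : H, a0 ∈ Q ∧ r * a0 * r⁻¹ = a1 ∧ r * a1 * r⁻¹ = a2 ∧ r * a2 * r⁻¹ = a3 ∧
      r * a3 * r⁻¹ = a4 ∧ r * a4 * r⁻¹ = a0 ∧ PQ.Rel a0 a1 a2 a3 a4 z := by
  have r4 : ∀ x : H, r * (r * (r * (r * (r * x * r⁻¹) * r⁻¹) * r⁻¹) * r⁻¹) * r⁻¹ = x := by
    intro x
    calc _ = r ^ 5 * x * (r ^ 5)⁻¹ := by simp [pow_succ, mul_assoc]
      _ = x := by rw [hr]; simp
  rcases E.rel_or hr hr1 hQ h2 ha1 haz rfl rfl rfl rfl (r4 a) with h | h
  · exact ⟨_, _, _, _, _, hQ, rfl, rfl, rfl, rfl, r4 a, h⟩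
  · have sh : ∀ x : H, r * (x * z) * r⁻¹ = r * x * r⁻¹ * z := by
      intro x
      rw [← E.zc (r * x * r⁻¹), ← E.zc x, ← mul_assoc, ← E.zc r]; group
    have hz2 : a * z * (a * z) = 1 := by
      calc _ = a * (z * a) * z := by group
        _ = (a * a) * (z * z) := by rw [E.zc a]; group
        _ = 1 := by rw [h2, E.zz, one_mul]
    have hz1 : a * z ≠ 1 := fun e => haz (by
      rw [← mul_one a, ← E.zz, ← mul_assoc, e, one_mul])
    have hz3 : a * z ≠ z := fun e => ha1 (by simpa using e)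
    have e := PM3.shift h
    rcases E.rel_or hr hr1 (Q.mul_mem hQ E.zQ) hz2 hz1 hz3 (sh _) (sh _) (sh _) (sh _)
      ((sh _).trans (by rw [r4])) with h' | h'
    · exact ⟨_, _, _, _, _, Q.mul_mem hQ E.zQ, sh _, sh _, sh _, sh _, (sh _).trans (by rw [r4]), h'⟩
    · exact absurd (h'.pr.symm.trans e) E.z1

omit hr hr1 in
theorem exists_involution : ∃ a ∈ Q, a * a = 1 ∧ a ≠ 1 ∧ a ≠ z := by
  by_contra hc
  push Not at hc
  have hsq : ∀ q ∈ Q, q ≠ 1 → q ≠ z → q * q = z := fun q hq h1 h2 =>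
    (E.sq q hq).resolve_left fun h => h2 (hc q hq h h1)
  -- every element of `Q` outside `⟨z⟩` is inverted by those outside its cyclic group
  have big : ∀ S : Finset H, S.card < 32 → ∃ q ∈ Q, q ∉ S := by
    intro S hS
    by_contra hcon
    push Not at hcon
    have := Set.ncard_le_ncard (s := (Q : Set H)) (t := (S : Set H)) (fun q hq => hcon q hq)
    rw [Set.ncard_coe_finset, ← Nat.card_coe_set_eq] at this
    have h2 := E.card
    simp only [SetLike.coe_sort_coe] at this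
    omega
  classical
  have anti : ∀ p ∈ Q, ∀ q ∈ Q, p ≠ 1 → p ≠ z → q ≠ 1 → q ≠ z → p * q ≠ 1 → p * q ≠ z →
      q * p = z * (p * q) := by
    intro p hp q hq p1 pz q1 qz pq1 pqz
    refine (E.comm p hp q hq).resolve_left fun h => ?_
    have h1 := hsq _ (Q.mul_mem hp hq) pq1 pqz
    have : p * q * (p * q) = (p * p) * (q * q) := by
      calc _ = p * (q * p) * q := by group
        _ = _ := by rw [h]; group
    rw [this, hsq p hp p1 pz, hsq q hq q1 qz, E.zz] at h1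
    exact E.z1 h1.symm
  have c2 : ∀ a b : H, ({a, b} : Finset H).card ≤ 2 := fun a b => Finset.card_le_two
  obtain ⟨p, hp, hp'⟩ := big {1, z} (by have := c2 1 z; omega)
  obtain ⟨q, hq, hq'⟩ := big ({1, z} ∪ {p⁻¹, p⁻¹ * z}) (by
    have := Finset.card_union_le ({1, z} : Finset H) {p⁻¹, p⁻¹ * z}
    have := c2 1 z; have := c2 p⁻¹ (p⁻¹ * z); omega)
  obtain ⟨s, hs, hs'⟩ := big (({1, z} ∪ {p⁻¹, p⁻¹ * z}) ∪ ({q⁻¹, q⁻¹ * z} ∪
      {(p * q)⁻¹, (p * q)⁻¹ * z})) (by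
    have := Finset.card_union_le (({1, z} ∪ {p⁻¹, p⁻¹ * z}) : Finset H) ({q⁻¹, q⁻¹ * z} ∪
      {(p * q)⁻¹, (p * q)⁻¹ * z})
    have := Finset.card_union_le ({1, z} : Finset H) {p⁻¹, p⁻¹ * z}
    have := Finset.card_union_le ({q⁻¹, q⁻¹ * z} : Finset H) {(p * q)⁻¹, (p * q)⁻¹ * z}
    have := c2 1 z; have := c2 p⁻¹ (p⁻¹ * z); have := c2 q⁻¹ (q⁻¹ * z)
    have := c2 (p * q)⁻¹ ((p * q)⁻¹ * z); omega)
  simp only [Finset.mem_union, Finset.mem_insert, Finset.mem_singleton, not_or] at hp' hq' hs'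
  have n1 : ∀ {x y : H}, ¬ y = x⁻¹ → x * y ≠ 1 := fun h e => h (eq_inv_of_mul_eq_one_right e)
  have n2 : ∀ {x y : H}, ¬ y = x⁻¹ * z → x * y ≠ z := fun h e => h (by rw [← e]; group)
  have h1 := anti p hp s hs hp'.1 hp'.2 hs'.1.1.1 hs'.1.1.2 (n1 hs'.1.2.1) (n2 hs'.1.2.2)
  have h2 := anti q hq s hs hq'.1.1 hq'.1.2 hs'.1.1.1 hs'.1.1.2 (n1 hs'.2.1.1) (n2 hs'.2.1.2)
  have h3 := anti _ (Q.mul_mem hp hq) s hs (n1 hq'.2.1) (n2 hq'.2.2) hs'.1.1.1 hs'.1.1.2
    (n1 hs'.2.2.1) (n2 hs'.2.2.2)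
  have : s * (p * q) = p * q * s := by
    calc s * (p * q) = (s * p) * q := by group
      _ = z * p * (s * q) := by rw [h1]; group
      _ = z * (p * z) * (q * s) := by rw [h2]; group
      _ = (z * z) * (p * q * s) := by rw [← E.zc p]; group
      _ = _ := by rw [E.zz, one_mul]
  rw [this] at h3
  exact E.z1 (by simpa using h3)

end ES

/-- The endomorphism of the table group with prescribed images of the generators. -/
def apQ (y0 y1 y2 y3 q : Q0) : Q0 :=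
  y0 ^ (q.val % 2) * y1 ^ (q.val / 2 % 2) * y2 ^ (q.val / 4 % 2) * y3 ^ (q.val / 8 % 2) *
    Q0.z ^ (q.val / 16)

theorem apQ_self : ∀ q : Q0, apQ (Q0.a 0) (Q0.a 1) (Q0.a 2) (Q0.a 3) q = q := by decide +kernel

theorem apQ_classify : ∀ y0 : Q0, y0 * y0 = 1 → y0 ≠ 1 → y0 ≠ Q0.z → ∀ y1 : Q0, y1 * y1 = 1 →
    y1 * y0 = Q0.z * (y0 * y1) → ∀ y2 : Q0, y2 * y2 = 1 → y2 * y0 = Q0.z * (y0 * y2) →
    y2 * y1 = Q0.z * (y1 * y2) → ∀ y3 : Q0, y3 * y3 = 1 → y3 * y0 = Q0.z * (y0 * y3) →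
    y3 * y1 = Q0.z * (y1 * y3) → y3 * y2 = Q0.z * (y2 * y3) →
    (∀ q, apQ y0 y1 y2 y3 (apQ y0 y1 y2 y3 (apQ y0 y1 y2 y3 q)) = q) →
    (∃ p : Q0, ∀ q, act A0.r (apQ y0 y1 y2 y3 (act A0.r (apQ y0 y1 y2 y3 q))) = p * q * p⁻¹) →
    ∃ p : Q0, ∃ k : TN 9 5, ∀ q, apQ y0 y1 y2 y3 (p * act (A0.r ^ k.val) q * p⁻¹) =
      p * act (A0.r ^ k.val) (act A0.t q) * p⁻¹ := by
  decide +kernel

theorem Q0.injective {φ : Q0 →* H} (h : φ Q0.z ≠ 1) : Function.Injective φ := by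
  rw [injective_iff_map_eq_one]
  intro q hq
  have : ∀ q : Q0, q = 1 ∨ q = Q0.z ∨ ∃ p : Q0, Q0.z = p * q * p⁻¹ * q⁻¹ := by decide +kernel
  rcases this q with h1 | h1 | ⟨p, h1⟩
  · exact h1
  · exact absurd (h1 ▸ hq) h
  · exact absurd (by rw [h1]; simp [hq]) h

theorem C0.injective {φ : C0 →* H} (h : φ C0.z ≠ 1) : Function.Injective φ := by
  rw [injective_iff_map_eq_one]
  intro c hc
  have : ∀ c : C0, c = 1 ∨ c = C0.z ∨ ∃ p : Q0, C0.z = C0.inl p * c * (C0.inl p)⁻¹ * c⁻¹ ∨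
      ∃ i : Fin 5, C0.z = C0.inl (Q0.a i) * (C0.inl p * c * (C0.inl p)⁻¹ * c⁻¹) *
        (C0.inl (Q0.a i))⁻¹ * (C0.inl p * c * (C0.inl p)⁻¹ * c⁻¹)⁻¹ := by decide +kernel
  rcases this c with h1 | h1 | ⟨p, h1 | ⟨i, h1⟩⟩
  · exact h1
  · exact absurd (h1 ▸ hc) h
  · exact absurd (by rw [h1]; simp [hc]) h
  · exact absurd (by rw [h1]; simp [hc]) h

theorem hom_ext_Q0 {φ ψ : Q0 →* H} (h : ∀ i, φ (Q0.a i) = ψ (Q0.a i)) (hz : φ Q0.z = ψ Q0.z) :
    φ = ψ :=
  MonoidHom.eq_of_eqOn_top (by rw [← Q0.eq_top (φ.eqLocus ψ) h hz]; exact fun x hx => hx)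

/-- The action of an element of the alternating group, as a homomorphism. -/
def actHom (s : A0) : Q0 →* Q0 := MonoidHom.mk' (act s) (act_mul s)

theorem ES.structure [Finite H] {Q : Subgroup H} {z : H} (E : ES Q z) (π : H →* A0)
    (hs : Function.Surjective π) (hk : ∀ g, π g = 1 ↔ g ∈ Q) :
    (∃ φ : C0 →* H, Function.Bijective φ ∧ φ C0.z = z ∧ ∀ c, φ c ∈ Q → c.s = 1) ∨
      (∃ a : H, ∀ y : H, y * y = 1 → y = 1 ∨ y = z ∨ (y ∈ Q ∧ IsConj a y)) := by
  obtain ⟨r', hr'⟩ := hs A0.r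
  obtain ⟨t', ht'⟩ := hs A0.t
  obtain ⟨r, hr, πr⟩ : ∃ r : H, r ^ 5 = 1 ∧ π r = A0.r := by
    refine ⟨r' ^ 16, ?_, by rw [map_pow, hr']; decide +kernel⟩
    have := E.pow_four ((hk (r' ^ 5)).mp (by rw [map_pow, hr']; decide +kernel))
    rw [← pow_mul] at this
    rw [← pow_mul, show 16 * 5 = 5 * 4 * 4 by norm_num, pow_mul, this, one_pow]
  obtain ⟨t, ht, πt⟩ : ∃ t : H, t ^ 3 = 1 ∧ π t = A0.t := by
    refine ⟨t' ^ 4, ?_, by rw [map_pow, ht']; decide +kernel⟩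
    have := E.pow_four ((hk (t' ^ 3)).mp (by rw [map_pow, ht']; decide +kernel))
    rwa [← pow_mul, mul_comm, pow_mul] at this
  have hr1 : r ≠ 1 := by
    rintro rfl
    rw [map_one] at πr
    exact absurd πr (by decide +kernel)
  obtain ⟨a, haQ, ha2, ha1, haz⟩ := E.exists_involution
  obtain ⟨a0, a1, a2, a3, a4, Q0', r0, r1, r2, r3, r4, R⟩ := E.exists_rel hr hr1 haQ ha2 ha1 haz
  obtain ⟨φ, f0, f1, f2, f3, f4, fz⟩ := Q0.exists_hom R
  have inj : Function.Injective φ := Q0.injective (fz ▸ E.z1)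
  have Q1 : a1 ∈ Q := r0 ▸ E.conj r _ Q0'
  have Q2 : a2 ∈ Q := r1 ▸ E.conj r _ Q1
  have Q3 : a3 ∈ Q := r2 ▸ E.conj r _ Q2
  have Q4 : a4 ∈ Q := r3 ▸ E.conj r _ Q3
  have memQ : ∀ q, φ q ∈ Q := fun q => by
    have := Q0.eq_top (Q.comap φ) (fun i => by
      rw [mem_comap]
      fin_cases i
      exacts [f0 ▸ Q0', f1 ▸ Q1, f2 ▸ Q2, f3 ▸ Q3, f4 ▸ Q4]) (by rw [mem_comap, fz]; exact E.zQ)
    exact show q ∈ Q.comap φ from this ▸ mem_top q
  have rng : φ.range = Q := eq_of_le_of_card_ge (by rintro _ ⟨q, rfl⟩; exact memQ q) (by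
    rw [E.card, ← Nat.card_congr (MonoidHom.ofInjective inj).toEquiv, TN.card_eq])
  have sur : ∀ g ∈ Q, ∃ q, φ q = g := fun g hg => by rwa [← rng] at hg
  have fr : ∀ q, φ (act A0.r q) = r * φ q * r⁻¹ := by
    have := hom_ext_Q0 (φ := φ.comp (actHom A0.r)) (ψ := (MulAut.conj r).toMonoidHom.comp φ)
      (fun i => by
        fin_cases i
        · exact f1.trans (by rw [← r0, ← f0]; rfl)
        · exact f2.trans (by rw [← r1, ← f1]; rfl)
        · exact f3.trans (by rw [← r2, ← f2]; rfl)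
        · exact f4.trans (by rw [← r3, ← f3]; rfl)
        · exact f0.trans (by rw [← r4, ← f4]; rfl))
      (fz.trans (by
        show z = r * φ Q0.z * r⁻¹
        rw [fz, ← E.zc r]; group))
    exact fun q => DFunLike.congr_fun this q
  have frk : ∀ (k : ℕ) q, φ (act (A0.r ^ k) q) = r ^ k * φ q * (r ^ k)⁻¹ := by
    intro k
    induction k with
    | zero => intro q; simp [one_act]
    | succ k ih => intro q; rw [pow_succ', pow_succ', mul_act, fr, ih]; group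
  choose τ' hτ' using fun q => sur _ (E.conj t _ (memQ q))
  let τ : Q0 →* Q0 := MonoidHom.mk' τ' fun p q => inj (by
    rw [map_mul, hτ', hτ', hτ', map_mul]; group)
  have hτ : ∀ q, φ (τ q) = t * φ q * t⁻¹ := hτ'
  have τz : τ Q0.z = Q0.z := inj (by rw [hτ, fz, ← E.zc t]; group)
  have τinj : Function.Injective τ := Q0.injective (by rw [τz]; decide +kernel)
  have τap : ∀ q, apQ (τ (Q0.a 0)) (τ (Q0.a 1)) (τ (Q0.a 2)) (τ (Q0.a 3)) q = τ q := by
    intro q
    conv_rhs => rw [← apQ_self q]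
    simp only [apQ, map_mul, map_pow, τz]
  have R0 := Q0.rel
  have tr : ∀ {x y : Q0}, x * y = Q0.z * (y * x) → τ x * τ y = Q0.z * (τ y * τ x) := by
    intro x y h
    rw [← map_mul, h, map_mul, map_mul, τz]
  have ts : ∀ {x : Q0}, x * x = 1 → τ x * τ x = 1 := by
    intro x h
    rw [← map_mul, h, map_one]
  obtain ⟨p, k, hp⟩ := apQ_classify (τ (Q0.a 0)) (ts R0.s0)
    (fun e => absurd (τinj (e.trans (map_one τ).symm)) (by decide +kernel))
    (fun e => absurd (τinj (e.trans τz.symm)) (by decide +kernel))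
    (τ (Q0.a 1)) (ts R0.s1) (tr R0.c01) (τ (Q0.a 2)) (ts R0.s2) (tr R0.c02) (tr R0.c12)
    (τ (Q0.a 3)) (ts R0.s3) (tr R0.c03) (tr R0.c13) (tr R0.c23)
    (fun q => inj (by
      simp only [τap, hτ]
      calc _ = t ^ 3 * φ q * (t ^ 3)⁻¹ := by simp [pow_succ, mul_assoc]
        _ = _ := by rw [ht]; simp))
    (by
      obtain ⟨p, hp⟩ := sur (r * t * (r * t)) ((hk _).mp (by
        simp only [map_mul, πr, πt]; decide +kernel))
      refine ⟨p, fun q => inj ?_⟩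
      simp only [τap, hτ, fr, map_mul, map_inv, hp]
      group)
  simp only [τap] at hp
  obtain ⟨t1, ht1⟩ : ∃ t1, t1 = (φ p * r ^ k.val)⁻¹ * t * (φ p * r ^ k.val) := ⟨_, rfl⟩
  have ft : ∀ q, φ (act A0.t q) = t1 * φ q * t1⁻¹ := by
    intro q
    have := congrArg φ (hp q)
    simp only [hτ, map_mul, map_inv, frk] at this
    calc φ (act A0.t q) = (φ p * r ^ k.val)⁻¹ * (φ p * (r ^ k.val * φ (act A0.t q) *
          (r ^ k.val)⁻¹) * (φ p)⁻¹) * (φ p * r ^ k.val) := by group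
      _ = _ := by rw [← this, ht1]; group
  have ht13 : t1 ^ 3 = 1 := by
    rw [ht1]
    calc _ = (φ p * r ^ k.val)⁻¹ * t ^ 3 * (φ p * r ^ k.val) := by simp [pow_succ, mul_assoc]
      _ = 1 := by rw [ht]; simp
  have πs : π (r * t1) * π (r * t1) = 1 ∧ π (r * t1) ≠ 1 := by
    rw [ht1]
    simp only [map_mul, map_inv, map_pow, πr, πt, (hk _).mpr (memQ p)]
    clear hp ht1
    revert k
    decide +kernel
  have fs : ∀ q, φ (act (A0.r * A0.t) q) = (r * t1) * φ q * (r * t1)⁻¹ := by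
    intro q
    rw [mul_act, fr, ft]; group
  have hs2 : r * t1 * (r * t1) = 1 ∨ r * t1 * (r * t1) = z := by
    apply E.cen
    intro g hg
    obtain ⟨q, rfl⟩ := sur g hg
    have h1 : ∀ q, act (A0.r * A0.t) (act (A0.r * A0.t) q) = q := by decide +kernel
    have := congrArg φ (h1 q)
    rw [fs, fs] at this
    rw [← mul_inv_eq_iff_eq_mul, ← this]
    nth_rewrite 2 [← this]
    group
  rcases hs2 with h | h
  · left
    have tt : ∀ {i j : Fin 5}, act A0.t (Q0.a i) = Q0.a j → t1 * φ (Q0.a i) * t1⁻¹ = φ (Q0.a j) := by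
      intro i j e
      rw [← ft, e]
    obtain ⟨ψ, g0, gz, gr, gt⟩ := C0.exists_hom (a0 := a0) (a1 := a1) (a2 := a2) (a3 := a3)
      (a4 := a4) (z := z) (r := r) (t := t1) ⟨R, ⟨hr, ht13, by rw [pow_two, h]⟩, r0, r1, r2, r3, r4,
        f0 ▸ tt (by decide +kernel), f1 ▸ f4 ▸ tt (by decide +kernel), f2 ▸ tt (by decide +kernel),
        f3 ▸ f1 ▸ tt (by decide +kernel), f4 ▸ f3 ▸ tt (by decide +kernel), E.zc _, E.zc _⟩
    have ψinj : Function.Injective ψ := C0.injective (gz ▸ E.z1)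
    have hcard : Nat.card H = 1920 := by
      have h1 : π.ker = Q := by ext g; exact hk g
      rw [← π.ker.card_mul_index, index_ker, MonoidHom.range_eq_top.mpr hs, card_top, h1, E.card,
        TN.card_eq]
    refine ⟨ψ, (Nat.bijective_iff_injective_and_card ψ).mpr ⟨ψinj, by rw [card_C0, hcard]⟩, gz,
      fun c hc => ?_⟩
    have R' := C0.rel
    have e : ψ.comp C0.inl = φ := by
      have g1 : ψ C0.a1 = a1 := by rw [← R'.r0, ← r0]; simp [g0, gr]
      have g2 : ψ C0.a2 = a2 := by rw [← R'.r1, ← r1]; simp [g1, gr]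
      have g3 : ψ C0.a3 = a3 := by rw [← R'.r2, ← r2]; simp [g2, gr]
      have g4 : ψ C0.a4 = a4 := by rw [← R'.r3, ← r3]; simp [g3, gr]
      refine hom_ext_Q0 (fun i => ?_) (gz.trans fz.symm)
      fin_cases i
      exacts [g0.trans f0.symm, g1.trans f1.symm, g2.trans f2.symm, g3.trans f3.symm,
        g4.trans f4.symm]
    obtain ⟨q, hq⟩ := sur _ hc
    rw [← e] at hq
    rw [← ψinj hq]; rfl
  · right
    refine ⟨a0, fun y hy => ?_⟩
    by_cases h1 : π y = 1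
    · obtain ⟨q, rfl⟩ := sur y ((hk y).mp h1)
      have h2 : ∀ q : Q0, q * q = 1 → q = 1 ∨ q = Q0.z ∨ ∃ p : Q0, ∃ k : TN 9 5,
          q = p * act (A0.r ^ k.val) (Q0.a 0) * p⁻¹ := by decide +kernel
      rcases h2 q (inj (by rw [map_mul, hy, map_one])) with e | e | ⟨p', k', e⟩
      · left; rw [e, map_one]
      · right; left; rw [e, fz]
      · right; right
        refine ⟨memQ q, isConj_iff.mpr ⟨φ p' * r ^ k'.val, ?_⟩⟩
        rw [e]
        simp only [map_mul, map_inv, frk, f0]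
        group
    · exfalso
      have h2 : ∀ x : A0, x * x = 1 → x ≠ 1 → ∀ y : A0, y * y = 1 → y ≠ 1 →
          ∃ c, c * x * c⁻¹ = y := by decide +kernel
      obtain ⟨c, hc⟩ := h2 (π y) (by rw [← map_mul, hy, map_one]) h1 _ πs.1 πs.2
      obtain ⟨g, rfl⟩ := hs c
      obtain ⟨q, hq⟩ := sur (g * y * g⁻¹ * (r * t1)⁻¹) ((hk _).mp (by
        rw [map_mul, map_mul, map_mul, map_inv, hc, map_inv, mul_inv_cancel]))
      have h3 : ∀ q : Q0, q * act (A0.r * A0.t) q * Q0.z ≠ 1 := by decide +kernel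
      apply h3 q
      apply inj
      rw [map_mul, map_mul, fs, fz, map_one, hq, ← h]
      calc _ = g * (y * y) * g⁻¹ := by group
        _ = 1 := by rw [hy]; group

end Cfsg.H5
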