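import Cfsg.Agent.H5.J2F
import Cfsg.Agent.H5.A5Rec
import Cfsg.Agent.L0.Invert

/-!
Local analysis in a group with an involution whose centraliser is the split extension
`2^(1+4)_- : A₅`: the normaliser of a four-group.
-/

set_option autoImplicit false
set_option synthInstance.maxSize 4096
set_option maxRecDepth 100000
set_option linter.unusedSectionVars false

namespace Cfsg.H5

open Subgroup

variable {G : Type*} [Group G]

theorem split_pow {B : Type*} [Group B] (hB : ∀ b : B, (∀ c, b * c = c * b) → b = 1) {χ : B →* G}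
    (inj : Function.Injective χ) {ζ : G} (hζ : ∀ c, ζ * χ c = χ c * ζ) {b : B} {n : ℕ}
    (h : (ζ * χ b) ^ n = 1) : ζ ^ n = 1 ∧ b ^ n = 1 := by
  rw [Commute.mul_pow (hζ b), ← map_pow] at h
  have h1 : b ^ n = 1 := hB _ fun c => inj (by
    rw [map_mul, map_mul, eq_inv_of_mul_eq_one_right h]
    exact ((Commute.pow_left (hζ c) n).inv_left).eq)
  rw [h1, map_one, mul_one] at h
  exact ⟨h, h1⟩

theorem A0.center_triv : ∀ b : A0, (∀ c, b * c = c * b) → b = 1 := by decide +kernel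
theorem B0.center_triv : ∀ b : B0, (∀ c, b * c = c * b) → b = 1 := by decide +kernel

theorem uniq_u {ψ : A0 →* G} (inj : Function.Injective ψ) {ζ : G} (hζ : ∀ c, ζ * ψ c = ψ c * ζ)
    {s : A0} {y : G} (hy : y = ζ * ψ s) (h1 : y * y = 1) (h2 : y * ψ A0.t * y = (ψ A0.t)⁻¹)
    (h3 : (y * ψ A0.w) ^ 3 = 1) : y = ψ A0.u := by
  subst hy
  obtain ⟨e1, e2⟩ := split_pow A0.center_triv inj hζ (n := 2) (by rw [pow_two, h1])
  rw [mul_assoc, ← map_mul] at h3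
  obtain ⟨e3, e4⟩ := split_pow A0.center_triv inj hζ h3
  have e5 : ζ = 1 := H8.eq_one_of_pow_coprime (by norm_num) e1 e3
  subst e5
  have : ∀ s : A0, s ^ 2 = 1 → (s * A0.w) ^ 3 = 1 → s * A0.t * s = A0.t⁻¹ → s = A0.u := by
    decide +kernel
  rw [one_mul, this s e2 e4 (inj (by simpa using h2))]

theorem comm_B0 {χ : B0 →* G} {g : G} (h1 : g * χ B0.v = χ B0.v * g) (h2 : g * χ B0.x = χ B0.x * g)
    (b : B0) : g * χ b = χ b * g := by
  have := B0.eq_top ((centralizer {g}).comap χ) (mem_centralizer_singleton_iff.mpr h1.symm)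
    (mem_centralizer_singleton_iff.mpr h2.symm)
  exact (mem_centralizer_singleton_iff.mp (show b ∈ (centralizer {g}).comap χ from
    this ▸ mem_top b)).symm

/-- The recognition theorem inside a subgroup. -/
theorem rec_amb [Finite G] {K Z : Subgroup G} {χ : B0 →* G} (hχ : ∀ b, χ b ∈ K) (hZK : Z ≤ K)
    (inj : Function.Injective χ) (comm : ∀ ζ ∈ Z, ∀ b, ζ * χ b = χ b * ζ)
    (abel : ∀ ζ ∈ Z, ∀ ζ' ∈ Z, ζ * ζ' = ζ' * ζ)
    (cen : ∀ g ∈ K, g * χ B0.v = χ B0.v * g → ∃ ζ ∈ Z, ∃ b, b * b = 1 ∧ g = ζ * χ b)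
    (fus : ∀ s ∈ K, IsConj (χ B0.v) s → s * χ B0.v = χ B0.v * s → ∃ b, s = χ b)
    (h3 : ¬ 3 ∣ Nat.card Z)
    (hZ : ((∀ ζ ∈ Z, ∀ g ∈ K, ζ * g = g * ζ) ∧ Odd (Nat.card Z)) ∨ IsPGroup 2 Z) :
    (∀ g ∈ K, ∃ ζ ∈ Z, ∃ b, g = ζ * χ b) ∨ ∃ ψ : A0 →* G, Function.Injective ψ ∧ (∀ s, ψ s ∈ K) ∧
      ψ A0.w = χ B0.v ∧ ψ A0.t = χ B0.x ∧ (∀ ζ ∈ Z, ∀ s, ζ * ψ s = ψ s * ζ) ∧
      ∀ g ∈ K, ∃ ζ ∈ Z, ∃ s, g = ζ * ψ s := by
  have hc : Nat.card (Z.subgroupOf K) = Nat.card Z :=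
    Nat.card_congr (subgroupOfEquivOfLe hZK).toEquiv
  have R : RecHyp (Z.subgroupOf K) (χ.codRestrict K hχ) :=
    { inj := fun a b h => inj (congrArg Subtype.val h)
      comm := fun ζ hζ b => Subtype.ext (comm ζ hζ b)
      abel := fun ζ hζ ζ' hζ' => Subtype.ext (abel ζ hζ ζ' hζ')
      cen := fun g hg => by
        obtain ⟨ζ, hζ, b, hb, e⟩ := cen g g.2 (congrArg Subtype.val hg)
        exact ⟨⟨ζ, hZK hζ⟩, hζ, b, hb, Subtype.ext e⟩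
      fus := fun s hs hs' => by
        obtain ⟨b, e⟩ := fus s s.2 (K.subtype.map_isConj hs) (congrArg Subtype.val hs')
        exact ⟨b, Subtype.ext e⟩
      h3 := hc ▸ h3
      hZ := hZ.imp (fun h => ⟨fun ζ hζ g => Subtype.ext (h.1 ζ hζ g g.2), hc ▸ h.2⟩)
        fun h => h.of_equiv (subgroupOfEquivOfLe hZK).symm }
  rcases R.main with h | ⟨ψ, h1, h2, h3, h4, h5⟩
  · left
    intro g hg
    obtain ⟨ζ, hζ, b, e⟩ := h ⟨g, hg⟩
    exact ⟨ζ, hζ, b, congrArg Subtype.val e⟩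
  · right
    refine ⟨K.subtype.comp ψ, Subtype.val_injective.comp h1, fun s => (ψ s).2,
      congrArg Subtype.val h2, congrArg Subtype.val h3, fun ζ hζ s =>
      congrArg Subtype.val (h4 ⟨ζ, hZK hζ⟩ hζ s), fun g hg => ?_⟩
    obtain ⟨ζ, hζ, b, e⟩ := h5 ⟨g, hg⟩
    exact ⟨ζ, hζ, b, congrArg Subtype.val e⟩

/-- The centraliser of the involution is the table group. -/
structure Cfg0 (φ : C0 →* G) : Prop where
  inj : Function.Injective φ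
  cen : ∀ g, g * φ C0.z = φ C0.z * g → ∃ c, φ c = g

/-- Moreover the central involution is fused to the noncentral involutions of the extraspecial
group, but not to those outside. -/
structure Cfg (φ : C0 →* G) : Prop extends Cfg0 φ where
  fus : IsConj (φ C0.a0) (φ C0.z)
  nfus : ¬ IsConj (φ C0.w) (φ C0.z)

namespace Cfg0

variable {φ : C0 →* G} (F : Cfg0 φ)
include F

theorem z_ne : φ C0.z ≠ 1 := fun e =>
  absurd (F.inj (e.trans (map_one φ).symm)) (by decide +kernel)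

theorem w_ne : φ C0.w ≠ 1 := fun e =>
  absurd (F.inj (e.trans (map_one φ).symm)) (by decide +kernel)

theorem z_comm (c : C0) : φ c * φ C0.z = φ C0.z * φ c := by rw [← map_mul, C0.z_comm, map_mul]

theorem comm_iff {c d : C0} : φ c * φ d = φ d * φ c ↔ c * d = d * c := by
  rw [← map_mul, ← map_mul, F.inj.eq_iff]

theorem card_inf (L : Subgroup G) (p : C0 → Prop) (h : ∀ c, φ c ∈ L ↔ p c) :
    Nat.card (L ⊓ centralizer {φ C0.z} : Subgroup G) = Nat.card {c // p c} := by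
  symm
  refine Nat.card_congr (Equiv.ofBijective (fun c => ⟨φ c.1, (h _).mpr c.2,
    mem_centralizer_singleton_iff.mpr (F.z_comm _)⟩) ⟨fun a b e => ?_, fun g => ?_⟩)
  · exact Subtype.ext (F.inj (congrArg Subtype.val e))
  · obtain ⟨c, hc⟩ := F.cen g (mem_centralizer_singleton_iff.mp g.2.2)
    exact ⟨⟨c, (h c).mp (hc ▸ g.2.1)⟩, Subtype.ext hc⟩

theorem card_cen : Nat.card (centralizer {φ C0.z}) = 1920 := by
  have := F.card_inf ⊤ (fun _ => True) (by simp)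
  rw [top_inf_eq] at this
  rw [this, Nat.card_congr (Equiv.subtypeUnivEquiv fun _ => trivial), card_C0]

theorem invol_conj [Finite G] {K : Subgroup G} (hK : ∀ c, φ c ∈ K) {s : G} (hs : s ∈ K)
    (h2 : s * s = 1) : ∃ g ∈ K, ∃ c, g * s * g⁻¹ = φ c := by
  have : Fact (Nat.Prime 2) := ⟨Nat.prime_two⟩
  have hQ : IsPGroup 2 (φ.comp C0.inl).range := H8.isPGroup_iff_forall.mpr (by
    rintro _ ⟨q, rfl⟩
    have : ∀ q : Q0, q ^ 2 ^ 2 = 1 := by decide +kernel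
    exact ⟨2, by rw [← map_pow, this, map_one]⟩)
  obtain ⟨S, hS, hQS⟩ := H8.exists_isSyl_ge hQ (H := K) (by rintro _ ⟨q, rfl⟩; exact hK _)
  obtain ⟨g, hg, e⟩ := hS.exists_conj_mem hs ⟨1, by rw [pow_one, pow_two, h2]⟩
  have hz : φ C0.z ∈ S := hQS ⟨Q0.z, rfl⟩
  have : Nontrivial S := ⟨⟨1, ⟨_, hz⟩, fun e => F.z_ne (congrArg Subtype.val e).symm⟩⟩
  have := hS.isPGroup.center_nontrivial
  obtain ⟨⟨y, hy⟩, hy1⟩ := exists_ne (1 : center S)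
  have hy' : ∀ g ∈ S, g * y.1 = y.1 * g := fun g hg =>
    congrArg Subtype.val (mem_center_iff.mp hy ⟨g, hg⟩)
  obtain ⟨c, hc⟩ := F.cen y.1 (hy' _ hz).symm
  have k : ∀ i, c * C0.inl (Q0.a i) = C0.inl (Q0.a i) * c := fun i =>
    F.comm_iff.mp (by rw [hc]; exact (hy' _ (hQS ⟨Q0.a i, rfl⟩)).symm)
  rcases C0.cen_Q c (k 0) (k 1) (k 2) (k 3) with rfl | rfl
  · exact absurd (Subtype.ext (Subtype.ext (hc.symm.trans (map_one φ)))) hy1
  · obtain ⟨d, hd⟩ := F.cen _ (hc ▸ hy' _ e)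
    exact ⟨g, hg, d, hd.symm⟩

theorem invol_cases [Finite G] {K : Subgroup G} (hK : ∀ c, φ c ∈ K) {s : G} (hs : s ∈ K)
    (h2 : s * s = 1) (h1 : s ≠ 1) : ∃ g ∈ K, g * s * g⁻¹ = φ C0.z ∨ g * s * g⁻¹ = φ C0.a0 ∨
      g * s * g⁻¹ = φ C0.w := by
  obtain ⟨g, hg, c, e⟩ := F.invol_conj hK hs h2
  have hc : c * c = 1 := F.inj (by rw [map_mul, ← e, conj_mul, h2]; simp)
  rcases C0.cls c hc with ⟨-, rfl | rfl | ⟨k, hk⟩⟩ | ⟨-, k, hk⟩
  · exact absurd (by simpa using e) h1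
  · exact ⟨g, hg, Or.inl e⟩
  · exact ⟨φ k * g, K.mul_mem (hK k) hg, Or.inr (Or.inl (by
      rw [← hk, map_mul, map_mul, map_inv, ← e]; group))⟩
  · exact ⟨φ k * g, K.mul_mem (hK k) hg, Or.inr (Or.inr (by
      rw [← hk, map_mul, map_mul, map_inv, ← e]; group))⟩

theorem w_type {c : C0} (h : c * c = 1) (hs : c.s ≠ 1) : IsConj (φ C0.w) (φ c) := by
  rcases C0.cls c h with ⟨h1, -⟩ | ⟨-, k, hk⟩
  · exact absurd h1 hs
  · exact (φ.map_isConj (isConj_iff.mpr ⟨k, hk⟩)).symm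

end Cfg0

namespace Cfg

variable {φ : C0 →* G} (F : Cfg φ)
include F

theorem z_type {c : C0} (h : c * c = 1) (h1 : c ≠ 1) (hs : c.s = 1) : IsConj (φ C0.z) (φ c) := by
  rcases C0.cls c h with ⟨-, rfl | rfl | ⟨k, hk⟩⟩ | ⟨h2, -⟩
  · exact absurd rfl h1
  · exact IsConj.refl _
  · exact ((φ.map_isConj (isConj_iff.mpr ⟨k, hk⟩)).trans F.fus).symm
  · exact absurd hs h2

theorem zz : φ C0.z * φ C0.z = 1 := by rw [← map_mul, C0.rel2.hN.zz, map_one]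
theorem ww : φ C0.w * φ C0.w = 1 := by rw [← map_mul, C0.rel2.hN.ww, map_one]

theorem of_z_type {c : C0} (h : IsConj (φ C0.z) (φ c)) : c * c = 1 ∧ c ≠ 1 ∧ c.s = 1 := by
  have h1 : c * c = 1 := F.inj (by rw [map_mul, map_one]; exact sq_of_isConj F.zz h)
  refine ⟨h1, fun e => ne_one_of_isConj F.z_ne h (by rw [e, map_one]), ?_⟩
  by_contra hs
  exact F.nfus ((F.w_type h1 hs).trans h.symm)

theorem of_w_type {c : C0} (h : IsConj (φ C0.w) (φ c)) : c * c = 1 ∧ c.s ≠ 1 := by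
  have h1 : c * c = 1 := F.inj (by rw [map_mul, map_one]; exact sq_of_isConj F.ww h)
  refine ⟨h1, fun hs => F.nfus (h.trans (F.z_type h1 (fun e => ?_) hs).symm)⟩
  exact ne_one_of_isConj F.w_ne h (by rw [e, map_one])

theorem two_classes [Finite G] {s : G} (h2 : s * s = 1) (h1 : s ≠ 1) :
    IsConj (φ C0.z) s ∨ IsConj (φ C0.w) s := by
  obtain ⟨g, -, h | h | h⟩ := F.invol_cases (K := ⊤) (fun _ => mem_top _) (mem_top s) h2 h1
  · exact Or.inl (isConj_iff.mpr ⟨g, h⟩).symm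
  · exact Or.inl ((isConj_iff.mpr ⟨g, h⟩).trans F.fus).symm
  · exact Or.inr (isConj_iff.mpr ⟨g, h⟩).symm

theorem a_ne_z : φ C0.a0 ≠ φ C0.z := fun e => absurd (F.inj e) (by decide +kernel)

theorem normD {h : G} (hz : h * φ C0.z * h⁻¹ = φ C0.a0) (ha : h * φ C0.a0 * h⁻¹ = φ C0.a0 * φ C0.z)
    {d : C0} (hd : d * C0.a0 = C0.a0 * d) :
    ∃ d', d' * C0.a0 = C0.a0 * d' ∧ h * φ d * h⁻¹ = φ d' := by
  have N := C0.rel2.hN.map φ
  have h1 : h * φ d * h⁻¹ * φ C0.a0 = φ C0.a0 * (h * φ d * h⁻¹) := by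
    rw [← hz, conj_mul, conj_mul, F.z_comm]
  have h2 : h * φ d * h⁻¹ * (φ C0.a0 * φ C0.z) = φ C0.a0 * φ C0.z * (h * φ d * h⁻¹) := by
    rw [← ha, conj_mul, conj_mul, F.comm_iff.mpr hd]
  obtain ⟨c, hc⟩ := F.cen (h * φ d * h⁻¹) (by
    rw [← mul_assoc, h1, mul_assoc (φ C0.a0), mul_assoc (φ C0.a0)] at h2
    exact mul_left_cancel h2)
  exact ⟨c, F.comm_iff.mp (by rw [hc, h1]), hc.symm⟩

theorem exists_x0 : ∃ x, PX0.Rel (φ C0.a0) (φ C0.a2) (φ C0.z) (φ C0.w) (φ C0.t) x := by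
  have N := C0.rel2.hN.map φ
  have ab : φ C0.a2 * φ C0.a0 * (φ C0.a2)⁻¹ = φ C0.a0 * φ C0.z := by
    rw [← map_inv, ← map_mul, ← map_mul, ← map_mul]; congr 1
  obtain ⟨g, hg⟩ := isConj_iff.mp F.fus
  obtain ⟨c, hc⟩ := F.cen (g * φ C0.z * g⁻¹) (by
    nth_rewrite 2 3 [← hg]
    rw [conj_mul, conj_mul, N.za])
  obtain ⟨c1, c2, c3⟩ := F.of_z_type (c := c) (isConj_iff.mpr ⟨g, hc.symm⟩)
  obtain ⟨h, hz, ha⟩ : ∃ h : G, h * φ C0.z * h⁻¹ = φ C0.a0 ∧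
      h * φ C0.a0 * h⁻¹ = φ C0.a0 * φ C0.z := by
    rcases C0.cls c c1 with ⟨-, rfl | rfl | ⟨k, hk⟩⟩ | ⟨h2, -⟩
    · exact absurd rfl c2
    · exact absurd (by simpa using hg.trans hc) F.a_ne_z
    · have e1 : φ k * g * φ C0.z * (φ k * g)⁻¹ = φ C0.a0 := by
        rw [← hk, map_mul, map_mul, map_inv, hc]; group
      have e2 : φ k * g * φ C0.a0 * (φ k * g)⁻¹ = φ C0.z := by
        calc _ = φ k * (g * φ C0.a0 * g⁻¹) * (φ k)⁻¹ := by group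
          _ = _ := by rw [hg, F.z_comm, mul_inv_cancel_right]
      refine ⟨φ k * g * φ C0.a2, ?_, ?_⟩
      · rw [← e1, mul_assoc _ (φ C0.a2), F.z_comm]; group
      · calc _ = φ k * g * (φ C0.a2 * φ C0.a0 * (φ C0.a2)⁻¹) * (φ k * g)⁻¹ := by group
          _ = _ := by rw [ab, ← conj_mul, e1, e2, N.za]
    · exact absurd c3 h2
  obtain ⟨h, hz, ha, ht⟩ : ∃ h : G, h * φ C0.z * h⁻¹ = φ C0.a0 ∧
      h * φ C0.a0 * h⁻¹ = φ C0.a0 * φ C0.z ∧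
      (h * φ C0.t * h⁻¹ = φ C0.t ∨ h * φ C0.t * h⁻¹ = (φ C0.t)⁻¹) := by
    obtain ⟨d, d1, d2⟩ := F.normD hz ha C0.rel2.hN.ta
    obtain ⟨e, e1, e2⟩ := C0.f3 d d1 (F.inj (by rw [map_pow, ← d2, conj_pow, N.t3]; simp))
      (fun e => by
        rw [e, map_one, conj_eq_one_iff] at d2
        exact absurd (F.inj (d2.trans (map_one φ).symm)) (by decide +kernel))
    have e3 : φ e * φ C0.a0 * (φ e)⁻¹ = φ C0.a0 := by
      rw [F.comm_iff.mpr e1, mul_inv_cancel_right]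
    have e4 : ∀ y, φ e * h * y * (φ e * h)⁻¹ = φ e * (h * y * h⁻¹) * (φ e)⁻¹ := fun y => by group
    refine ⟨φ e * h, by rw [e4, hz, e3], by
      rw [e4, ha, ← conj_mul, e3, F.z_comm, mul_inv_cancel_right], ?_⟩
    rw [e4, d2, ← map_inv, ← map_inv, ← map_mul, ← map_mul]
    exact e2.imp (congrArg φ) (congrArg φ)
  -- the action on the four-groups normalised by `t`
  have key : ∀ d : C0, d * d = 1 → d.s ≠ 1 → d * C0.a0 = C0.a0 * d → (C0.t * d) ^ 3 = 1 →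
      ∃ i : TN 9 3, h * φ d * h⁻¹ = φ (C0.t ^ i.val * C0.w * (C0.t ^ i.val)⁻¹) ∨
        h * φ d * h⁻¹ = φ (C0.t ^ i.val * (C0.a2 * C0.w * C0.a2⁻¹) * (C0.t ^ i.val)⁻¹) := by
    intro d d1 d2 d3 d4
    obtain ⟨d', e1, e2⟩ := F.normD hz ha d3
    obtain ⟨e3, e4⟩ := F.of_w_type (c := d') ((F.w_type d1 d2).trans (isConj_iff.mpr ⟨h, e2⟩))
    have e5 : (h * φ C0.t * h⁻¹ * φ d') ^ 3 = 1 := by
      rw [← e2, conj_mul, conj_pow, ← map_mul, ← map_pow, d4]; simp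
    obtain ⟨i, hi⟩ := C0.f4 d' e3 e4 e1 (ht.imp
      (fun e => F.inj (by rw [e] at e5; simpa using e5))
      (fun e => F.inj (by rw [e] at e5; simpa using e5)))
    exact ⟨i, by rw [e2]; exact hi.imp (congrArg φ) (congrArg φ)⟩
  have tp : ∀ n : ℕ, ∃ m : ℤ, h * φ C0.t ^ n * h⁻¹ = φ C0.t ^ m := by
    intro n
    rw [← conj_pow]
    rcases ht with e | e <;> rw [e]
    · exact ⟨n, by simp⟩
    · exact ⟨-n, by simp⟩
  have step : ∀ {y y' : G} (i j : ℕ), h * y * h⁻¹ = φ C0.t ^ j * y' * (φ C0.t ^ j)⁻¹ →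
      ∃ m : ℤ, h * (φ C0.t ^ i * y * (φ C0.t ^ i)⁻¹) * h⁻¹ = φ C0.t ^ m * y' * (φ C0.t ^ m)⁻¹ := by
    intro y y' i j e
    obtain ⟨m, hm⟩ := tp i
    refine ⟨m + j, ?_⟩
    calc _ = (h * φ C0.t ^ i * h⁻¹) * (h * y * h⁻¹) * (h * φ C0.t ^ i * h⁻¹)⁻¹ := by group
      _ = _ := by rw [hm, e]; group
  obtain ⟨m, hm⟩ : ∃ m : ℤ, h * (h * φ C0.w * h⁻¹) * h⁻¹ = φ C0.t ^ m * φ C0.w * (φ C0.t ^ m)⁻¹ := by
    obtain ⟨i, hi | hi⟩ := key C0.w (by decide +kernel) (by decide +kernel) (by decide +kernel)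
      (by decide +kernel)
    · simp only [map_mul, map_inv, map_pow] at hi
      nth_rewrite 1 [hi]
      exact step _ _ hi
    · obtain ⟨j, hj | hj⟩ := key (C0.a2 * C0.w * C0.a2⁻¹) (by decide +kernel) (by decide +kernel)
        (by decide +kernel) (by decide +kernel)
      · rw [map_mul _ _ (C0.t ^ _)⁻¹, map_mul _ (C0.t ^ _), map_inv, map_pow] at hi hj
        rw [hi]
        exact step _ _ hj
      · exfalso
        have e := congrArg φ (C0.f4' i j)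
        rw [map_mul, map_mul _ (C0.t ^ j.val * _ * _), ← hi, ← hj, conj_mul, conj_mul] at e
        exact absurd (F.comm_iff.mp (mul_left_cancel (mul_right_cancel e))) (by decide +kernel)
  have t2 : h * (h * φ C0.t * h⁻¹) * h⁻¹ = φ C0.t := by
    rcases ht with e | e
    · rw [e, e]
    · rw [e, ← conj_inv, e, inv_inv]
  have t2' : ∀ n : ℤ, h * (h * φ C0.t ^ n * h⁻¹) * h⁻¹ = φ C0.t ^ n := by
    intro n; rw [← conj_zpow, ← conj_zpow, t2]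
  have az : h * (φ C0.a0 * φ C0.z) * h⁻¹ = φ C0.z := by
    rw [← conj_mul, ha, hz, ← N.za, mul_assoc, N.aa, mul_one]
  obtain ⟨x, hx⟩ : ∃ x, x = (φ C0.t ^ (2 * m))⁻¹ * (h * h * h * h) := ⟨_, rfl⟩
  have cx : ∀ y, x * y * x⁻¹ = (φ C0.t ^ (2 * m))⁻¹ * (h * (h * (h * (h * y * h⁻¹) * h⁻¹) * h⁻¹) * h⁻¹) *
      φ C0.t ^ (2 * m) := fun y => by rw [hx]; group
  have tz : ∀ y, φ C0.t * y = y * φ C0.t → (φ C0.t ^ (2 * m))⁻¹ * y * φ C0.t ^ (2 * m) = y := by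
    intro y e
    rw [mul_assoc, ← (Commute.zpow_left e (2 * m)).eq, inv_mul_cancel_left]
  have xt : x * φ C0.t * x⁻¹ = φ C0.t := by rw [cx, t2, t2, tz _ rfl]
  have xz : x * φ C0.z * x⁻¹ = φ C0.a0 := by rw [cx, hz, ha, az, hz, tz _ N.ta]
  have xa : x * φ C0.a0 * x⁻¹ = φ C0.a0 * φ C0.z := by
    rw [cx, ha, az, hz, ha, tz _ (by rw [← mul_assoc, N.ta, mul_assoc, ← N.zt, mul_assoc])]
  have xw : x * φ C0.w * x⁻¹ = φ C0.w := by
    rw [cx, hm]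
    calc _ = (φ C0.t ^ (2 * m))⁻¹ * ((h * (h * φ C0.t ^ m * h⁻¹) * h⁻¹) *
          (h * (h * φ C0.w * h⁻¹) * h⁻¹) * (h * (h * φ C0.t ^ m * h⁻¹) * h⁻¹)⁻¹) *
          φ C0.t ^ (2 * m) := by group
      _ = _ := by rw [t2', hm]; group
  have xaz : x * (φ C0.a0 * φ C0.z) * x⁻¹ = φ C0.z := by
    rw [← conj_mul, xa, xz, ← N.za, mul_assoc, N.aa, mul_one]
  have c3' : ∀ y, x ^ 3 * y * (x ^ 3)⁻¹ = x * (x * (x * y * x⁻¹) * x⁻¹) * x⁻¹ := fun y => by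
    simp [pow_succ, mul_assoc]
  obtain ⟨d, hd⟩ := F.cen (x ^ 3) (mul_inv_eq_iff_eq_mul.mp (by rw [c3', xz, xa, xaz]))
  have hd' : x * φ d * x⁻¹ = φ d := by rw [hd]; group
  have x3 : x ^ 3 = 1 := by
    rcases C0.f5 d (F.comm_iff.mp (mul_inv_eq_iff_eq_mul.mp (by rw [hd, c3', xa, xaz, xz])))
      (F.comm_iff.mp (mul_inv_eq_iff_eq_mul.mp (by rw [hd, c3', xt, xt, xt])))
      (F.comm_iff.mp (mul_inv_eq_iff_eq_mul.mp (by rw [hd, c3', xw, xw, xw]))) with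
      rfl | rfl | rfl | rfl
    · rw [← hd, map_one]
    · exact absurd (xz.symm.trans hd') F.a_ne_z
    · exact absurd (by simpa using xa.symm.trans hd') F.z_ne
    · rw [map_mul, xaz, ← map_mul] at hd'
      exact absurd (F.inj hd') (by decide +kernel)
  exact ⟨x, N, x3, mul_inv_eq_iff_eq_mul.mp xt, mul_inv_eq_iff_eq_mul.mp xw, xz, xa⟩

theorem exists_x : ∃ x, PX0.Rel (φ C0.a0) (φ C0.a2) (φ C0.z) (φ C0.w) (φ C0.t) x ∧
    (φ C0.a2 * x) ^ 2 = φ C0.t := by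
  obtain ⟨x, X⟩ := F.exists_x0
  obtain ⟨d, hd⟩ := F.cen _ (PX0.bxz X)
  obtain ⟨j, hj⟩ := C0.f6 d (F.comm_iff.mp (hd ▸ PX0.bxa X)) (F.comm_iff.mp (hd ▸ PX0.bxt X))
  rcases hj with rfl | rfl | rfl | rfl
  · exact PX0.normalize X F.z_ne (Or.inl rfl) j.lt (by rw [← hd]; simp)
  · exact PX0.normalize X F.z_ne (Or.inr (Or.inl rfl)) j.lt (by rw [← hd]; simp)
  · exact PX0.normalize X F.z_ne (Or.inr (Or.inr (Or.inl rfl))) j.lt (by rw [← hd]; simp)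
  · exact PX0.normalize X F.z_ne (Or.inr (Or.inr (Or.inr rfl))) j.lt (by rw [← hd]; simp)

end Cfg

end Cfsg.H5
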