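import Cfsg.Agent.H5.J2B

/-!
Local analysis, continued: the centraliser of a noncentral involution.
-/

set_option autoImplicit false
set_option synthInstance.maxSize 4096
set_option maxRecDepth 100000
set_option linter.unusedSectionVars false

namespace Cfsg.H5

open Subgroup

variable {G : Type*} [Group G]

namespace Cfg

variable {φ : C0 →* G} (F : Cfg φ)
include F

theorem thA_eq (y : C0) (h : ∀ s, s * s = 1 → s * φ y = φ y * s → ∃ c, φ c = s) (hy : y * y = 1) :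
    thA (φ C0.z) (φ C0.w) (φ y) = Nat.card {p // C0.ThP y p} := by
  unfold thA
  symm
  refine Nat.card_congr (Equiv.ofBijective (fun p => ⟨(φ (C0.inl p.1.1), φ p.1.2),
    F.z_type (by rw [← map_mul, p.2.1.1, map_one]) (fun e => p.2.1.2 (congrArg C0.q e)) rfl,
    F.w_type p.2.2.1 p.2.2.2.1, by
      obtain ⟨k, hk⟩ := p.2.2.2.2
      have := congrArg φ hk
      rw [map_pow, map_mul] at this
      rw [← this]
      exact npow_mem_zpowers _ _⟩) ⟨fun a b e => ?_, ?_⟩)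
  · have e' := congrArg Subtype.val e
    exact Subtype.ext (Prod.ext (congrArg C0.q (F.inj (congrArg Prod.fst e')))
      (F.inj (congrArg Prod.snd e')))
  · rintro ⟨⟨s, s'⟩, h1, h2, h3⟩
    have q1 := sq_of_isConj F.zz h1
    have q2 := sq_of_isConj F.ww h2
    have yi : (φ y)⁻¹ = φ y := inv_eq_of_mul_eq_one_right (by rw [← map_mul, hy, map_one])
    have c1 := L0.inverts_of_mem_zpowers (L0.inverts_mul_left q1 q2) h3
    have c2 := L0.inverts_of_mem_zpowers (L0.inverts_mul_right q1 q2) h3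
    rw [yi, mul_inv_eq_iff_eq_mul] at c1 c2
    obtain ⟨c, rfl⟩ := h s q1 c1
    obtain ⟨c', rfl⟩ := h s' q2 c2
    obtain ⟨a1, a2, a3⟩ := F.of_z_type h1
    obtain ⟨b1, b2⟩ := F.of_w_type h2
    obtain ⟨q, s⟩ := c
    obtain rfl : s = 1 := a3
    have a4 : q * q = 1 := congrArg C0.q (show C0.inl (q * q) = 1 by rw [map_mul]; exact a1)
    have h8 := C0.pow8 q a4 c' b1
    obtain ⟨k, hk, e⟩ := (mem_zpowers_iff_lt (n := 8) (by norm_num) (by
      show (φ (C0.inl q) * φ c') ^ 8 = 1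
      rw [← map_mul, ← map_pow, h8, map_one])).mp h3
    refine ⟨⟨(q, c'), ⟨a4, fun e => a2 (by rw [show q = 1 from e]; rfl)⟩, b1, b2, ⟨k, hk⟩,
      F.inj ?_⟩, rfl⟩
    rw [map_pow, map_mul]
    exact e

theorem thA_z : thA (φ C0.z) (φ C0.w) (φ C0.z) = 960 := by
  rw [F.thA_eq C0.z (fun s _ h => F.cen s h) C0.rel2.hN.zz, C0.card_ThP_z]

variable [Finite G]

theorem not_small (h48 : Nat.card (centralizer {φ C0.w}) = 48)
    (hinv : ∀ s, s * s = 1 → s * φ C0.w = φ C0.w * s → ∃ c, φ c = s) : False := by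
  have i2 : Fact (Nat.Prime 2) := ⟨Nat.prime_two⟩
  have i3 : Fact (Nat.Prime 3) := ⟨Nat.prime_three⟩
  have i5 : Fact (Nat.Prime 5) := ⟨by norm_num⟩
  have hG := thompson_formula F.zz F.z_ne F.ww F.w_ne F.nfus fun y h1 h2 => F.two_classes h1 h2
  rw [F.thA_z, F.thA_eq C0.w hinv C0.rel2.hN.ww, C0.card_ThP_w, h48, F.card_cen] at hG
  set r := φ C0.r with hr
  set z := φ C0.z with hz
  have r5 : r ^ 5 = 1 := by rw [hr, ← map_pow, C0.rel2.r5, map_one]
  have r1 : r ≠ 1 := fun e => absurd (F.inj (e.trans (map_one φ).symm)) (by decide +kernel)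
  have or5 : orderOf r = 5 := orderOf_eq_prime r5 r1
  have oz : orderOf z = 2 := orderOf_eq_prime (by rw [pow_two]; exact F.zz) F.z_ne
  have zr : z ∈ centralizer {r} := mem_centralizer_singleton_iff.mpr (F.z_comm _).symm
  have c10 : Nat.card (centralizer {r} ⊓ centralizer {z} : Subgroup G) = 10 := by
    rw [F.card_inf _ (fun c => c * C0.r = C0.r * c)
      (fun c => mem_centralizer_singleton_iff.trans F.comm_iff), C0.card_cen_r]
  have nor : ∀ g, g ∈ normalizer (zpowers r : Set G) ↔ g * r * g⁻¹ ∈ zpowers r := fun g =>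
    ⟨fun h => H8.conj_mem_of_mem_normalizer h (mem_zpowers r), fun h =>
      H8.mem_normalizer_of_forall (by
        rintro _ ⟨k, rfl⟩
        show g * r ^ k * g⁻¹ ∈ _
        rw [← conj_zpow]; exact zpow_mem h k)⟩
  have c20 : Nat.card (normalizer (zpowers r : Set G) ⊓ centralizer {z} : Subgroup G) = 20 := by
    rw [F.card_inf _ (fun c => ∃ k : TN 9 5, C0.r ^ k.val = c * C0.r * c⁻¹), C0.card_nor_r]
    intro c
    rw [nor, mem_zpowers_iff_lt (by norm_num) r5]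
    constructor
    · rintro ⟨k, hk, e⟩
      exact ⟨⟨k, hk⟩, F.inj (by simpa using e)⟩
    · rintro ⟨k, e⟩
      exact ⟨k.val, k.lt, by simpa using congrArg φ e⟩
  have norC : ∀ g ∈ normalizer (zpowers r : Set G), ∀ y ∈ centralizer {r},
      g * y * g⁻¹ ∈ centralizer {r} := by
    intro g hg y hy
    obtain ⟨k, hk⟩ := (nor _).mp (inv_mem hg)
    have hk' : r ^ k = g⁻¹ * r * g⁻¹⁻¹ := hk
    have h1 := (Commute.zpow_right (mem_centralizer_singleton_iff.mp hy) k).eq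
    rw [mem_centralizer_singleton_iff]
    calc _ = g * (y * (g⁻¹ * r * g⁻¹⁻¹)) * g⁻¹ := by group
      _ = _ := by rw [← hk', h1, hk']; group
  have syl2 : H8.IsSyl 2 (zpowers z) (centralizer {r}) := by
    apply H8.IsSyl.of_normalizer
    have e : centralizer {r} ⊓ normalizer (zpowers z : Set G) = centralizer {r} ⊓ centralizer {z} := by
      congr 1
      ext g
      rw [mem_centralizer_singleton_iff]
      constructor
      · intro h
        obtain ⟨k, hk, e⟩ := (mem_zpowers_iff_lt (n := 2) (by norm_num)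
          (by rw [pow_two]; exact F.zz)).mp (H8.conj_mem_of_mem_normalizer h (mem_zpowers z))
        interval_cases k
        · exact absurd (by simpa using e.symm) F.z_ne
        · rw [pow_one] at e; exact mul_inv_eq_iff_eq_mul.mp e.symm
      · intro h
        refine H8.mem_normalizer_of_forall ?_
        rintro _ ⟨k, rfl⟩
        show g * z ^ k * g⁻¹ ∈ _
        rw [(Commute.zpow_right h k).eq, mul_inv_cancel_right]
        exact zpow_mem_zpowers z k
    rw [e]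
    have hle : zpowers z ≤ centralizer {r} ⊓ centralizer {z} :=
      zpowers_le.mpr ⟨zr, mem_centralizer_singleton_iff.mpr rfl⟩
    refine ⟨hle, H8.isPGroup_zpowers (k := 1) (by rw [pow_one, pow_two]; exact F.zz), ?_⟩
    have := H8.card_mul_relIndex hle
    rw [c10, Nat.card_zpowers, oz] at this
    omega
  have o1 := H3.ncard_conj_mul_card (centralizer {r}) z
  have o2 := H3.ncard_conj_mul_card (normalizer (zpowers r : Set G)) z
  have same : {x | ∃ h ∈ normalizer (zpowers r : Set G), h * z * h⁻¹ = x} =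
      {x | ∃ h ∈ centralizer {r}, h * z * h⁻¹ = x} := by
    ext y
    constructor
    · rintro ⟨g, hg, rfl⟩
      obtain ⟨k, hk, e⟩ := syl2.exists_conj_mem (norC g hg z zr)
        ⟨1, by rw [pow_one, pow_two, conj_mul, F.zz]; simp⟩
      obtain ⟨j, hj, e'⟩ := (mem_zpowers_iff_lt (n := 2) (by norm_num)
        (by rw [pow_two]; exact F.zz)).mp e
      interval_cases j
      · exact absurd (by simpa using e'.symm) F.z_ne
      · refine ⟨k⁻¹, inv_mem hk, ?_⟩
        rw [pow_one] at e'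
        nth_rewrite 1 [e']; group
    · rintro ⟨g, hg, rfl⟩
      refine ⟨g, (nor g).mpr ?_, rfl⟩
      rw [mem_centralizer_singleton_iff.mp hg, mul_inv_cancel_right]
      exact mem_zpowers r
  rw [same, c20] at o2
  rw [c10] at o1
  generalize {x | ∃ h ∈ centralizer {r}, h * z * h⁻¹ = x}.ncard = m at o1 o2
  have modd : ¬ 2 ∣ m := by
    have h1 := H8.card_mul_relIndex syl2.le
    have h2 := syl2.not_dvd
    rw [Nat.card_zpowers, oz, ← o1] at h1
    omega
  have syl5 : H8.IsSyl 5 (zpowers r) ⊤ := by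
    refine ⟨le_top, H8.isPGroup_zpowers (k := 1) (by rw [pow_one, r5]), ?_⟩
    have := H8.card_mul_relIndex (le_top (a := zpowers r))
    rw [card_top, hG, Nat.card_zpowers, or5] at this
    omega
  have n5 := card_sylow_modEq_one 5 G
  rw [Sylow.card_eq_index_normalizer syl5.toSylowTop] at n5
  have e5 : (syl5.toSylowTop : Set G) = (zpowers r : Set G) :=
    congrArg SetLike.coe syl5.coe_toSylowTop
  rw [e5] at n5
  have o3 := card_mul_index (normalizer (zpowers r : Set G))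
  rw [← o2, hG] at o3
  generalize (normalizer (zpowers r : Set G)).index = n at n5 o3
  have m27 : m = 27 := by
    have h1 : m ∣ 32 * 3 ^ 4 := ⟨n, by linarith⟩
    have h2 : m ∣ 3 ^ 4 := (Nat.Coprime.pow_right 5 (Nat.coprime_two_right.mpr
      (Nat.odd_iff.mpr (by omega)))).dvd_of_dvd_mul_left h1
    obtain ⟨k, hk, e⟩ := (Nat.dvd_prime_pow Nat.prime_three).mp h2
    unfold Nat.ModEq at n5
    subst e
    interval_cases k <;> omega
  subst m27
  -- the Sylow 3-subgroup of the centraliser of `r`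
  obtain ⟨P⟩ : Nonempty (Sylow 3 (centralizer {r} : Subgroup G)) := inferInstance
  have cP : Nat.card P = 27 := by
    rw [Sylow.card_eq_multiplicity, ← o1]
    decide +kernel
  have Pn : (P : Subgroup (centralizer {r} : Subgroup G)).Normal := by
    rw [← normalizer_eq_top_iff, ← index_eq_one]
    have h1 := card_sylow_modEq_one 3 (centralizer {r} : Subgroup G)
    rw [Sylow.card_eq_index_normalizer P] at h1
    have h2 := card_mul_index (normalizer ((P : Subgroup (centralizer {r} : Subgroup G)) :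
      Set (centralizer {r} : Subgroup G)))
    have h3 := card_dvd_of_le (le_normalizer (H := (P : Subgroup (centralizer {r} : Subgroup G))))
    have h4 : 5 ∣ Nat.card (normalizer ((P : Subgroup (centralizer {r} : Subgroup G)) :
        Set (centralizer {r} : Subgroup G))) := by
      have h5 : (⟨r, mem_centralizer_singleton_iff.mpr rfl⟩ : (centralizer {r} : Subgroup G)) ∈
          normalizer ((P : Subgroup (centralizer {r} : Subgroup G)) :
            Set (centralizer {r} : Subgroup G)) := center_le_normalizer _ (mem_center_iff.mpr fun g =>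
              Subtype.ext (mem_centralizer_singleton_iff.mp g.2))
      have := Subgroup.orderOf_dvd_natCard _ h5
      rwa [← Subgroup.orderOf_coe, or5] at this
    rw [cP] at h3
    have h6 := Nat.Coprime.mul_dvd_of_dvd_of_dvd (by norm_num) h3 h4
    rw [← o1] at h2
    obtain ⟨c, hc⟩ := h6
    rw [hc] at h2
    generalize (normalizer ((P : Subgroup (centralizer {r} : Subgroup G)) :
      Set (centralizer {r} : Subgroup G))).index = i at h1 h2
    have h7 : i ∣ 2 := ⟨c, by linarith⟩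
    have := Nat.le_of_dvd (by norm_num) h7
    unfold Nat.ModEq at h1
    omega
  have sylP := H8.isSyl_map_subtype P
  set P' := (P : Subgroup (centralizer {r} : Subgroup G)).map (centralizer {r}).subtype with hP'
  have cP' : Nat.card P' = 27 := by rw [hP', card_map_of_injective (subtype_injective _), cP]
  have p27 : ∀ u ∈ P', u ^ 27 = 1 := fun u hu =>
    congrArg Subtype.val (cP' ▸ pow_card_eq_one' (G := P') (x := ⟨u, hu⟩))
  have norP : ∀ g ∈ normalizer (zpowers r : Set G), ∀ u ∈ P', g * u * g⁻¹ ∈ P' := by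
    intro g hg u hu
    refine sylP.mem_of_mem_normalizer (norC g hg u (sylP.le hu))
      ⟨3, by rw [conj_pow, show 3 ^ 3 = 27 by norm_num, p27 u hu]; simp⟩ ?_
    refine H8.mem_normalizer_of_forall ?_
    rintro _ ⟨v, hv, rfl⟩
    exact ⟨⟨_, norC g hg u (sylP.le hu)⟩ * v * ⟨_, norC g hg u (sylP.le hu)⟩⁻¹,
      Pn.conj_mem v hv _, rfl⟩
  have zN : z ∈ normalizer (zpowers r : Set G) := (nor z).mpr (by
    rw [← F.z_comm, mul_inv_cancel_right]; exact mem_zpowers r)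
  have inv := L0.inverts_of_fpf (K := P') (z := z) (H8.mem_normalizer_of_forall (norP z zN))
    (fun u _ => by rw [F.zz]; simp) (fun u hu h => by
      obtain ⟨c, rfl⟩ := F.cen u h.symm
      refine H8.eq_one_of_pow_coprime (m := 10) (n := 27) (by norm_num) ?_ (p27 _ hu)
      rw [← map_pow, C0.cen_r_pow c (F.comm_iff.mp (mem_centralizer_singleton_iff.mp (sylP.le hu))),
        map_one])
  have cm := L0.comm_of_inverts inv
  set s := φ C0.s0 with hs
  have ss : s * s = 1 := by rw [hs, ← map_mul, ← map_one φ]; congr 1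
  have sN : s ∈ normalizer (zpowers r : Set G) := (nor s).mpr (by
    have : s * r * s⁻¹ = r⁻¹ := by
      rw [hs, hr, ← map_inv, ← map_inv, ← map_mul, ← map_mul]; congr 1
    rw [this]; exact inv_mem (mem_zpowers r))
  have small : ∀ y, IsConj (φ C0.w) y → Nat.card (P' ⊓ centralizer {y} : Subgroup G) ≤ 3 := by
    intro y hy
    obtain ⟨g, rfl⟩ := isConj_iff.mp hy
    have h1 := card_dvd_of_le (inf_le_left (a := P') (b := centralizer {g * φ C0.w * g⁻¹}))
    have h2 := card_dvd_of_le (inf_le_right (a := P') (b := centralizer {g * φ C0.w * g⁻¹}))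
    rw [cP'] at h1
    have h3 : Nat.card (centralizer {g * φ C0.w * g⁻¹}) = 48 := by
      rw [H3.centralizer_conj, card_map_of_injective (MulAut.conj g).injective, h48]
    rw [h3] at h2
    exact Nat.le_of_dvd (by norm_num) (Nat.dvd_gcd h1 h2)
  have s1 := small s (F.w_type (by decide +kernel) (by decide +kernel))
  have s2 := small (s * z) (by
    rw [hs, hz, ← map_mul]; exact F.w_type (by decide +kernel) (by decide +kernel))
  have s3 : ∀ u, s * (s * u * s⁻¹) * s⁻¹ = u := fun u => by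
    calc _ = (s * s) * u * (s * s)⁻¹ := by group
      _ = u := by rw [ss]; group
  let f : P' → (P' ⊓ centralizer {s} : Subgroup G) × (P' ⊓ centralizer {s * z} : Subgroup G) :=
    fun u => (⟨u * (s * u * s⁻¹), mul_mem u.2 (norP s sN u u.2), mem_centralizer_singleton_iff.mpr (by
      symm
      rw [← mul_inv_eq_iff_eq_mul, ← conj_mul, s3, cm _ u.2 _ (norP s sN u u.2)])⟩,
      ⟨u * (s * u * s⁻¹)⁻¹, P'.mul_mem u.2 (P'.inv_mem (norP s sN u u.2)),
        mem_centralizer_singleton_iff.mpr (by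
      symm
      rw [← mul_inv_eq_iff_eq_mul]
      calc _ = s * (z * (u * (s * u * s⁻¹)⁻¹) * z⁻¹) * s⁻¹ := by group
        _ = (s * (s * u * s⁻¹) * s⁻¹) * (s * u * s⁻¹)⁻¹ := by
          rw [inv _ (mul_mem u.2 (inv_mem (norP s sN u u.2)))]; group
        _ = _ := by rw [s3])⟩)
  have hf : Function.Injective f := by
    intro u v e
    have e1 : u.1 * (s * u * s⁻¹) = v * (s * v * s⁻¹) := congrArg (fun p => p.1.1) e
    have e2 : u.1 * (s * u * s⁻¹)⁻¹ = v * (s * v * s⁻¹)⁻¹ := congrArg (fun p => p.2.1) e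
    have e3 : ∀ u : P', u.1 * (s * u * s⁻¹) * (u.1 * (s * u * s⁻¹)⁻¹) = u.1 ^ 2 := fun u => by
      rw [mul_assoc, ← mul_assoc (s * u * s⁻¹), ← cm _ u.2 _ (norP s sN u u.2), pow_two]; group
    have e4 : u.1 ^ 2 = v.1 ^ 2 := by rw [← e3, ← e3, e1, e2]
    have e5 : ∀ u : P', (u.1 ^ 2) ^ 14 = u := fun u => by
      rw [← pow_mul, show 2 * 14 = 27 + 1 by norm_num, pow_succ, p27 _ u.2, one_mul]
    exact Subtype.ext (by rw [← e5 u, ← e5 v, e4])
  have := Nat.card_le_card_of_injective f hf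
  rw [cP', Nat.card_prod] at this
  nlinarith

theorem mem_mapW {ζ : G} (h : ζ ∈ C0.W.map φ) : ζ = 1 ∨ ζ = φ C0.w ∨
    ζ = φ C0.t * φ C0.w * (φ C0.t)⁻¹ ∨ ζ = (φ C0.t)⁻¹ * φ C0.w * φ C0.t := by
  obtain ⟨c, hc, rfl⟩ := h
  rcases C0.W_cases c hc with rfl | rfl | rfl | rfl <;> simp

theorem comm_mapW {g : G} (h1 : g * φ C0.w = φ C0.w * g) (h2 : g * φ C0.t = φ C0.t * g) {ζ : G}
    (h : ζ ∈ C0.W.map φ) : ζ * g = g * ζ := by
  have c1 : Commute g (φ C0.w) := h1
  have c2 : Commute g (φ C0.t) := h2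
  rcases F.mem_mapW h with rfl | rfl | rfl | rfl
  · simp
  · exact h1.symm
  · exact ((c2.mul_right c1).mul_right c2.inv_right).symm
  · exact ((c2.inv_right.mul_right c1).mul_right c2).symm

theorem exists_psi {x : G} (X : PX0.Rel (φ C0.a0) (φ C0.a2) (φ C0.z) (φ C0.w) (φ C0.t) x) :
    ∃ ψ : A0 →* G, Function.Injective ψ ∧ ψ A0.w = φ C0.z ∧ ψ A0.t = x ∧
      (∀ ζ ∈ C0.W.map φ, ∀ s, ζ * ψ s = ψ s * ζ) ∧ (∀ s, φ C0.t * ψ s = ψ s * φ C0.t) ∧
      ∀ g, g * φ C0.w = φ C0.w * g → ∃ ζ ∈ C0.W.map φ, ∃ s, g = ζ * ψ s := by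
  obtain ⟨χ, hv, hx⟩ := B0.exists_hom (v := φ C0.z) (x := x) ⟨F.zz, X.x3, PX0.xz3 X⟩
  have inj : Function.Injective χ := B0.injective (hv ▸ F.z_ne)
  have wW : φ C0.w ∈ C0.W.map φ := ⟨C0.w, C0.mem_W.mpr (by decide +kernel), rfl⟩
  have comm : ∀ ζ ∈ C0.W.map φ, ∀ b, ζ * χ b = χ b * ζ := fun ζ hζ =>
    comm_B0 (by rw [hv]; exact F.comm_mapW X.hN.zw X.hN.zt hζ)
      (by rw [hx]; exact F.comm_mapW X.xw X.xt hζ)
  have v0 : φ 1 = χ (B0.vv 0) := by simp [B0.vv]
  have v1 : φ C0.z = χ (B0.vv 1) := hv.symm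
  have v2 : φ C0.a0 = χ (B0.vv 2) := by simp [B0.vv, hv, hx, X.xz]
  have v3 : φ (C0.a0 * C0.z) = χ (B0.vv 3) := by simp [B0.vv, hv, hx, PX0.xz2 X]
  have vs : ∀ i, B0.vv i * B0.vv i = 1 := by decide +kernel
  have cW : Nat.card (C0.W.map φ) = 4 := by rw [card_map_of_injective F.inj, C0.card_W]
  have sqW : ∀ ζ ∈ C0.W.map φ, ζ * ζ = 1 := by
    rintro _ ⟨c, hc, rfl⟩
    rw [← map_mul, hc.2.1, map_one]
  rcases rec_amb (K := centralizer {φ C0.w}) (Z := C0.W.map φ) (χ := χ)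
    (fun b => mem_centralizer_singleton_iff.mpr (comm _ wW b).symm)
    (by rintro _ ⟨c, hc, rfl⟩; exact mem_centralizer_singleton_iff.mpr (F.comm_iff.mpr hc.2.2))
    inj comm
    (by rintro _ ⟨c, hc, rfl⟩ _ ⟨d, hd, rfl⟩; exact F.comm_iff.mpr (C0.W_comm c hc d hd))
    (fun g hg h => by
      obtain ⟨c, rfl⟩ := F.cen g (hv ▸ h)
      obtain ⟨d, hd, e⟩ := C0.f7 c (F.comm_iff.mp (mem_centralizer_singleton_iff.mp hg))
      refine ⟨φ d, ⟨d, hd, rfl⟩, ?_⟩
      rcases e with rfl | rfl | rfl | rfl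
      exacts [⟨_, vs 0, by rw [map_mul, v0]⟩, ⟨_, vs 1, by rw [map_mul, v1]⟩,
        ⟨_, vs 2, by rw [map_mul, v2]⟩, ⟨_, vs 3, by rw [map_mul, v3]⟩])
    (fun s hs h1 h2 => by
      obtain ⟨c, rfl⟩ := F.cen s (hv ▸ h2)
      rcases C0.f8 c (F.of_z_type (hv ▸ h1)).2.2
        (F.comm_iff.mp (mem_centralizer_singleton_iff.mp hs)) with rfl | rfl | rfl | rfl
      exacts [⟨_, v0⟩, ⟨_, v1⟩, ⟨_, v2⟩, ⟨_, v3⟩])
    (by rw [cW]; norm_num)
    (Or.inr (H8.isPGroup_iff_forall.mpr fun ζ hζ => ⟨1, by rw [pow_one, pow_two, sqW ζ hζ]⟩)) with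
    h | ⟨ψ, p1, p2, p3, p4, p5, p6⟩
  · exfalso
    refine F.not_small ?_ fun s h1 h2 => ?_
    · let f : C0.W.map φ × B0 → centralizer {φ C0.w} := fun p =>
        ⟨p.1.1 * χ p.2, mul_mem (by
          obtain ⟨c, hc, e⟩ := p.1.2
          rw [← e]; exact mem_centralizer_singleton_iff.mpr (F.comm_iff.mpr hc.2.2))
          (mem_centralizer_singleton_iff.mpr (comm _ wW _).symm)⟩
      have hf : Function.Bijective f := by
        constructor
        · rintro ⟨⟨ζ, hζ⟩, b⟩ ⟨⟨ζ', hζ'⟩, b'⟩ e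
          have e' : ζ * χ b = ζ' * χ b' := congrArg Subtype.val e
          have h4 : (ζ'⁻¹ * ζ * χ (b * b'⁻¹)) ^ 1 = 1 := by
            rw [pow_one, map_mul, map_inv, mul_assoc, ← mul_assoc ζ, e']; group
          obtain ⟨e1, e2⟩ := split_pow B0.center_triv inj
            (comm _ (mul_mem (inv_mem hζ') hζ)) h4
          rw [pow_one] at e1 e2
          obtain rfl := mul_inv_eq_one.mp e2
          obtain rfl := inv_mul_eq_one.mp e1
          rfl
        · rintro ⟨g, hg⟩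
          obtain ⟨ζ, hζ, b, rfl⟩ := h g hg
          exact ⟨(⟨ζ, hζ⟩, b), rfl⟩
      rw [← Nat.card_congr (Equiv.ofBijective f hf), Nat.card_prod, cW, TN.card_eq]
    · obtain ⟨ζ, hζ, b, rfl⟩ := h s (mem_centralizer_singleton_iff.mpr h2)
      obtain ⟨-, e⟩ := split_pow B0.center_triv inj (comm _ hζ) (n := 2) (by rw [pow_two, h1])
      have : ∀ b : B0, b ^ 2 = 1 → ∃ i, b = B0.vv i := by decide +kernel
      obtain ⟨i, rfl⟩ := this b e
      obtain ⟨d, -, rfl⟩ := hζ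
      fin_cases i
      exacts [⟨_, by rw [map_mul]; exact congrArg _ v0⟩, ⟨_, by rw [map_mul]; exact congrArg _ v1⟩,
        ⟨_, by rw [map_mul]; exact congrArg _ v2⟩, ⟨_, by rw [map_mul]; exact congrArg _ v3⟩]
  · rw [hv] at p3
    rw [hx] at p4
    refine ⟨ψ, p1, p3, p4, p5, ?_, fun g hg => p6 g (mem_centralizer_singleton_iff.mpr hg)⟩
    have R := A0.rel5
    have tu : φ C0.t * ψ A0.u * (φ C0.t)⁻¹ = ψ A0.u := by
      have h1 := p5 ((φ C0.t)⁻¹ * φ C0.w * φ C0.t) 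
        ⟨C0.t⁻¹ * C0.w * C0.t, C0.mem_W.mpr (by decide +kernel), by simp⟩ A0.u
      obtain ⟨ζ, hζ, s, e⟩ := p6 (φ C0.t * ψ A0.u * (φ C0.t)⁻¹)
        (mem_centralizer_singleton_iff.mpr (by
          calc _ = φ C0.t * (ψ A0.u * ((φ C0.t)⁻¹ * φ C0.w * φ C0.t)) * (φ C0.t)⁻¹ := by group
            _ = _ := by rw [← h1]; group))
      have xt : φ C0.t * ψ A0.t * (φ C0.t)⁻¹ = ψ A0.t := by rw [p4, ← X.xt, mul_inv_cancel_right]
      have zt : φ C0.t * ψ A0.w * (φ C0.t)⁻¹ = ψ A0.w := by rw [p3, ← X.hN.zt, mul_inv_cancel_right]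
      refine uniq_u p1 (p5 _ hζ) e ?_ ?_ ?_
      · rw [conj_mul, ← map_mul, R.uu]; simp
      · rw [← xt, conj_mul, conj_mul, conj_inv, ← map_mul, ← map_mul, R.ux, map_inv]
      · rw [← zt, conj_mul, conj_pow, ← map_mul, ← map_pow, R.uv]; simp
    intro s
    have := A0.eq_top5 ((centralizer {φ C0.t}).comap ψ)
      (mem_centralizer_singleton_iff.mpr (by rw [p3]; exact X.hN.zt))
      (mem_centralizer_singleton_iff.mpr (by rw [p4]; exact X.xt))
      (mem_centralizer_singleton_iff.mpr (mul_inv_eq_iff_eq_mul.mp tu).symm)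
    exact (mem_centralizer_singleton_iff.mp (show s ∈ (centralizer {φ C0.t}).comap ψ from
      this ▸ mem_top s)).symm

end Cfg

/-- The element of order five of the alternating group inverted by the involution `w`. -/
def A0.rho : A0 := A0.t * A0.w * A0.t⁻¹ * A0.w * A0.t⁻¹ * A0.u * A0.t * (A0.t * A0.w * A0.t⁻¹)

/-- The complete local structure. -/
structure Full (φ : C0 →* G) (ψ : A0 →* G) : Prop extends Cfg φ where
  inj' : Function.Injective ψ
  pz : ψ A0.w = φ C0.z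
  rel : PJ.Rel (φ C0.a0) (φ C0.a2) (φ C0.z) (φ C0.w) (φ C0.t) (φ C0.r) (ψ A0.t) (ψ A0.u)
  commW : ∀ ζ ∈ C0.W.map φ, ∀ s, ζ * ψ s = ψ s * ζ
  cenw : ∀ g, g * φ C0.w = φ C0.w * g → ∃ ζ ∈ C0.W.map φ, ∃ s, g = ζ * ψ s
  commr : ∀ s, ψ A0.rho * φ (C0.inr s) = φ (C0.inr s) * ψ A0.rho
  cenr : ∀ g, g * ψ A0.rho = ψ A0.rho * g → ∃ ζ ∈ zpowers (ψ A0.rho), ∃ s, g = ζ * φ (C0.inr s)

theorem Cfg.exists_full [Finite G] {φ : C0 →* G} (F : Cfg φ) : ∃ ψ, Full φ ψ := by
  have i5 : Fact (Nat.Prime 5) := ⟨by norm_num⟩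
  obtain ⟨x, X, bx⟩ := F.exists_x
  obtain ⟨ψ, p1, p3, p4, p5, p7, p6⟩ := F.exists_psi X
  subst p4
  have R := A0.rel5
  have N := X.hN
  set ρ := ψ A0.rho with hρ
  have wW : φ C0.w ∈ C0.W.map φ := ⟨C0.w, C0.mem_W.mpr (by decide +kernel), rfl⟩
  have ρe : ρ = φ C0.a0 * φ C0.z * (ψ A0.t)⁻¹ * ψ A0.u * ψ A0.t * φ C0.a0 := by
    rw [hρ, A0.rho, ← X.xz, ← p3]; simp
  have r5 : ρ ^ 5 = 1 := by rw [hρ, ← map_pow, ← map_one ψ]; congr 1
  have r1 : ρ ≠ 1 := fun e => absurd (p1 (e.trans (map_one ψ).symm)) (by decide +kernel)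
  have or5 : orderOf ρ = 5 := orderOf_eq_prime r5 r1
  obtain ⟨χ, hv, hx⟩ := B0.exists_hom (v := φ C0.w) (x := φ C0.t) ⟨N.ww, N.t3, N.tw⟩
  have inj : Function.Injective χ := B0.injective (hv ▸ F.w_ne)
  have cρ : ∀ b, ρ * χ b = χ b * ρ :=
    comm_B0 (by rw [hv]; exact (p5 _ wW _).symm) (by rw [hx]; exact (p7 _).symm)
  have comm : ∀ ζ ∈ zpowers ρ, ∀ g, ρ * g = g * ρ → ζ * g = g * ζ := by
    rintro _ ⟨k, rfl⟩ g h
    exact (Commute.zpow_left h k).eq
  have Wχ : ∀ ζ ∈ C0.W.map φ, ∃ b, b * b = 1 ∧ ζ = χ b := by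
    intro ζ hζ
    rcases F.mem_mapW hζ with rfl | rfl | rfl | rfl
    · exact ⟨1, by simp, by simp⟩
    · exact ⟨B0.v, by decide +kernel, hv.symm⟩
    · exact ⟨B0.vv 2, by decide +kernel, by simp [B0.vv, hv, hx]⟩
    · exact ⟨B0.vv 3, by decide +kernel, by simp [B0.vv, hv, hx]⟩
  have p5' : ∀ ζ ∈ zpowers ρ, ζ ^ 5 = 1 := by
    rintro _ ⟨k, rfl⟩
    show (ρ ^ k) ^ 5 = 1
    rw [← zpow_natCast, ← zpow_mul, mul_comm, zpow_mul, zpow_natCast, r5, one_zpow]
  have cen : ∀ g ∈ centralizer {ρ}, g * χ B0.v = χ B0.v * g →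
      ∃ ζ ∈ zpowers ρ, ∃ b, b * b = 1 ∧ g = ζ * χ b := by
    intro g hg h
    obtain ⟨ζ, hζ, s, rfl⟩ := p6 g (hv ▸ h)
    have h1 : s * A0.rho = A0.rho * s := p1 (by
      have := mem_centralizer_singleton_iff.mp hg
      rw [mul_assoc, ← mul_assoc ρ, hρ, ← p5 _ hζ, mul_assoc] at this
      simpa using this)
    have h2 : ∀ s : A0, s * A0.rho = A0.rho * s → ∃ k : TN 9 5, s = A0.rho ^ k.val := by
      decide +kernel
    obtain ⟨k, rfl⟩ := h2 s h1
    obtain ⟨b, hb, e⟩ := Wχ ζ hζ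
    exact ⟨ρ ^ k.val, npow_mem_zpowers _ _, b, hb, by rw [p5 _ hζ, map_pow, e]⟩
  have invol : ∀ ζ ∈ zpowers ρ, ∀ b, (ζ * χ b) * (ζ * χ b) = 1 → ζ = 1 ∧ b * b = 1 := by
    intro ζ hζ b h
    obtain ⟨e1, e2⟩ := split_pow B0.center_triv inj (fun c => comm ζ hζ _ (cρ c)) (n := 2)
      (by rw [pow_two, h])
    exact ⟨H8.eq_one_of_pow_coprime (by norm_num) e1 (p5' ζ hζ), by rwa [pow_two] at e2⟩
  rcases rec_amb (K := centralizer {ρ}) (Z := zpowers ρ) (χ := χ)
    (fun b => mem_centralizer_singleton_iff.mpr (cρ b).symm)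
    (zpowers_le.mpr (mem_centralizer_singleton_iff.mpr rfl)) inj
    (fun ζ hζ b => comm ζ hζ _ (cρ b))
    (fun ζ hζ ζ' hζ' => comm ζ hζ _ (comm ζ' hζ' _ rfl).symm) cen
    (fun s hs h1 h2 => by
      obtain ⟨ζ, hζ, b, -, rfl⟩ := cen s hs h2
      exact ⟨b, by rw [(invol ζ hζ b (sq_of_isConj (hv ▸ N.ww) h1)).1, one_mul]⟩)
    (by rw [Nat.card_zpowers, or5]; norm_num)
    (Or.inl ⟨fun ζ hζ g hg => comm ζ hζ g (mem_centralizer_singleton_iff.mp hg).symm, by
      rw [Nat.card_zpowers, or5]; decide⟩) with h | ⟨ψ', q1, q2, q3, q4, q5, q6⟩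
  · exfalso
    have five : ∀ g, g * ρ = ρ * g → (∃ k, g ^ 5 ^ k = 1) → g ∈ zpowers ρ := by
      rintro g hg ⟨k, hk⟩
      obtain ⟨ζ, hζ, b, rfl⟩ := h g (mem_centralizer_singleton_iff.mpr hg)
      obtain ⟨-, e2⟩ := split_pow B0.center_triv inj (fun c => comm ζ hζ _ (cρ c)) hk
      have h6 : ∀ b : B0, b ^ 6 = 1 := by decide +kernel
      rw [H8.eq_one_of_pow_coprime (Nat.Coprime.pow_left k (by norm_num)) e2 (h6 b), map_one, mul_one]
      exact hζ
    have gen : ∀ y ∈ zpowers ρ, y ≠ 1 → ∀ g, g * y = y * g → g * ρ = ρ * g := by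
      intro y hy hy1 g hg
      obtain ⟨k, hk, rfl⟩ := (mem_zpowers_iff_lt (by norm_num) r5).mp hy
      refine L0.commute_of_commute_pow (n := k) ?_ hg
      rw [or5]
      interval_cases k
      · exact absurd (pow_zero ρ) hy1
      all_goals norm_num
    obtain ⟨P, hP, hle⟩ := H8.exists_isSyl_ge (H8.isPGroup_zpowers (p := 5) (k := 1)
      (by rw [pow_one, r5])) (le_top (a := zpowers ρ))
    have hρP : ρ ∈ P := hle (mem_zpowers ρ)
    have : Nontrivial P := ⟨⟨1, ⟨_, hρP⟩, fun e => r1 (congrArg Subtype.val e).symm⟩⟩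
    have := hP.isPGroup.center_nontrivial
    obtain ⟨⟨y, hy⟩, hy1⟩ := exists_ne (1 : center P)
    have hy' : ∀ g ∈ P, g * y.1 = y.1 * g := fun g hg =>
      congrArg Subtype.val (mem_center_iff.mp hy ⟨g, hg⟩)
    have pel := H8.isPGroup_iff_forall.mp hP.isPGroup
    have hy2 := five y.1 (hy' _ hρP).symm (pel _ y.2)
    have hy3 : y.1 ≠ 1 := fun e => hy1 (Subtype.ext (Subtype.ext e))
    obtain ⟨g, -, e⟩ := hP.exists_conj_mem (mem_top (φ C0.r))
      ⟨1, by rw [pow_one, ← map_pow, C0.rel2.r5, map_one]⟩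
    have e1 := five _ (gen _ hy2 hy3 _ (hy' _ e)) (pel _ e)
    have e2 := gen _ e1 (fun e => by
      rw [conj_eq_one_iff] at e
      exact absurd (F.inj (e.trans (map_one φ).symm)) (by decide +kernel)) (g * φ C0.z * g⁻¹)
      (by rw [conj_mul, conj_mul, F.z_comm])
    obtain ⟨ζ, hζ, b, e3⟩ := h _ (mem_centralizer_singleton_iff.mpr e2)
    obtain ⟨e4, e5⟩ := invol ζ hζ b (by rw [← e3, conj_mul, F.zz]; simp)
    rw [e4, one_mul] at e3
    have h7 : ∀ b : B0, b * b = 1 → b = 1 ∨ ∃ c, c * B0.v * c⁻¹ = b := by decide +kernel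
    rcases h7 b e5 with rfl | ⟨c, rfl⟩
    · exact F.z_ne (by simpa using e3)
    · refine F.nfus ((isConj_iff.mpr ⟨χ c, ?_⟩).trans (isConj_iff.mpr ⟨g, e3⟩).symm)
      simp [hv]
  · rw [hv] at q3
    rw [hx] at q4
    have zρ : φ C0.z * ρ * (φ C0.z)⁻¹ = ρ⁻¹ := by
      rw [← p3, hρ, ← map_inv, ← map_inv, ← map_mul, ← map_mul]; congr 1
    have zu : φ C0.z * ψ' A0.u * (φ C0.z)⁻¹ = ψ' A0.u := by
      obtain ⟨ζ, hζ, s, e⟩ := q6 (φ C0.z * ψ' A0.u * (φ C0.z)⁻¹) (by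
        have h1 : ρ⁻¹ * ψ' A0.u = ψ' A0.u * ρ⁻¹ := q5 _ (inv_mem (mem_zpowers ρ)) _
        have h2 : ρ = φ C0.z * ρ⁻¹ * (φ C0.z)⁻¹ := by rw [← conj_inv, zρ, inv_inv]
        rw [mem_centralizer_singleton_iff, h2, conj_mul, conj_mul, h1])
      have xt : φ C0.z * ψ' A0.t * (φ C0.z)⁻¹ = ψ' A0.t := by rw [q4, N.zt, mul_inv_cancel_right]
      have zt : φ C0.z * ψ' A0.w * (φ C0.z)⁻¹ = ψ' A0.w := by rw [q3, N.zw, mul_inv_cancel_right]
      refine uniq_u q1 (q5 _ hζ) e ?_ ?_ ?_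
      · rw [conj_mul, ← map_mul, R.uu]; simp
      · rw [← xt, conj_mul, conj_mul, conj_inv, ← map_mul, ← map_mul, R.ux, map_inv]
      · rw [← zt, conj_mul, conj_pow, ← map_mul, ← map_pow, R.uv]; simp
    obtain ⟨c, hc⟩ := F.cen _ (mul_inv_eq_iff_eq_mul.mp zu).symm
    have u1 : ψ A0.u * ψ A0.u = 1 := by rw [← map_mul, R.uu, map_one]
    have u2 : ψ A0.u * ψ A0.t * ψ A0.u = (ψ A0.t)⁻¹ := by rw [← map_mul, ← map_mul, R.ux, map_inv]
    have u3 : (ψ A0.u * φ C0.z) ^ 3 = 1 := by rw [← p3, ← map_mul, ← map_pow, R.uv, map_one]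
    have cr : ∀ g, g * φ C0.w = φ C0.w * g → g * φ C0.t = φ C0.t * g → g * φ C0.u = φ C0.u * g →
        g * φ C0.r = φ C0.r * g := by
      intro g h1 h2 h3
      have c1 : Commute g (φ C0.w) := h1
      have c2 : Commute g (φ C0.t) := h2
      have c3 : Commute g (φ C0.u) := h3
      rw [C0.r_eq]
      simp only [map_mul]
      exact (((c1.mul_right c3).mul_right c1).mul_right c2).mul_right c1
    rcases C0.f9 c (F.inj (by rw [map_mul, hc, ← map_mul, R.uu, map_one, map_one]))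
      (F.inj (by rw [map_mul, map_mul, map_inv, hc, ← q4, ← map_mul, ← map_mul, R.ux, map_inv]))
      (F.inj (by rw [map_pow, map_mul, hc, ← q3, ← map_mul, ← map_pow, R.uv, map_one, map_one])) with
      rfl | rfl
    · have e : ∀ s, ψ' s = φ (C0.inr s) := fun s => by
        have := A0.eq_top5 (ψ'.eqLocus (φ.comp C0.inr)) q3 q4 hc.symm
        exact show s ∈ ψ'.eqLocus (φ.comp C0.inr) from this ▸ mem_top s
      refine ⟨ψ, F, p1, p3, ⟨C0.rel2.map φ, X.x3, X.xt, X.xw, X.xz, X.xa, bx, u1, u2, u3,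
        (p5 _ wW _).symm, (p7 _).symm, ?_⟩, p5, p6, fun s => e s ▸ q5 _ (mem_zpowers ρ) s,
        fun g hg => ?_⟩
      · rw [← ρe]
        exact cr _ (p5 _ wW _).symm (p7 _).symm (hc ▸ q5 _ (mem_zpowers ρ) _)
      · obtain ⟨ζ, hζ, s, e'⟩ := q6 g (mem_centralizer_singleton_iff.mpr hg)
        exact ⟨ζ, hζ, s, e s ▸ e'⟩
    · exfalso
      have ai : (φ C0.a0)⁻¹ = φ C0.a0 := inv_eq_of_mul_eq_one_right N.aa
      have e1 : φ C0.z * (ψ A0.t)⁻¹ * ψ A0.u * ψ A0.t = (φ C0.a0)⁻¹ * ρ * (φ C0.a0)⁻¹ := by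
        rw [ρe]; group
      have e2 : φ C0.z * (ψ A0.t)⁻¹ * ψ A0.u * ψ A0.t =
          ψ (A0.w * A0.t⁻¹ * A0.u * A0.t) := by simp [p3]
      have K : PJ1.Rel (φ C0.a0) (φ C0.a2) (φ C0.z) (φ C0.w) (φ C0.t) (φ C0.r) (ψ A0.t) (ψ A0.u) := by
        refine ⟨C0.rel2.map φ, X.x3, X.xt, X.xw, X.xz, X.xa, bx, u1, u2, u3,
          (p5 _ wW _).symm, (p7 _).symm, cr _ (e2 ▸ (p5 _ wW _).symm) (e2 ▸ (p7 _).symm) ?_⟩
        have h1 := q5 _ (mem_zpowers ρ) A0.u
        rw [← hc, map_mul, map_mul] at h1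
        rw [e1]
        calc _ = (φ C0.a0)⁻¹ * (ρ * ((φ C0.a0)⁻¹ * φ C0.u * φ C0.a0)) * (φ C0.a0)⁻¹ := by group
          _ = (φ C0.a0)⁻¹ * ((φ C0.a0 * φ C0.u * φ C0.a0) * ρ) * (φ C0.a0)⁻¹ := by
            rw [← h1, ai]
          _ = _ := by nth_rewrite 3 [← ai]; group
      have m : ∀ c, φ c ∈ centralizer {φ C0.z} := fun c =>
        mem_centralizer_singleton_iff.mpr (F.z_comm c)
      have := mem_centralizer_singleton_iff.mp
        (PJ1.res K _ (m _) (m _) (m _) (m _) (m _) (m _))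
      exact F.a_ne_z (by rw [← X.xz, this, mul_inv_cancel_right])

end Cfsg.H5
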