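import Cfsg.Agent.H5.J2C
import Cfsg.Agent.H5.J2M
import Cfsg.Agent.H5.J2A
import Cfsg.Agent.H6.Ab
import Cfsg.Agent.S0824
import Cfsg.Agent.L0.Components

/-!
Groups with the involution centraliser of the Hall–Janko group and two classes of involutions
are isomorphic to the presented group of order 604800.
-/

set_option autoImplicit false
set_option synthInstance.maxSize 4096
set_option maxRecDepth 100000

namespace Cfsg.H5

open Subgroup Cfsg.H6

variable {G : Type*} [Group G]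

/-- The letters of the presentation inside the group. -/
def evJ (φ : C0 →* G) (ψ : A0 →* G) : ℕ → G :=
  PJ.ev (φ C0.a0) (φ C0.a2) (φ C0.z) (φ C0.w) (φ C0.t) (φ C0.r) (ψ A0.t) (ψ A0.u)

namespace Full

variable {φ : C0 →* G} {ψ : A0 →* G} (F : Full φ ψ)
include F

theorem good : Good (evJ φ ψ) 3415262793781239372451021056 := PJ.good F.rel

theorem rels : Rels (evJ φ ψ) PJ.R := PJ.rels F.rel

theorem eq_top [Finite G] {K : Subgroup G} (hφ : ∀ c, φ c ∈ K) (hx : ψ A0.t ∈ K)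
    (hu : ψ A0.u ∈ K) : K = ⊤ := by
  have hψ : ∀ s, ψ s ∈ K := fun s => by
    have := A0.eq_top5 (K.comap ψ) (show ψ A0.w ∈ K from F.pz ▸ hφ _) hx hu
    exact show s ∈ K.comap ψ from this ▸ mem_top s
  have cz : ∀ g, g * φ C0.z = φ C0.z * g → g ∈ K := fun g h => by
    obtain ⟨c, rfl⟩ := F.cen g h
    exact hφ c
  have cw : ∀ g, g * φ C0.w = φ C0.w * g → g ∈ K := fun g h => by
    obtain ⟨_, ⟨c, -, rfl⟩, s, rfl⟩ := F.cenw g h
    exact K.mul_mem (hφ c) (hψ s)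
  have inv : ∀ s ∈ K, s * s = 1 → s ≠ 1 →
      ∃ g ∈ K, g * s * g⁻¹ = φ C0.z ∨ g * s * g⁻¹ = φ C0.w := by
    intro s hs h2 h1
    obtain ⟨g, hg, h | h | h⟩ := F.invol_cases hφ hs h2 h1
    · exact ⟨g, hg, Or.inl h⟩
    · refine ⟨(ψ A0.t)⁻¹ * g, K.mul_mem (K.inv_mem hx) hg, Or.inl ?_⟩
      calc _ = (ψ A0.t)⁻¹ * (g * s * g⁻¹) * ψ A0.t := by group
        _ = _ := by rw [h, ← F.rel.xz]; group
    · exact ⟨g, hg, Or.inr h⟩
  have cen : ∀ s ∈ K, s * s = 1 → s ≠ 1 → ∀ y, y * s = s * y → y ∈ K := by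
    intro s hs h2 h1 y hy
    have e : ∀ g, g * y * g⁻¹ * (g * s * g⁻¹) = g * s * g⁻¹ * (g * y * g⁻¹) := fun g => by
      rw [conj_mul, conj_mul, hy]
    have back : ∀ g ∈ K, g * y * g⁻¹ ∈ K → y ∈ K := fun g hg h => by
      have := K.mul_mem (K.mul_mem (K.inv_mem hg) h) hg
      rwa [show g⁻¹ * (g * y * g⁻¹) * g = y by group] at this
    obtain ⟨g, hg, h | h⟩ := inv s hs h2 h1
    · exact back g hg (cz _ (h ▸ e g))
    · exact back g hg (cw _ (h ▸ e g))
  have all : ∀ s, s * s = 1 → s ∈ K := by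
    intro s h2
    by_contra hs
    have key : ∀ v ∈ K, v * v = 1 → v ≠ 1 → IsConj v s := by
      intro v hv v2 v1
      by_cases ho : Odd (orderOf (v * s))
      · obtain ⟨g, -, e⟩ := L0.exists_conj_of_odd_orderOf_mul v2 h2 ho
        exact isConj_iff.mpr ⟨g, e⟩
      · exfalso
        obtain ⟨m, hm⟩ := Nat.not_odd_iff_even.mp ho
        have hpos := orderOf_pos (v * s)
        have y1 : (v * s) ^ m ≠ 1 := pow_ne_one_of_lt_orderOf (by omega) (by omega)
        have y2 : (v * s) ^ m * (v * s) ^ m = 1 := by rw [← pow_add, ← hm, pow_orderOf_eq_one]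
        have yi : ((v * s) ^ m)⁻¹ = (v * s) ^ m := inv_eq_of_mul_eq_one_right y2
        have c1 := L0.inverts_pow (L0.inverts_mul_left v2 h2) m
        have c2 := L0.inverts_pow (L0.inverts_mul_right v2 h2) m
        rw [yi, mul_inv_eq_iff_eq_mul] at c1 c2
        exact hs (cen _ (cen v hv v2 v1 _ c1.symm) y2 y1 s c2)
    exact F.nfus ((key _ (hφ _) F.ww F.w_ne).trans (key _ (hφ _) F.zz F.z_ne).symm)
  rw [eq_top_iff]
  intro g _
  have h2 : g * φ C0.z * g⁻¹ * (g * φ C0.z * g⁻¹) = 1 := by rw [conj_mul, F.zz]; simp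
  obtain ⟨k, hk, h | h⟩ := inv _ (all _ h2) h2 (by simpa using F.z_ne)
  · have : k * g ∈ K := cz _ (mul_inv_eq_iff_eq_mul.mp (Eq.trans (by group) h))
    exact (K.mul_mem_cancel_left hk).mp this
  · exact absurd ((isConj_iff.mpr ⟨g, rfl⟩).trans (isConj_iff.mpr ⟨k, h⟩)).symm F.nfus

theorem top [Finite G] : gen (evJ φ ψ) PJ.X = ⊤ := by
  refine F.eq_top (fun c => ?_) (letter_mem _ 9 rfl) (letter_mem _ 11 rfl)
  have := C0.eq_top ((gen (evJ φ ψ) PJ.X).comap φ) (letter_mem _ 1 rfl) (letter_mem _ 7 rfl)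
    (letter_mem _ 5 rfl)
  exact show c ∈ (gen (evJ φ ψ) PJ.X).comap φ from this ▸ mem_top c

theorem exists_equiv [Finite G] : ∃ π : JG ≃* G, ∀ l, π (JG.ev l) = evJ φ ψ l := by
  obtain ⟨π, hπ⟩ := pg_lift F.good F.rels
  refine ⟨MulEquiv.ofBijective π ⟨?_, surjective_of_gen π hπ F.top⟩, hπ⟩
  rw [← MonoidHom.ker_eq_bot_iff]
  refine (π.normal_ker.eq_bot_or_eq_top).resolve_right fun h => F.z_ne ?_
  have : pgEv _ _ 3 ∈ π.ker := h ▸ mem_top _
  exact (hπ 3).symm.trans this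

end Full

/-- The full configuration together with the action on 100 points. -/
structure JT (φ : C0 →* G) (ψ : A0 →* G) (α : G →* Equiv.Perm ℕ) : Prop extends Full φ ψ where
  act : IsAct α (evJ φ ψ) PJ.img 100 12

theorem Full.exists_JT [Finite G] {φ : C0 →* G} {ψ : A0 →* G} (F : Full φ ψ) :
    ∃ α, JT φ ψ α := by
  obtain ⟨π, hπ⟩ := F.exists_equiv
  exact ⟨_, F, JG.hφ.comp π.symm.toMonoidHom fun l => by rw [← hπ]; simp⟩

namespace JT

open PJ

variable [Finite G] {φ : C0 →* G} {ψ : A0 →* G} {α : G →* Equiv.Perm ℕ} (F : JT φ ψ α)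
include F

theorem prim : Prim α (evJ φ ψ) (gen (evJ φ ψ) Ws) 100 I :=
  prim_sound F.act (F.top ▸ PJ.ch.cover F.good F.rels) (List.forall_mem_cons.mpr
    ⟨ivl_sound F.act (by decide +kernel) (allR_range (n := 63) (by decide +kernel) (by norm_num)),
      List.forall_mem_cons.mpr ⟨ivl_sound F.act (by decide +kernel)
        (allR_range (n := 36) (by decide +kernel) (by norm_num)), by simp⟩⟩)
    (by decide +kernel)

theorem lb : LBn α ⊤ 100 bs 604800 := LBn.cast (((F.prim.lb2 (e := I.head (by decide))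
  (List.head_mem _)).stepT F.act JG.l0).stepT F.act JG.l1) (by decide +kernel)

theorem main : Nat.card G = 604800 ∧ fixS α bs = ⊥ ∧ Oracle (evJ φ ψ) img 12 bs :=
  F.lb.oracle F.act (F.top ▸ PJ.ub F.good F.rels : UB (⊤ : Subgroup G) 604800).top.2

end JT

theorem exists_A0_equiv : Nonempty (alternatingGroup (Fin 5) ≃* A0) := by
  let r : alternatingGroup (Fin 5) := ⟨Equiv.swap 0 4 * Equiv.swap 0 3 * Equiv.swap 0 2 *
    Equiv.swap 0 1, Equiv.Perm.mem_alternatingGroup.mpr (by decide)⟩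
  let t : alternatingGroup (Fin 5) := ⟨Equiv.swap 0 1 * Equiv.swap 0 3,
    Equiv.Perm.mem_alternatingGroup.mpr (by decide)⟩
  obtain ⟨φ, h1, h2⟩ := A0.exists_hom (r := r) (t := t) ⟨by decide, by decide, by decide⟩
  have hw : ∃ i : TN 9 5, ∃ j : TN 9 3, ∃ k : TN 9 5, A0.w =
      (A0.r ^ i.val * A0.t ^ j.val * A0.r ^ k.val) * (A0.r * A0.t) *
        (A0.r ^ i.val * A0.t ^ j.val * A0.r ^ k.val)⁻¹ := by decide +kernel
  obtain ⟨i, j, k, hw⟩ := hw
  have inj : Function.Injective φ := A0.injective (by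
    rw [hw, map_mul, map_mul, map_inv, Ne, conj_eq_one_iff, map_mul, h1, h2]
    decide)
  refine ⟨(MulEquiv.ofBijective φ ((Nat.bijective_iff_injective_and_card φ).mpr ⟨inj, ?_⟩)).symm⟩
  rw [TN.card_eq, nat_card_alternatingGroup]
  simp [Nat.factorial]

theorem Cfg0.cfg [Finite G] {φ : C0 →* G} (F : Cfg0 φ)
    (hf : ∃ g, Commute (φ C0.z) (g * φ C0.z * g⁻¹) ∧ g * φ C0.z * g⁻¹ ≠ φ C0.z)
    (hcl : ∃ x y : G, orderOf x = 2 ∧ orderOf y = 2 ∧ ¬ IsConj x y) : Cfg φ := by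
  have zz : φ C0.z * φ C0.z = 1 := by rw [← map_mul, C0.rel2.hN.zz, map_one]
  have fus : IsConj (φ C0.a0) (φ C0.z) := by
    by_contra hn
    have ty : ∀ c : C0, c * c = 1 → c.s = 1 → IsConj (φ C0.z) (φ c) → c = C0.z := by
      intro c h1 h2 h3
      rcases C0.cls c h1 with ⟨-, rfl | rfl | ⟨k, hk⟩⟩ | ⟨h4, -⟩
      · exact absurd (map_one φ) (ne_one_of_isConj F.z_ne h3)
      · rfl
      · exact absurd (h3.trans (φ.map_isConj (isConj_iff.mpr ⟨k, hk⟩))).symm hn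
      · exact absurd h2 h4
    obtain ⟨g, h1, h2⟩ := hf
    obtain ⟨c, hc⟩ := F.cen _ h1.eq.symm
    have c1 : IsConj (φ C0.z) (φ c) := isConj_iff.mpr ⟨g, hc.symm⟩
    have c2 : c * c = 1 := F.inj (by rw [map_mul, map_one]; exact sq_of_isConj zz c1)
    have c3 : c.s ≠ 1 := fun e => h2 (by rw [← hc, ty c c2 e c1])
    have wz : IsConj (φ C0.w) (φ C0.z) := (F.w_type c2 c3).trans c1.symm
    obtain ⟨h, hh⟩ := isConj_iff.mp wz
    have key : ∀ d : C0, d * d = 1 → d * C0.w = C0.w * d → IsConj (φ C0.a0) (φ d) →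
        ∃ d' : C0, d'.s = 1 ∧ φ d' = h * φ d * h⁻¹ := by
      intro d d1 d2 d3
      obtain ⟨d', hd'⟩ := F.cen (h * φ d * h⁻¹) (by
        rw [← hh, conj_mul, conj_mul, F.comm_iff.mpr d2])
      refine ⟨d', ?_, hd'⟩
      by_contra hs
      have : d' * d' = 1 := F.inj (by rw [map_mul, hd', conj_mul, ← map_mul, d1]; simp)
      exact hn ((d3.trans (isConj_iff.mpr ⟨h, hd'.symm⟩)).trans
        ((F.w_type this hs).symm.trans wz))
    obtain ⟨d1, e1, f1⟩ := key C0.a0 (by decide +kernel) (by decide +kernel) (IsConj.refl _)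
    obtain ⟨d2, e2, f2⟩ := key (C0.a0 * C0.z) (by decide +kernel) (by decide +kernel)
      (φ.map_isConj (isConj_iff.mpr ⟨C0.a2, by decide +kernel⟩))
    have f3 : φ (d1 * d2) = h * φ C0.z * h⁻¹ := by
      rw [map_mul, f1, f2, conj_mul, ← map_mul, ← mul_assoc C0.a0, C0.rel2.hN.aa, one_mul]
    have c4 : IsConj (φ C0.z) (φ (d1 * d2)) := isConj_iff.mpr ⟨h, f3.symm⟩
    have := ty (d1 * d2) (F.inj (by rw [map_mul, map_one]; exact sq_of_isConj zz c4))
      (by
        have : ∀ a : C0, a.s = 1 → ∀ b : Q0, (a * C0.inl b).s = 1 := by decide +kernel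
        have e : ∀ b : C0, b.s = 1 → b = C0.inl b.q := by decide +kernel
        rw [e d2 e2]; exact this _ e1 _) c4
    rw [this] at f3
    exact absurd (F.inj (mul_left_cancel (mul_right_cancel (hh.trans f3)))) (by decide +kernel)
  refine ⟨F, fus, fun wz => ?_⟩
  obtain ⟨x, y, hx, hy, hxy⟩ := hcl
  have key : ∀ x : G, orderOf x = 2 → IsConj x (φ C0.z) := by
    intro x hx
    obtain ⟨g, -, h | h | h⟩ := F.invol_cases (K := ⊤) (fun _ => mem_top _) (mem_top x)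
      (by rw [← pow_two, ← hx, pow_orderOf_eq_one]) (by rintro rfl; simp at hx)
    · exact isConj_iff.mpr ⟨g, h⟩
    · exact (isConj_iff.mpr ⟨g, h⟩).trans fus
    · exact (isConj_iff.mpr ⟨g, h⟩).trans wz
  exact hxy ((key x hx).trans (key y hy).symm)

theorem ES.conj_into [Finite G] {z : G} {Q : Subgroup (centralizer {z})}
    {hz : z ∈ centralizer {z}} (E : ES Q ⟨z, hz⟩) {s : G} (h2 : s * s = 1) :
    ∃ g, g * s * g⁻¹ ∈ centralizer {z} := by
  have : Fact (Nat.Prime 2) := ⟨Nat.prime_two⟩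
  have hQ : IsPGroup 2 (Q.map (centralizer {z}).subtype) :=
    (IsPGroup.of_card (n := 5) E.card).map _
  obtain ⟨S, hS, hQS⟩ := H8.exists_isSyl_ge hQ (H := ⊤) le_top
  obtain ⟨g, -, e⟩ := hS.exists_conj_mem (mem_top s) ⟨1, by rw [pow_one, pow_two, h2]⟩
  have hzS : z ∈ S := hQS ⟨_, E.zQ, rfl⟩
  have z1 : z ≠ 1 := fun e => E.z1 (Subtype.ext e)
  have : Nontrivial S := ⟨⟨1, ⟨_, hzS⟩, fun e => z1 (congrArg Subtype.val e).symm⟩⟩
  have := hS.isPGroup.center_nontrivial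
  obtain ⟨⟨y, hy⟩, hy1⟩ := exists_ne (1 : center S)
  have hy' : ∀ g ∈ S, g * y.1 = y.1 * g := fun g hg =>
    congrArg Subtype.val (mem_center_iff.mp hy ⟨g, hg⟩)
  rcases E.cen ⟨y.1, mem_centralizer_singleton_iff.mpr (hy' _ hzS).symm⟩
    (fun q hq => Subtype.ext (hy' _ (hQS ⟨q, hq, rfl⟩)).symm) with h | h
  · have h' : y.1 = 1 := congrArg Subtype.val h
    exact absurd (Subtype.ext (Subtype.ext h')) hy1
  · have h' : y.1 = z := congrArg Subtype.val h
    exact ⟨g, mem_centralizer_singleton_iff.mpr (h' ▸ hy' _ e)⟩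

theorem exists_JT [Finite G] {z : G} (hz : orderOf z = 2) (Q : Subgroup (centralizer {z}))
    [Q.Normal] (hQ : IsExtraspecial 2 Q) (hc : Nat.card Q = 32)
    (h2 : centralizer (Q : Set (centralizer ({z} : Set G))) ≤ Q)
    (e : centralizer ({z} : Set G) ⧸ Q ≃* alternatingGroup (Fin 5))
    (hf : ∃ g, Commute z (g * z * g⁻¹) ∧ g * z * g⁻¹ ≠ z)
    (hcl : ∃ x y : G, orderOf x = 2 ∧ orderOf y = 2 ∧ ¬ IsConj x y) :
    ∃ (φ : C0 →* G) (ψ : A0 →* G) (α : G →* Equiv.Perm ℕ), JT φ ψ α := by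
  have hz' : z ∈ centralizer {z} := mem_centralizer_singleton_iff.mpr rfl
  have E : ES Q ⟨z, hz'⟩ := es_of (by rw [← hz, ← orderOf_coe])
    (fun g => Subtype.ext (mem_centralizer_singleton_iff.mp g.2).symm) hQ hc h2
  obtain ⟨e'⟩ := exists_A0_equiv
  rcases E.structure ((e.trans e').toMonoidHom.comp (QuotientGroup.mk' Q))
    ((e.trans e').surjective.comp (QuotientGroup.mk'_surjective Q))
    (fun g => by simp) with ⟨φ, h1, h3, -⟩ | ⟨a, ha⟩
  · have h4 : ((centralizer {z}).subtype.comp φ) C0.z = z := congrArg Subtype.val h3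
    have F : Cfg0 ((centralizer {z}).subtype.comp φ) := by
      refine ⟨Subtype.val_injective.comp h1.1, fun g hg => ?_⟩
      rw [h4] at hg
      obtain ⟨c, hc⟩ := h1.2 ⟨g, mem_centralizer_singleton_iff.mpr hg⟩
      exact ⟨c, congrArg Subtype.val hc⟩
    obtain ⟨ψ, F'⟩ := (F.cfg (h4.symm ▸ hf) hcl).exists_full
    obtain ⟨α, F''⟩ := F'.exists_JT
    exact ⟨_, ψ, α, F''⟩
  · exfalso
    have zz : z * z = 1 := congrArg Subtype.val E.zz
    have key : ∀ x : G, x * x = 1 → x ≠ 1 → x ∈ centralizer {z} → x = z ∨ IsConj a.1 x := by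
      intro x x2 x1 hx
      rcases ha ⟨x, hx⟩ (Subtype.ext x2) with h | h | ⟨-, h⟩
      · exact absurd (congrArg Subtype.val h) x1
      · exact Or.inl (congrArg Subtype.val h)
      · exact Or.inr ((centralizer {z}).subtype.map_isConj h)
    obtain ⟨g, h1, h3⟩ := hf
    have c1 : IsConj z (g * z * g⁻¹) := isConj_iff.mpr ⟨g, rfl⟩
    have az : IsConj a.1 z := ((key _ (sq_of_isConj zz c1)
      (ne_one_of_isConj (fun e => E.z1 (Subtype.ext e)) c1)
      (mem_centralizer_singleton_iff.mpr h1.eq.symm)).resolve_left h3).trans c1.symm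
    have all : ∀ x : G, orderOf x = 2 → IsConj x z := by
      intro x hx
      have x2 : x * x = 1 := by rw [← pow_two, ← hx, pow_orderOf_eq_one]
      have x1 : x ≠ 1 := by rintro rfl; simp at hx
      obtain ⟨k, hk⟩ := E.conj_into x2
      have c2 : IsConj x (k * x * k⁻¹) := isConj_iff.mpr ⟨k, rfl⟩
      rcases key _ (sq_of_isConj x2 c2) (ne_one_of_isConj x1 c2) hk with h | h
      · exact h ▸ c2
      · exact c2.trans (h.symm.trans az)
    obtain ⟨x, y, hx, hy, hxy⟩ := hcl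
    exact hxy ((all x hx).trans (all y hy).symm)

theorem omega_equiv :
    Nonempty (Omega (ZMod 2) (quadFormMinus 1 (ZMod 2) 1 1) ≃* alternatingGroup (Fin 5)) := by
  obtain ⟨e⟩ := Cfsg.Agent.S0824.main
  have h : (commutator _).map e.toMonoidHom = alternatingGroup (Fin 5) := by
    rw [← alternatingGroup.commutator_perm_eq (by simp), map_commutator_eq,
      MonoidHom.range_eq_top_of_surjective _ e.surjective]
    rfl
  exact ⟨(e.subgroupMap _).trans (MulEquiv.subgroupCongr h)⟩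

/-- The large-extraspecial form of the hypothesis. -/
theorem exists_JT_large [Finite G] {z : G} (hz : orderOf z = 2) (Q : Subgroup (centralizer {z}))
    [Q.Normal] (hF : generalizedFittingSubgroup (centralizer ({z} : Set G)) = Q)
    (hQ : IsExtraspecial 2 Q) (hc : Nat.card Q = 2 ^ 5)
    (e : centralizer ({z} : Set G) ⧸ Q ≃* Omega (ZMod 2) (quadFormMinus 1 (ZMod 2) 1 1))
    (hnwc : ∃ g : G, (∃ hq : g * z * g⁻¹ ∈ centralizer ({z} : Set G),
      (⟨g * z * g⁻¹, hq⟩ : centralizer ({z} : Set G)) ∈ Q) ∧ g * z * g⁻¹ ≠ z)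
    (hcl : ∃ x y : G, orderOf x = 2 ∧ orderOf y = 2 ∧ ¬ IsConj x y) :
    ∃ (φ : C0 →* G) (ψ : A0 →* G) (α : G →* Equiv.Perm ℕ), JT φ ψ α := by
  obtain ⟨e'⟩ := omega_equiv
  obtain ⟨g, ⟨h1, -⟩, h2⟩ := hnwc
  exact exists_JT hz Q hQ hc (hF ▸ L0.centralizer_fstar_le _) (e.trans e')
    ⟨g, (mem_centralizer_singleton_iff.mp h1).symm, h2⟩ hcl

end Cfsg.H5
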