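import Cfsg.Agent.H5.J2D
import Cfsg.Agent.H5.ZStar

/-!
Simple groups with the involution centraliser of the Hall–Janko group.
-/

set_option autoImplicit false

namespace Cfsg.H5

open Subgroup

theorem exists_JT_simple {G : Type*} [Group G] [Finite G] [IsSimpleGroup G] {t : G}
    (ht : orderOf t = 2) (Q : Subgroup (centralizer {t})) [Q.Normal] (hQ : IsExtraspecial 2 Q)
    (hc : Nat.card Q = 32) (h2 : centralizer (Q : Set (centralizer ({t} : Set G))) ≤ Q)
    (e : centralizer ({t} : Set G) ⧸ Q ≃* alternatingGroup (Fin 5))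
    (hcl : ∃ x y : G, orderOf x = 2 ∧ orderOf y = 2 ∧ ¬ IsConj x y) :
    ∃ (φ : C0 →* G) (ψ : A0 →* G) (α : G →* Equiv.Perm ℕ), JT φ ψ α := by
  refine exists_JT ht Q hQ hc h2 e (exists_commute_conj_ne ht fun h => ?_) hcl
  rcases (normal_of_characteristic (center G)).eq_bot_or_eq_top with h1 | h1
  · rw [h1, mem_bot] at h
    rw [h] at ht; simp at ht
  · have h3 : center Q = ⊤ := eq_top_iff.mpr fun b _ => mem_center_iff.mpr fun a =>
      Subtype.ext (Subtype.ext (mem_center_iff.mp (h1 ▸ mem_top (b.1.1 : G)) a.1.1))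
    have := hQ.2
    rw [h3, card_top, hc] at this
    omega

end Cfsg.H5
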