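import Cfsg.Agent.H5.J2Bd
import Cfsg.Agent.H5.Thompson

/-!
Facts about the table group of order 1920, checked by evaluation.
-/

set_option autoImplicit false
set_option synthInstance.maxSize 4096
set_option maxRecDepth 100000

namespace Cfsg.H5.C0

theorem z_comm : ∀ c : C0, c * z = z * c := by decide +kernel

theorem cls : ∀ c : C0, c * c = 1 → (c.s = 1 ∧ (c = 1 ∨ c = z ∨ ∃ g, g * c * g⁻¹ = a0)) ∨
    (c.s ≠ 1 ∧ ∃ g, g * c * g⁻¹ = w) := by decide +kernel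

theorem cen_Q : ∀ c : C0, c * a0 = a0 * c → c * a1 = a1 * c → c * a2 = a2 * c → c * a3 = a3 * c →
    c = 1 ∨ c = z := by decide +kernel

theorem f3 : ∀ d : C0, d * a0 = a0 * d → d ^ 3 = 1 → d ≠ 1 →
    ∃ e, e * a0 = a0 * e ∧ (e * d * e⁻¹ = t ∨ e * d * e⁻¹ = t⁻¹) := by decide +kernel

theorem f4 : ∀ d : C0, d * d = 1 → d.s ≠ 1 → d * a0 = a0 * d →
    ((t * d) ^ 3 = 1 ∨ (t⁻¹ * d) ^ 3 = 1) → ∃ i : TN 9 3, d = t ^ i.val * w * (t ^ i.val)⁻¹ ∨
      d = t ^ i.val * (a2 * w * a2⁻¹) * (t ^ i.val)⁻¹ := by decide +kernel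

theorem f4' : ∀ i j : TN 9 3, t ^ i.val * (a2 * w * a2⁻¹) * (t ^ i.val)⁻¹ *
    (t ^ j.val * (a2 * w * a2⁻¹) * (t ^ j.val)⁻¹) = t ^ j.val * (a2 * w * a2⁻¹) * (t ^ j.val)⁻¹ *
    (t ^ i.val * (a2 * w * a2⁻¹) * (t ^ i.val)⁻¹) := by decide +kernel

theorem f5 : ∀ d : C0, d * a0 = a0 * d → d * t = t * d → d * w = w * d →
    d = 1 ∨ d = z ∨ d = a0 ∨ d = a0 * z := by decide +kernel

theorem f6 : ∀ d : C0, d * a0 = a0 * d → d * t = t * d → ∃ j : TN 9 3,
    d = 1 * t ^ j.val ∨ d = z * t ^ j.val ∨ d = a0 * t ^ j.val ∨ d = a0 * z * t ^ j.val := by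
  decide +kernel

/-- The four-group of the complement. -/
def W : Subgroup C0 where
  carrier := {c | c.q = 1 ∧ c * c = 1 ∧ c * w = w * c}
  one_mem' := by show _ ∧ _; decide +kernel
  mul_mem' := by
    have : ∀ a : C0, (a.q = 1 ∧ a * a = 1 ∧ a * w = w * a) → ∀ b : C0,
        (b.q = 1 ∧ b * b = 1 ∧ b * w = w * b) →
        (a * b).q = 1 ∧ a * b * (a * b) = 1 ∧ a * b * w = w * (a * b) := by decide +kernel
    exact fun {a b} ha hb => this a ha b hb
  inv_mem' := by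
    have : ∀ a : C0, (a.q = 1 ∧ a * a = 1 ∧ a * w = w * a) →
        a⁻¹.q = 1 ∧ a⁻¹ * a⁻¹ = 1 ∧ a⁻¹ * w = w * a⁻¹ := by decide +kernel
    exact fun {a} ha => this a ha

theorem mem_W {c : C0} : c ∈ W ↔ c.q = 1 ∧ c * c = 1 ∧ c * w = w * c := Iff.rfl

instance instDecMemW (c : C0) : Decidable (c ∈ W) := decidable_of_iff' _ mem_W

theorem card_W : Nat.card W = 4 := by
  have := C0.card_subtype fun c => c ∈ W
  exact this.trans (by decide +kernel)

theorem W_cases : ∀ c ∈ W, c = 1 ∨ c = w ∨ c = t * w * t⁻¹ ∨ c = t⁻¹ * w * t := by decide +kernel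

theorem W_comm : ∀ c ∈ W, ∀ d ∈ W, c * d = d * c := by decide +kernel

theorem f7 : ∀ c : C0, c * w = w * c → ∃ d ∈ W,
    c = d * 1 ∨ c = d * z ∨ c = d * a0 ∨ c = d * (a0 * z) := by decide +kernel

theorem f8 : ∀ c : C0, c.s = 1 → c * w = w * c → c = 1 ∨ c = z ∨ c = a0 ∨ c = a0 * z := by
  decide +kernel

theorem f9 : ∀ c : C0, c * c = 1 → c * t * c = t⁻¹ → (c * w) ^ 3 = 1 →
    c = u ∨ c = a0 * u * a0 := by decide +kernel

theorem r_eq : r = w * u * w * t * w := by decide +kernel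

theorem pow8 : ∀ q : Q0, q * q = 1 → ∀ c : C0, c * c = 1 → (inl q * c) ^ 8 = 1 := by decide +kernel

/-- The pairs counted by the order formula. -/
def ThP (y : C0) (p : Q0 × C0) : Prop :=
  (p.1 * p.1 = 1 ∧ p.1 ≠ 1) ∧ p.2 * p.2 = 1 ∧ p.2.s ≠ 1 ∧ ∃ k : TN 9 8, (inl p.1 * p.2) ^ k.val = y

instance instDecThP (y : C0) (p : Q0 × C0) : Decidable (ThP y p) := by
  unfold ThP; infer_instance

theorem card_ThP_z : Nat.card {p // ThP z p} = 960 := by
  rw [TN.card_prod]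
  simp only [C0.card_subtype]
  decide +kernel

theorem card_ThP_w : Nat.card {p // ThP w p} = 3 := by
  rw [TN.card_prod]
  simp only [C0.card_subtype]
  decide +kernel

theorem card_cen_r : Nat.card {c : C0 // c * r = r * c} = 10 := by
  rw [C0.card_subtype]; decide +kernel

theorem card_nor_r : Nat.card {c : C0 // ∃ k : TN 9 5, r ^ k.val = c * r * c⁻¹} = 20 := by
  rw [C0.card_subtype]; decide +kernel

theorem cen_r_pow : ∀ c : C0, c * r = r * c → c ^ 10 = 1 := by decide +kernel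

/-- An involution of the complement inverting `r`. -/
def s0 : C0 := mkC 0 11

theorem exp : ∀ c : C0, c ^ 120 = 1 := by
  have : ∀ c : C0, ((((c ^ 5) ^ 3) ^ 2) ^ 2) ^ 2 = 1 := by decide +kernel
  intro c
  simpa only [← pow_mul] using this c

end Cfsg.H5.C0
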