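import Cfsg.Agent.H5.J2D
import Cfsg.Agent.H5.J3P

/-!
Groups with one class of involutions whose centraliser is `2^(1+4)_- . A₅`: the extension splits.
-/

set_option autoImplicit false
set_option synthInstance.maxSize 4096
set_option maxRecDepth 100000
set_option linter.unusedSectionVars false

namespace Cfsg.H5

open Subgroup

variable {G : Type*} [Group G]

theorem ns_false {P : Subgroup G} {z a p0 h : G} (conj : ∀ g, g * z = z * g → ∀ q ∈ P, g * q * g⁻¹ ∈ P)
    (zP : z ∈ P) (z1 : z ≠ 1) (zz : z * z = 1) (zc : ∀ q ∈ P, q * z = z * q)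
    (cen : ∀ g, g * z = z * g → (∀ q ∈ P, g * q = q * g) → g = 1 ∨ g = z)
    (comm : ∀ p ∈ P, ∀ q ∈ P, q * p = p * q ∨ q * p = z * (p * q))
    (sq : ∀ q ∈ P, q * q = 1 ∨ q * q = z) (aP : a ∈ P) (aa : a * a = 1) (a1 : a ≠ 1) (az : a ≠ z)
    (inv : ∀ y, y * z = z * y → y * a = a * y → y * y = 1 → y = 1 ∨ y = z ∨ y = a ∨ y = a * z)
    (pP : p0 ∈ P) (pa : p0 * a = a * p0) (pp : p0 * p0 = z)
    (hz : h * z * h⁻¹ = a) (ha : h * a * h⁻¹ = z) : False := by
  have ai : a⁻¹ = a := inv_eq_of_mul_eq_one_right aa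
  have zi : z⁻¹ = z := inv_eq_of_mul_eq_one_right zz
  have za := zc a aP
  have n1 : a * z ≠ 1 := fun e => az (by rw [← zi]; exact eq_inv_of_mul_eq_one_left e)
  have n2 : a * z ≠ z := fun e => a1 (by simpa using e)
  have n3 : a * z ≠ a := fun e => z1 (by simpa using e)
  have hqz : ∀ q, q * a = a * q → h * q * h⁻¹ * z = z * (h * q * h⁻¹) := fun q e => by
    rw [← ha, conj_mul, conj_mul, e]
  have hqa : ∀ q ∈ P, h * q * h⁻¹ * a = a * (h * q * h⁻¹) := fun q e => by
    rw [← hz, conj_mul, conj_mul, zc q e]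
  have cV : ∀ {y g : G}, (y = 1 ∨ y = z ∨ y = a ∨ y = a * z) → g * z = z * g → g * a = a * g →
      g * y = y * g := by
    rintro y g (rfl | rfl | rfl | rfl) e1 e2
    · simp
    · exact e1
    · exact e2
    · rw [← mul_assoc, e2, mul_assoc, e1, mul_assoc]
  obtain ⟨c, hc⟩ : ∃ c : G → G → G, ∀ p q,
      c p q = p * (h * q * h⁻¹) * p⁻¹ * (h * q * h⁻¹)⁻¹ := ⟨_, fun _ _ => rfl⟩
  have inV : ∀ p ∈ P, p * a = a * p → ∀ q ∈ P, q * a = a * q →
      c p q = 1 ∨ c p q = z ∨ c p q = a ∨ c p q = a * z := by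
    intro p hp e q hq e'
    have m1 : c p q ∈ P := by
      have := P.mul_mem hp (conj _ (hqz q e') _ (P.inv_mem hp))
      rwa [hc, mul_assoc p, mul_assoc p]
    have m2 : h⁻¹ * c p q * h ∈ P := by
      have e1 : h⁻¹ * p * h * z = z * (h⁻¹ * p * h) := by
        have : z = h⁻¹ * a * h := by rw [← hz]; group
        rw [this]
        calc _ = h⁻¹ * (p * a) * h := by group
          _ = _ := by rw [e]; group
      have := P.mul_mem (conj _ e1 _ hq) (P.inv_mem hq)
      convert this using 1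
      rw [hc]; group
    have m3 : Commute (c p q) a := by
      rw [hc]
      exact ((Commute.mul_left e (hqa q hq)).mul_left (Commute.inv_left e)).mul_left
        (Commute.inv_left (hqa q hq))
    refine inv _ (zc _ m1) m3 ?_
    rcases sq _ m1 with e1 | e1
    · exact e1
    · have e2 : c p q * c p q = h * (h⁻¹ * c p q * h * (h⁻¹ * c p q * h)) * h⁻¹ := by group
      rcases sq _ m2 with e3 | e3 <;> rw [e3] at e2
      · simpa using e2
      · rw [hz, e1] at e2
        exact absurd e2.symm az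
  have key : ∀ p ∈ P, p * a = a * p → ∀ q ∈ P, q * a = a * q → c p q ≠ a * z := by
    intro p hp e q hq e' k
    have k1 : p * (h * q * h⁻¹) ≠ h * q * h⁻¹ * p := fun k1 => by
      rw [hc, k1] at k
      exact n1 (by rw [← k]; group)
    rcases sq p hp with e1 | e1
    · exact k1 (cV (inv p (zc p hp) e e1) (hqz q e') (hqa q hq)).symm
    rcases sq q hq with e2 | e2
    · exact k1 (cV (inv _ (hqz q e') (hqa q hq) (by rw [conj_mul, e2]; simp)) (zc p hp) e)
    have e3 : h * q * h⁻¹ * (h * q * h⁻¹) = a := by rw [conj_mul, e2, hz]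
    have e4 := hqz q e'
    have e5 := hqa q hq
    rw [hc] at k
    generalize h * q * h⁻¹ = r at k e3 e4 e5
    have e6 : p * r = a * z * (r * p) := by rw [← k]; group
    have e7 : p * r * (p * r) = 1 := by
      nth_rewrite 1 [e6]
      calc _ = a * z * r * (p * p) * r := by group
        _ = a * z * (r * z) * r := by rw [e1]; group
        _ = a * (z * z) * (r * r) := by rw [e4]; group
        _ = 1 := by rw [zz, e3, mul_one, aa]
    have e8 : p * r ∈ P := by
      rcases inv _ (Commute.mul_left (zc p hp) e4) (Commute.mul_left e e5) e7 with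
        e9 | e9 | e9 | e9 <;> rw [e9]
      exacts [P.one_mem, zP, aP, P.mul_mem aP zP]
    rcases sq r ((P.mul_mem_cancel_left hp).mp e8) with e9 | e9 <;> rw [e3] at e9
    exacts [a1 e9, az e9]
  have tri : ∀ p ∈ P, p * a = a * p → ∀ q ∈ P, q * a = a * q →
      c p q = 1 ∨ c p q = z ∨ c p q = a := fun p hp e q hq e' => by
    rcases inV p hp e q hq e' with k | k | k | k
    exacts [Or.inl k, Or.inr (Or.inl k), Or.inr (Or.inr k), absurd k (key p hp e q hq e')]
  have bl : ∀ p ∈ P, p * a = a * p → ∀ p' ∈ P, p' * a = a * p' → ∀ q ∈ P, q * a = a * q →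
      c (p * p') q = c p' q * c p q := fun p hp e p' hp' e' q hq e'' => by
    calc _ = p * c p' q * p⁻¹ * c p q := by simp only [hc]; group
      _ = _ := by rw [cV (inV p' hp' e' q hq e'') (zc p hp) e, mul_inv_cancel_right]
  have br : ∀ p ∈ P, p * a = a * p → ∀ q ∈ P, q * a = a * q → ∀ q' ∈ P, q' * a = a * q' →
      c p (q * q') = c p q * c p q' := fun p hp e q hq e' q' hq' e'' => by
    calc _ = c p q * (h * q * h⁻¹ * c p q' * (h * q * h⁻¹)⁻¹) := by simp only [hc]; group
      _ = _ := by rw [cV (inV p hp e q' hq' e'') (hqz q e') (hqa q hq), mul_inv_cancel_right]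
  have sw : ∀ p ∈ P, p * a = a * p → ∀ q ∈ P, q * a = a * q →
      ∃ r ∈ P, r * a = a * r ∧ c r p = (h * c p q * h⁻¹)⁻¹ := fun p hp e q hq e' => by
    refine ⟨h * h * q * (h * h)⁻¹, conj _ ?_ q hq, ?_, by simp [hc, mul_assoc]⟩
    · rw [← mul_inv_eq_iff_eq_mul]
      calc _ = h * (h * z * h⁻¹) * h⁻¹ := by group
        _ = z := by rw [hz, ha]
    · calc _ = h * (h * q * h⁻¹) * h⁻¹ * (h * z * h⁻¹) := by rw [hz]; group
        _ = h * z * h⁻¹ * (h * (h * q * h⁻¹) * h⁻¹) := by rw [conj_mul, conj_mul, hqz q e']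
        _ = _ := by rw [hz]; group
  have one : ∀ p ∈ P, p * a = a * p → ∀ q ∈ P, q * a = a * q → c p q = 1 := by
    have two : ∀ p ∈ P, p * a = a * p → ∀ q ∈ P, q * a = a * q → ∀ p' ∈ P, p' * a = a * p' →
        ∀ q' ∈ P, q' * a = a * q' → c p q = z → c p' q' = a → False := by
      intro p hp e q hq f p' hp' e' q' hq' f' k k'
      have pp' : p * p' * a = a * (p * p') := Commute.mul_left e e'
      have qq' : q * q' * a = a * (q * q') := Commute.mul_left f f'
      have k1 : c p q' = 1 := by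
        rcases tri p hp e q' hq' f' with k1 | k1 | k1
        · exact k1
        · exact absurd (by rw [bl p hp e p' hp' e' q' hq' f', k', k1])
            (key _ (P.mul_mem hp hp') pp' q' hq' f')
        · exact absurd (by rw [br p hp e q hq f q' hq' f', k, k1, za])
            (key p hp e _ (P.mul_mem hq hq') qq')
      have k2 : c p' q = 1 := by
        rcases tri p' hp' e' q hq f with k2 | k2 | k2
        · exact k2
        · exact absurd (by rw [br p' hp' e' q hq f q' hq' f', k', k2, za])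
            (key p' hp' e' _ (P.mul_mem hq hq') qq')
        · exact absurd (by rw [bl p hp e p' hp' e' q hq f, k, k2])
            (key _ (P.mul_mem hp hp') pp' q hq f)
      refine key _ (P.mul_mem hp hp') pp' _ (P.mul_mem hq hq') qq' ?_
      rw [br _ (P.mul_mem hp hp') pp' q hq f q' hq' f', bl p hp e p' hp' e' q hq f,
        bl p hp e p' hp' e' q' hq' f', k, k', k1, k2, one_mul, mul_one, za]
    intro p hp e q hq f
    obtain ⟨r, hr, g, k'⟩ := sw p hp e q hq f
    rcases tri p hp e q hq f with k | k | k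
    · exact k
    · exact (two p hp e q hq f r hr g p hp e k (by rw [k', k, hz, ai])).elim
    · exact (two r hr g p hp e p hp e q hq f (by rw [k', k, ha, zi]) k).elim
  obtain ⟨b, hb, ba⟩ : ∃ b ∈ P, b * a = z * (a * b) := by
    by_contra! k
    rcases cen a za fun q hq => ((comm a aP q hq).resolve_right (k q hq)).symm with e | e
    exacts [a1 e, az e]
  have cenP : ∀ g, g * z = z * g → g * b = b * g → (∀ p ∈ P, p * a = a * p → g * p = p * g) →
      g = 1 ∨ g = z := fun g e1 e2 e3 => cen g e1 fun q hq => by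
    rcases comm a aP q hq with k | k
    · exact e3 q hq k
    · have : Commute g (q * b) := e3 _ (P.mul_mem hq hb) (by
        calc q * b * a = (q * z) * a * b := by rw [mul_assoc, ba]; group
          _ = z * (q * a) * b := by rw [zc q hq]; group
          _ = (z * z) * (a * (q * b)) := by rw [k]; group
          _ = _ := by rw [zz, one_mul])
      have := (this.mul_right (Commute.inv_right e2)).eq
      rwa [mul_inv_cancel_right] at this
  have e3 : h * p0 * h⁻¹ * (h * p0 * h⁻¹) = a := by rw [conj_mul, pp, hz]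
  have e4 := hqz p0 pa
  have e5 := hqa p0 pP
  have e6 : ∀ p ∈ P, p * a = a * p → p * (h * p0 * h⁻¹) = h * p0 * h⁻¹ * p := fun p hp e => by
    have := one p hp e p0 pP pa
    rw [hc, mul_inv_eq_one, mul_inv_eq_iff_eq_mul] at this
    exact this
  generalize h * p0 * h⁻¹ = r at e3 e4 e5 e6
  obtain ⟨y, hy⟩ : ∃ y, r * b * r⁻¹ = y * b := ⟨r * b * r⁻¹ * b⁻¹, by group⟩
  have yP : y ∈ P := (P.mul_mem_cancel_right hb).mp (hy ▸ conj r e4 b hb)
  have yR : ∀ p ∈ P, p * a = a * p → y * p = p * y := fun p hp e => by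
    have k0 : y = r * b * r⁻¹ * b⁻¹ := by rw [hy]; group
    have k1 : Commute p r := e6 p hp e
    rcases comm b hb p hp with k | k
    · rw [k0]
      exact ((((k1.mul_right k).mul_right k1.inv_right).mul_right (Commute.inv_right k)).symm).eq
    · have k2 : b⁻¹ * p = z * p * b⁻¹ := by
        calc _ = b⁻¹ * (p * b) * b⁻¹ := by group
          _ = (b⁻¹ * z * b) * p * b⁻¹ := by rw [k]; group
          _ = _ := by rw [mul_assoc b⁻¹, ← zc b hb, inv_mul_cancel_left]
      calc y * p = r * b * r⁻¹ * (b⁻¹ * p) := by rw [k0]; group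
        _ = r * b * (r⁻¹ * (z * p)) * b⁻¹ := by rw [k2]; group
        _ = r * b * (z * p * r⁻¹) * b⁻¹ := by
          rw [(Commute.inv_left (Commute.mul_right e4 k1.symm)).eq]
        _ = r * (z * (b * p)) * r⁻¹ * b⁻¹ := by rw [← mul_assoc z, ← zc b hb]; group
        _ = (r * p) * b * r⁻¹ * b⁻¹ := by rw [← k]; group
        _ = p * y := by rw [← k1.eq, k0]; group
  have sqr : ∀ g, g * g = 1 → r ≠ g := fun g e k => a1 (by rw [← e3, k, e])
  rcases comm b hb y yP with k | k
  · rcases cenP y (zc y yP) k yR with rfl | rfl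
    · rcases cenP r e4 (by simpa [mul_inv_eq_iff_eq_mul] using hy)
        (fun p hp e => (e6 p hp e).symm) with e | e
      exacts [sqr 1 (mul_one 1) e, sqr z zz e]
    · rcases cenP (r * a) (Commute.mul_left e4 za) (by
          calc r * a * b = r * (y * y) * (a * b) := by rw [zz]; group
            _ = (r * y) * (b * a) := by rw [ba]; group
            _ = y * (r * b * r⁻¹) * (r * a) := by rw [e4]; group
            _ = (y * y) * (b * (r * a)) := by rw [hy]; group
            _ = _ := by rw [zz, one_mul])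
        (fun p hp e => Commute.mul_left (e6 p hp e).symm e.symm) with e | e
      · exact sqr a aa (by rw [← ai]; exact eq_inv_of_mul_eq_one_left e)
      · exact sqr (y * a) (by rw [mul_assoc, ← mul_assoc a, za, mul_assoc, aa, mul_one, zz])
          (by rw [← e, mul_assoc, aa, mul_one])
  · have k1 : y * y = 1 := by
      rcases cenP (a * y) (Commute.mul_left za (zc y yP)) (by
          calc a * y * b = (a * z) * b * y := by rw [mul_assoc, k]; group
            _ = _ := by rw [za, ← mul_assoc b, ba]; group)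
        (fun p hp e => Commute.mul_left e.symm (yR p hp e)) with e | e
      · rw [eq_inv_of_mul_eq_one_right e, ai, aa]
      · have : y = a * z := by rw [← e, ← mul_assoc, aa, one_mul]
        rw [this, mul_assoc, ← mul_assoc z, ← za, mul_assoc, zz, mul_one, aa]
    have k2 : r * (b * b) = b * b * r := by
      rcases sq b hb with e | e <;> rw [e]
      · simp
      · exact e4
    have k3 : y * b * (y * b) = b * b := by rw [← hy, conj_mul, k2, mul_inv_cancel_right]
    have k4 : b * y = z * (y * b) := by rw [k, ← mul_assoc, zz, one_mul]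
    apply z1
    have : z * (b * b) = b * b := by
      calc _ = (y * y) * z * (b * b) := by rw [k1, one_mul]
        _ = y * (z * (y * b)) * b := by rw [mul_assoc y y, zc y yP]; group
        _ = _ := by rw [← k4, ← k3]; group
    simpa using this

theorem exists_cfg0 [Finite G] {z : G} (hz : orderOf z = 2) (Q : Subgroup (centralizer {z}))
    [Q.Normal] (hQ : IsExtraspecial 2 Q) (hc : Nat.card Q = 32)
    (h2 : centralizer (Q : Set (centralizer ({z} : Set G))) ≤ Q)
    (e : centralizer ({z} : Set G) ⧸ Q ≃* alternatingGroup (Fin 5))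
    (hone : ∀ x y : G, orderOf x = 2 → orderOf y = 2 → IsConj x y) :
    ∃ φ : C0 →* G, Cfg0 φ := by
  have : Fact (Nat.Prime 2) := ⟨Nat.prime_two⟩
  have hz' : z ∈ centralizer {z} := mem_centralizer_singleton_iff.mpr rfl
  have E : ES Q ⟨z, hz'⟩ := es_of (by rw [← hz, ← orderOf_coe])
    (fun g => Subtype.ext (mem_centralizer_singleton_iff.mp g.2).symm) hQ hc h2
  obtain ⟨e'⟩ := exists_A0_equiv
  obtain ⟨π, hs, hk⟩ : ∃ π : centralizer ({z} : Set G) →* A0, Function.Surjective π ∧
      ∀ g, π g = 1 ↔ g ∈ Q := ⟨(e.trans e').toMonoidHom.comp (QuotientGroup.mk' Q),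
    (e.trans e').surjective.comp (QuotientGroup.mk'_surjective Q), fun g => by simp⟩
  rcases E.structure π hs hk with ⟨φ, h1, h3, -⟩ | ⟨a, ha⟩
  · have h4 : ((centralizer {z}).subtype.comp φ) C0.z = z := congrArg Subtype.val h3
    refine ⟨(centralizer {z}).subtype.comp φ, Subtype.val_injective.comp h1.1, fun g hg => ?_⟩
    rw [h4] at hg
    obtain ⟨c, hc⟩ := h1.2 ⟨g, mem_centralizer_singleton_iff.mpr hg⟩
    exact ⟨c, congrArg Subtype.val hc⟩
  exfalso
  obtain ⟨r', hr'⟩ := hs A0.r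
  obtain ⟨r, hr, πr⟩ : ∃ r, r ^ 5 = 1 ∧ π r = A0.r := by
    refine ⟨r' ^ 16, ?_, by rw [map_pow, hr']; decide +kernel⟩
    have := E.pow_four ((hk (r' ^ 5)).mp (by rw [map_pow, hr']; decide +kernel))
    rw [← pow_mul] at this
    rw [← pow_mul, show 16 * 5 = 5 * 4 * 4 by norm_num, pow_mul, this, one_pow]
  have hr1 : r ≠ 1 := by
    rintro rfl
    rw [map_one] at πr
    exact absurd πr (by decide +kernel)
  obtain ⟨b, hbQ, hb2, hb1, hbz⟩ := E.exists_involution
  obtain ⟨a0, a1, a2, a3, a4, Q0', r0, r1, r2, r3, -, R⟩ := E.exists_rel hr hr1 hbQ hb2 hb1 hbz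
  obtain ⟨φ, f0, f1, f2, f3, f4, fz⟩ := Q0.exists_hom R
  have inj : Function.Injective φ := Q0.injective (fz ▸ E.z1)
  have Q1 : a1 ∈ Q := r0 ▸ E.conj r _ Q0'
  have Q2 : a2 ∈ Q := r1 ▸ E.conj r _ Q1
  have Q3 : a3 ∈ Q := r2 ▸ E.conj r _ Q2
  have Q4 : a4 ∈ Q := r3 ▸ E.conj r _ Q3
  have memQ : ∀ q, φ q ∈ Q := fun q => by
    have := Q0.eq_top (Q.comap φ) (fun i => by
      rw [mem_comap]
      fin_cases i
      exacts [f0 ▸ Q0', f1 ▸ Q1, f2 ▸ Q2, f3 ▸ Q3, f4 ▸ Q4]) (by rw [mem_comap, fz]; exact E.zQ)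
    exact show q ∈ Q.comap φ from this ▸ mem_top q
  have rng : φ.range = Q := eq_of_le_of_card_ge (by rintro _ ⟨q, rfl⟩; exact memQ q) (by
    rw [E.card, ← Nat.card_congr (MonoidHom.ofInjective inj).toEquiv, TN.card_eq])
  have sur : ∀ g ∈ Q, ∃ q, φ q = g := fun g hg => by rwa [← rng] at hg
  have n1 : a0 ≠ 1 := fun e => absurd (inj (f0.trans (e.trans (map_one φ).symm))) (by decide +kernel)
  have nz : a0 ≠ ⟨z, hz'⟩ := fun e => absurd (inj (f0.trans (e.trans fz.symm))) (by decide +kernel)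
  have aa : a0.1 * a0.1 = 1 := congrArg Subtype.val R.s0
  have n1' : a0.1 ≠ 1 := fun e => n1 (Subtype.ext e)
  have nz' : a0.1 ≠ z := fun e => nz (Subtype.ext e)
  have z1 : z ≠ 1 := fun e => E.z1 (Subtype.ext e)
  have mc : ∀ {g : G}, g * z = z * g → g ∈ centralizer {z} := mem_centralizer_singleton_iff.mpr
  obtain ⟨h, hz1, hz2⟩ : ∃ h : G, h * z * h⁻¹ = a0 ∧ h * a0 * h⁻¹ = z := by
    obtain ⟨g, hg⟩ := isConj_iff.mp (hone a0 z (orderOf_eq_prime (by rw [pow_two, aa]) n1') hz)
    have c1 : IsConj z (g * z * g⁻¹) := isConj_iff.mpr ⟨g, rfl⟩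
    have m : g * z * g⁻¹ ∈ centralizer {z} := mc (by
      nth_rewrite 2 3 [← hg]
      rw [conj_mul, conj_mul, mem_centralizer_singleton_iff.mp a0.2])
    rcases ha ⟨_, m⟩ (Subtype.ext (sq_of_isConj (congrArg Subtype.val E.zz) c1)) with k | k | ⟨-, k⟩
    · exact absurd (congrArg Subtype.val k) (ne_one_of_isConj z1 c1)
    · exact absurd (mul_left_cancel (mul_right_cancel (hg.trans (congrArg Subtype.val k).symm))) nz'
    · obtain ⟨c, hc⟩ := isConj_iff.mp (k.symm.trans
        (((ha a0 R.s0).resolve_left n1).resolve_left nz).2)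
      refine ⟨c * g, ?_, ?_⟩
      · rw [← congrArg Subtype.val hc]; simp [mul_assoc]
      · calc _ = c.1 * (g * a0 * g⁻¹) * c.1⁻¹ := by group
          _ = z := by rw [hg, mem_centralizer_singleton_iff.mp c.2, mul_inv_cancel_right]
  refine ns_false (P := Q.map (centralizer {z}).subtype) (p0 := (a1 * a2).1) ?_ ⟨_, E.zQ, rfl⟩ z1
    (congrArg Subtype.val E.zz) ?_ ?_ ?_ ?_ ⟨_, Q0', rfl⟩ aa n1' nz' ?_
    ⟨_, Q.mul_mem Q1 Q2, rfl⟩ ?_ ?_ hz1 hz2
  · rintro g hg _ ⟨q, hq, rfl⟩
    exact ⟨_, E.conj ⟨g, mc hg⟩ q hq, rfl⟩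
  · rintro _ ⟨q, -, rfl⟩
    exact mem_centralizer_singleton_iff.mp q.2
  · intro g hg k
    exact (E.cen ⟨g, mc hg⟩ fun q hq => Subtype.ext (k _ ⟨q, hq, rfl⟩)).imp
      (congrArg Subtype.val) (congrArg Subtype.val)
  · rintro _ ⟨p, hp, rfl⟩ _ ⟨q, hq, rfl⟩
    exact (E.comm p hp q hq).imp (congrArg Subtype.val) (congrArg Subtype.val)
  · rintro _ ⟨q, hq, rfl⟩
    exact (E.sq q hq).imp (congrArg Subtype.val) (congrArg Subtype.val)
  · intro y y1 y2 y3
    rcases ha ⟨y, mc y1⟩ (Subtype.ext y3) with k | k | ⟨k, -⟩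
    · exact Or.inl (congrArg Subtype.val k)
    · exact Or.inr (Or.inl (congrArg Subtype.val k))
    · obtain ⟨q, hq⟩ := sur _ k
      have k1 : ∀ q : Q0, q * q = 1 → q * Q0.a 0 = Q0.a 0 * q →
          q = 1 ∨ q = Q0.z ∨ q = Q0.a 0 ∨ q = Q0.a 0 * Q0.z := by decide +kernel
      have hy : y = (φ q).1 := by rw [hq]
      rcases k1 q (inj (by rw [map_mul, hq, map_one]; exact Subtype.ext y3))
        (inj (by rw [map_mul, map_mul, hq, f0]; exact Subtype.ext y2)) with rfl | rfl | rfl | rfl <;>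
        simp [hy, f0, fz]
  · have : a1 * a2 * a0 = a0 * (a1 * a2) := by
      rw [← f0, ← f1, ← f2, ← map_mul, ← map_mul, ← map_mul]
      exact congrArg φ (by decide +kernel)
    exact congrArg Subtype.val this
  · have : a1 * a2 * (a1 * a2) = ⟨z, hz'⟩ := by
      rw [← f1, ← f2, ← fz, ← map_mul, ← map_mul]
      exact congrArg φ (by decide +kernel)
    exact congrArg Subtype.val this

end Cfsg.H5
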