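import Cfsg.Agent.H4.Dih8c

/-!
Elements commuting with an element of order three in the simple groups of orders 168 and 360.
-/

set_option autoImplicit false
set_option maxRecDepth 100000

namespace Cfsg.H5

theorem a6_orders : ∀ g : Equiv.Perm (Fin 6), Equiv.Perm.sign g = 1 →
    g ^ 3 = 1 ∨ g ^ 4 = 1 ∨ g ^ 5 = 1 := by decide +kernel

theorem l32_orders : ∀ g : Matrix (Fin 3) (Fin 3) (ZMod 2), g.det = 1 →
    g ^ 3 = 1 ∨ g ^ 4 = 1 ∨ g ^ 7 = 1 := by
  simp only [Matrix.det_fin_three]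
  decide +kernel

open DihedralGroup in
theorem d8_cube {G : Type*} [Group G] [Finite G] {f : DihedralGroup 4 →* G} (h : H4.D8 f)
    (hb : IsConj (f (r 2)) (f (sr 0))) (hc : IsConj (f (r 2)) (f (sr 1))) {g x : G}
    (h3 : x ^ 3 = 1) (h1 : x ≠ 1) (e : g * x = x * g) : g ^ 3 = 1 := by
  have key : ∀ y : G, y ^ 3 = 1 ∨ y ^ 140 = 1 := by
    intro y
    have p : ∀ n, n ∣ 140 → y ^ n = 1 → y ^ 140 = 1 := by
      rintro n ⟨k, hk⟩ e
      rw [hk, pow_mul, e, one_pow]
    rcases h.case_one_class hb hc with ⟨⟨ψ⟩⟩ | ⟨⟨ψ⟩⟩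
    · have q : ∀ n, (ψ y).1 ^ n = 1 → y ^ n = 1 := fun n e =>
        ψ.injective (by rw [map_pow, map_one]; exact Subtype.ext (by simpa using e))
      rcases l32_orders _ (ψ y).2 with e | e | e
      exacts [Or.inl (q _ e), Or.inr (p _ (by norm_num) (q _ e)), Or.inr (p _ (by norm_num) (q _ e))]
    · have q : ∀ n, (ψ y).1 ^ n = 1 → y ^ n = 1 := fun n e =>
        ψ.injective (by rw [map_pow, map_one]; exact Subtype.ext (by simpa using e))
      rcases a6_orders _ (Equiv.Perm.mem_alternatingGroup.mp (ψ y).2) with e | e | e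
      exacts [Or.inl (q _ e), Or.inr (p _ (by norm_num) (q _ e)), Or.inr (p _ (by norm_num) (q _ e))]
  rcases key g with k | k
  · exact k
  rcases key (g * x) with k' | k'
  · rwa [Commute.mul_pow e, h3, mul_one] at k'
  · rw [Commute.mul_pow e, k, one_mul] at k'
    exact absurd (H8.eq_one_of_pow_coprime (by norm_num) h3 k') h1

end Cfsg.H5
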