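import Cfsg.Agent.H5.J3A
import Cfsg.Agent.H5.J3O

/-!
Local analysis in a group with one class of involutions whose centraliser is `2^(1+4)_- : A₅`.
-/

set_option autoImplicit false
set_option synthInstance.maxSize 4096
set_option maxRecDepth 100000
set_option linter.unusedSectionVars false

namespace Cfsg.H5

open Subgroup

variable {G : Type*} [Group G]

namespace C0

theorem g1 : ∀ c : C0, c * w = w * c → c * c = 1 ∧ c * a0 = a0 * c := by decide +kernel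

theorem g2 : ∀ d : C0, d * d = 1 → d.s = 1 → d * a0 = a0 * d →
    d = 1 ∨ d = z ∨ d = a0 ∨ d = a0 * z := by decide +kernel

theorem g3 : ∀ e : C0, e ^ 3 = 1 → e ≠ 1 → (e * w) ^ 3 = 1 →
    ∃ s, s * w = w * s ∧ (s * e * s⁻¹ = t ∨ s * e * s⁻¹ = t⁻¹) := by decide +kernel

theorem g4 : ∀ d ∈ W, (t⁻¹ * d * t * 1 = d * 1 → d * 1 = 1) ∧ t⁻¹ * d * t * a0 ≠ d * z ∧
    t⁻¹ * d * t * (a0 * z) ≠ d * a0 ∧ t⁻¹ * d * t * z ≠ d * (a0 * z) := by decide +kernel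

theorem g5 : ∀ d : C0, d * t = t * d → d * a2 = a2 * d → ∃ j : TN 9 3,
    d = t ^ j.val * 1 ∨ d = t ^ j.val * z ∨ d = t ^ j.val * a2 ∨ d = t ^ j.val * (a2 * z) := by
  decide +kernel

/-- The dihedral group of order eight centralising the element of order three. -/
def dih : DihedralGroup 4 →* C0 :=
  MonoidHom.mk' (fun x => match x with
    | .r i => (a0 * a2) ^ i.val
    | .sr i => a0 * (a0 * a2) ^ i.val) (by decide +kernel)

theorem g6 : ∀ x, dih x * t = t * dih x := by decide +kernel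

theorem g7 : ∀ x, ∀ j : TN 9 3, t ^ j.val = dih x → x = 1 := by decide +kernel

theorem g8 : ∀ d : C0, d * t = t * d → ∃ j : TN 9 3, ∃ x, d = t ^ j.val * dih x := by
  decide +kernel

end C0

/-- All involutions of the centraliser are fused. -/
structure One (φ : C0 →* G) : Prop extends Cfg0 φ where
  fa : IsConj (φ C0.a0) (φ C0.z)
  fw : IsConj (φ C0.w) (φ C0.z)

namespace One

variable {φ : C0 →* G} (F : One φ)
include F

theorem a_ne_z : φ C0.a0 ≠ φ C0.z := fun e => absurd (F.inj e) (by decide +kernel)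

theorem not_both {h : G} (h1 : h * φ C0.z * h⁻¹ = φ C0.w) (h2 : h * φ C0.a0 * h⁻¹ = φ C0.z) :
    False := by
  have N := C0.rel2.hN.map φ
  obtain ⟨d, hd⟩ := F.cen (h * φ C0.t * h⁻¹) (by rw [← h2, conj_mul, conj_mul, N.ta])
  have := congrArg φ (C0.g1 d (F.comm_iff.mp (by rw [hd, ← h1, conj_mul, conj_mul, N.zt]))).1
  rw [map_mul, hd, conj_mul, map_one, conj_eq_one_iff, ← map_mul, ← map_one φ] at this
  exact absurd (F.inj this) (by decide +kernel)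

theorem swap {c : C0} (hc : IsConj (φ c) (φ C0.z)) (h1 : c ≠ C0.z) :
    ∃ h : G, h * φ c * h⁻¹ = φ C0.z ∧
      (h * φ C0.z * h⁻¹ = φ C0.a0 ∨ h * φ C0.z * h⁻¹ = φ C0.w) := by
  have N := C0.rel2.hN.map φ
  obtain ⟨g, hg⟩ := isConj_iff.mp hc
  obtain ⟨d, hd⟩ := F.cen (g * φ C0.z * g⁻¹) (by
    nth_rewrite 2 3 [← hg]
    rw [conj_mul, conj_mul, F.z_comm])
  have e : ∀ k y, k * d * k⁻¹ = y → φ k * g * φ c * (φ k * g)⁻¹ = φ C0.z ∧
      φ k * g * φ C0.z * (φ k * g)⁻¹ = φ y := by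
    rintro k y rfl
    refine ⟨?_, by rw [map_mul, map_mul, map_inv, hd]; group⟩
    calc _ = φ k * (g * φ c * g⁻¹) * (φ k)⁻¹ := by group
      _ = _ := by rw [hg, F.z_comm, mul_inv_cancel_right]
  rcases C0.cls d (F.inj (by rw [map_mul, hd, conj_mul, N.zz]; simp)) with
    ⟨-, rfl | rfl | ⟨k, hk⟩⟩ | ⟨-, k, hk⟩
  · exact absurd (by simpa using hd.symm) F.z_ne
  · exact absurd (F.inj (by simpa using hg.trans hd)) h1
  · exact ⟨_, (e k _ hk).1, Or.inl (e k _ hk).2⟩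
  · exact ⟨_, (e k _ hk).1, Or.inr (e k _ hk).2⟩

theorem swap_w : ∃ h : G, h * φ C0.z * h⁻¹ = φ C0.w ∧ h * φ C0.w * h⁻¹ = φ C0.z := by
  obtain ⟨h, h1, h2 | h2⟩ := F.swap F.fw (by decide +kernel)
  · exact (F.not_both (h := h⁻¹) (by rw [← h1]; group) (by rw [← h2]; group)).elim
  · exact ⟨h, h2, h1⟩

theorem normD {h : G} (hz : h * φ C0.z * h⁻¹ = φ C0.a0) (ha : h * φ C0.a0 * h⁻¹ = φ C0.a0 * φ C0.z)
    {d : C0} (hd : d * C0.a0 = C0.a0 * d) :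
    ∃ d', d' * C0.a0 = C0.a0 * d' ∧ h * φ d * h⁻¹ = φ d' := by
  have N := C0.rel2.hN.map φ
  have h1 : h * φ d * h⁻¹ * φ C0.a0 = φ C0.a0 * (h * φ d * h⁻¹) := by
    rw [← hz, conj_mul, conj_mul, F.z_comm]
  have h2 : h * φ d * h⁻¹ * (φ C0.a0 * φ C0.z) = φ C0.a0 * φ C0.z * (h * φ d * h⁻¹) := by
    rw [← ha, conj_mul, conj_mul, F.comm_iff.mpr hd]
  obtain ⟨c, hc⟩ := F.cen (h * φ d * h⁻¹) (by
    rw [← mul_assoc, h1, mul_assoc (φ C0.a0), mul_assoc (φ C0.a0)] at h2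
    exact mul_left_cancel h2)
  exact ⟨c, F.comm_iff.mp (by rw [hc, h1]), hc.symm⟩

theorem exists_x0 : ∃ x, PX0.Rel (φ C0.a0) (φ C0.a2) (φ C0.z) (φ C0.w) (φ C0.t) x := by
  have N := C0.rel2.hN.map φ
  have ab : φ C0.a2 * φ C0.a0 * (φ C0.a2)⁻¹ = φ C0.a0 * φ C0.z := by
    rw [← map_inv, ← map_mul, ← map_mul, ← map_mul]; congr 1
  obtain ⟨h, hz, ha⟩ : ∃ h : G, h * φ C0.z * h⁻¹ = φ C0.a0 ∧
      h * φ C0.a0 * h⁻¹ = φ C0.a0 * φ C0.z := by
    obtain ⟨g, e2, e1 | e1⟩ := F.swap F.fa (by decide +kernel)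
    · refine ⟨g * φ C0.a2, ?_, ?_⟩
      · rw [← e1, mul_assoc _ (φ C0.a2), F.z_comm]; group
      · calc _ = g * (φ C0.a2 * φ C0.a0 * (φ C0.a2)⁻¹) * g⁻¹ := by group
          _ = _ := by rw [ab, ← conj_mul, e1, e2, N.za]
    · exact (F.not_both e1 e2).elim
  obtain ⟨h, hz, ha, ht⟩ : ∃ h : G, h * φ C0.z * h⁻¹ = φ C0.a0 ∧
      h * φ C0.a0 * h⁻¹ = φ C0.a0 * φ C0.z ∧
      (h * φ C0.t * h⁻¹ = φ C0.t ∨ h * φ C0.t * h⁻¹ = (φ C0.t)⁻¹) := by
    obtain ⟨d, d1, d2⟩ := F.normD hz ha C0.rel2.hN.ta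
    obtain ⟨e, e1, e2⟩ := C0.f3 d d1 (F.inj (by rw [map_pow, ← d2, conj_pow, N.t3]; simp))
      (fun e => by
        rw [e, map_one, conj_eq_one_iff] at d2
        exact absurd (F.inj (d2.trans (map_one φ).symm)) (by decide +kernel))
    have e3 : φ e * φ C0.a0 * (φ e)⁻¹ = φ C0.a0 := by
      rw [F.comm_iff.mpr e1, mul_inv_cancel_right]
    have e4 : ∀ y, φ e * h * y * (φ e * h)⁻¹ = φ e * (h * y * h⁻¹) * (φ e)⁻¹ := fun y => by group
    refine ⟨φ e * h, by rw [e4, hz, e3], by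
      rw [e4, ha, ← conj_mul, e3, F.z_comm, mul_inv_cancel_right], ?_⟩
    rw [e4, d2, ← map_inv, ← map_inv, ← map_mul, ← map_mul]
    exact e2.imp (congrArg φ) (congrArg φ)
  -- the action on the four-groups normalised by `t`
  have key : ∀ d : C0, d * d = 1 → d.s ≠ 1 → d * C0.a0 = C0.a0 * d → (C0.t * d) ^ 3 = 1 →
      ∃ i : TN 9 3, h * φ d * h⁻¹ = φ (C0.t ^ i.val * C0.w * (C0.t ^ i.val)⁻¹) ∨
        h * φ d * h⁻¹ = φ (C0.t ^ i.val * (C0.a2 * C0.w * C0.a2⁻¹) * (C0.t ^ i.val)⁻¹) := by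
    intro d d1 d2 d3 d4
    obtain ⟨d', e1, e2⟩ := F.normD hz ha d3
    have e3 : d' * d' = 1 := F.inj (by rw [map_mul, ← e2, conj_mul, ← map_mul, d1]; simp)
    have e4 : d'.s ≠ 1 := fun e => d2 (by
      have k : ∀ c, h * φ c * h⁻¹ = φ d' → d = c := fun c k =>
        F.inj (mul_left_cancel (mul_right_cancel (e2.trans k.symm)))
      rcases C0.g2 d' e3 e e1 with rfl | rfl | rfl | rfl
      · rw [k 1 (by simp)]; rfl
      · rw [k (C0.a0 * C0.z) (by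
          rw [map_mul, ← conj_mul, ha, hz, ← N.za, mul_assoc, N.aa, mul_one])]; rfl
      · rw [k _ hz]; rfl
      · rw [k C0.a0 (by rw [ha, map_mul])]; rfl)
    have e5 : (h * φ C0.t * h⁻¹ * φ d') ^ 3 = 1 := by
      rw [← e2, conj_mul, conj_pow, ← map_mul, ← map_pow, d4]; simp
    obtain ⟨i, hi⟩ := C0.f4 d' e3 e4 e1 (ht.imp
      (fun e => F.inj (by rw [e] at e5; simpa using e5))
      (fun e => F.inj (by rw [e] at e5; simpa using e5)))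
    exact ⟨i, by rw [e2]; exact hi.imp (congrArg φ) (congrArg φ)⟩
  have tp : ∀ n : ℕ, ∃ m : ℤ, h * φ C0.t ^ n * h⁻¹ = φ C0.t ^ m := by
    intro n
    rw [← conj_pow]
    rcases ht with e | e <;> rw [e]
    · exact ⟨n, by simp⟩
    · exact ⟨-n, by simp⟩
  have step : ∀ {y y' : G} (i j : ℕ), h * y * h⁻¹ = φ C0.t ^ j * y' * (φ C0.t ^ j)⁻¹ →
      ∃ m : ℤ, h * (φ C0.t ^ i * y * (φ C0.t ^ i)⁻¹) * h⁻¹ = φ C0.t ^ m * y' * (φ C0.t ^ m)⁻¹ := by
    intro y y' i j e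
    obtain ⟨m, hm⟩ := tp i
    refine ⟨m + j, ?_⟩
    calc _ = (h * φ C0.t ^ i * h⁻¹) * (h * y * h⁻¹) * (h * φ C0.t ^ i * h⁻¹)⁻¹ := by group
      _ = _ := by rw [hm, e]; group
  obtain ⟨m, hm⟩ : ∃ m : ℤ, h * (h * φ C0.w * h⁻¹) * h⁻¹ = φ C0.t ^ m * φ C0.w * (φ C0.t ^ m)⁻¹ := by
    obtain ⟨i, hi | hi⟩ := key C0.w (by decide +kernel) (by decide +kernel) (by decide +kernel)
      (by decide +kernel)
    · simp only [map_mul, map_inv, map_pow] at hi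
      nth_rewrite 1 [hi]
      exact step _ _ hi
    · obtain ⟨j, hj | hj⟩ := key (C0.a2 * C0.w * C0.a2⁻¹) (by decide +kernel) (by decide +kernel)
        (by decide +kernel) (by decide +kernel)
      · rw [map_mul _ _ (C0.t ^ _)⁻¹, map_mul _ (C0.t ^ _), map_inv, map_pow] at hi hj
        rw [hi]
        exact step _ _ hj
      · exfalso
        have e := congrArg φ (C0.f4' i j)
        rw [map_mul, map_mul _ (C0.t ^ j.val * _ * _), ← hi, ← hj, conj_mul, conj_mul] at e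
        exact absurd (F.comm_iff.mp (mul_left_cancel (mul_right_cancel e))) (by decide +kernel)
  have t2 : h * (h * φ C0.t * h⁻¹) * h⁻¹ = φ C0.t := by
    rcases ht with e | e
    · rw [e, e]
    · rw [e, ← conj_inv, e, inv_inv]
  have t2' : ∀ n : ℤ, h * (h * φ C0.t ^ n * h⁻¹) * h⁻¹ = φ C0.t ^ n := by
    intro n; rw [← conj_zpow, ← conj_zpow, t2]
  have az : h * (φ C0.a0 * φ C0.z) * h⁻¹ = φ C0.z := by
    rw [← conj_mul, ha, hz, ← N.za, mul_assoc, N.aa, mul_one]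
  obtain ⟨x, hx⟩ : ∃ x, x = (φ C0.t ^ (2 * m))⁻¹ * (h * h * h * h) := ⟨_, rfl⟩
  have cx : ∀ y, x * y * x⁻¹ = (φ C0.t ^ (2 * m))⁻¹ * (h * (h * (h * (h * y * h⁻¹) * h⁻¹) * h⁻¹) * h⁻¹) *
      φ C0.t ^ (2 * m) := fun y => by rw [hx]; group
  have tz : ∀ y, φ C0.t * y = y * φ C0.t → (φ C0.t ^ (2 * m))⁻¹ * y * φ C0.t ^ (2 * m) = y := by
    intro y e
    rw [mul_assoc, ← (Commute.zpow_left e (2 * m)).eq, inv_mul_cancel_left]
  have xt : x * φ C0.t * x⁻¹ = φ C0.t := by rw [cx, t2, t2, tz _ rfl]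
  have xz : x * φ C0.z * x⁻¹ = φ C0.a0 := by rw [cx, hz, ha, az, hz, tz _ N.ta]
  have xa : x * φ C0.a0 * x⁻¹ = φ C0.a0 * φ C0.z := by
    rw [cx, ha, az, hz, ha, tz _ (by rw [← mul_assoc, N.ta, mul_assoc, ← N.zt, mul_assoc])]
  have xw : x * φ C0.w * x⁻¹ = φ C0.w := by
    rw [cx, hm]
    calc _ = (φ C0.t ^ (2 * m))⁻¹ * ((h * (h * φ C0.t ^ m * h⁻¹) * h⁻¹) *
          (h * (h * φ C0.w * h⁻¹) * h⁻¹) * (h * (h * φ C0.t ^ m * h⁻¹) * h⁻¹)⁻¹) *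
          φ C0.t ^ (2 * m) := by group
      _ = _ := by rw [t2', hm]; group
  have xaz : x * (φ C0.a0 * φ C0.z) * x⁻¹ = φ C0.z := by
    rw [← conj_mul, xa, xz, ← N.za, mul_assoc, N.aa, mul_one]
  have c3' : ∀ y, x ^ 3 * y * (x ^ 3)⁻¹ = x * (x * (x * y * x⁻¹) * x⁻¹) * x⁻¹ := fun y => by
    simp [pow_succ, mul_assoc]
  obtain ⟨d, hd⟩ := F.cen (x ^ 3) (mul_inv_eq_iff_eq_mul.mp (by rw [c3', xz, xa, xaz]))
  have hd' : x * φ d * x⁻¹ = φ d := by rw [hd]; group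
  have x3 : x ^ 3 = 1 := by
    rcases C0.f5 d (F.comm_iff.mp (mul_inv_eq_iff_eq_mul.mp (by rw [hd, c3', xa, xaz, xz])))
      (F.comm_iff.mp (mul_inv_eq_iff_eq_mul.mp (by rw [hd, c3', xt, xt, xt])))
      (F.comm_iff.mp (mul_inv_eq_iff_eq_mul.mp (by rw [hd, c3', xw, xw, xw]))) with
      rfl | rfl | rfl | rfl
    · rw [← hd, map_one]
    · exact absurd (xz.symm.trans hd') F.a_ne_z
    · exact absurd (by simpa using xa.symm.trans hd') F.z_ne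
    · rw [map_mul, xaz, ← map_mul] at hd'
      exact absurd (F.inj hd') (by decide +kernel)
  exact ⟨x, N, x3, mul_inv_eq_iff_eq_mul.mp xt, mul_inv_eq_iff_eq_mul.mp xw, xz, xa⟩

theorem exists_x : ∃ x, PX0.Rel (φ C0.a0) (φ C0.a2) (φ C0.z) (φ C0.w) (φ C0.t) x ∧
    (φ C0.a2 * x) ^ 2 = φ C0.t := by
  obtain ⟨x, X⟩ := F.exists_x0
  obtain ⟨d, hd⟩ := F.cen _ (PX0.bxz X)
  obtain ⟨j, hj⟩ := C0.f6 d (F.comm_iff.mp (hd ▸ PX0.bxa X)) (F.comm_iff.mp (hd ▸ PX0.bxt X))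
  rcases hj with rfl | rfl | rfl | rfl
  · exact PX0.normalize X F.z_ne (Or.inl rfl) j.lt (by rw [← hd]; simp)
  · exact PX0.normalize X F.z_ne (Or.inr (Or.inl rfl)) j.lt (by rw [← hd]; simp)
  · exact PX0.normalize X F.z_ne (Or.inr (Or.inr (Or.inl rfl))) j.lt (by rw [← hd]; simp)
  · exact PX0.normalize X F.z_ne (Or.inr (Or.inr (Or.inr rfl))) j.lt (by rw [← hd]; simp)

theorem x_W {x : G} (X : PX0.Rel (φ C0.a0) (φ C0.a2) (φ C0.z) (φ C0.w) (φ C0.t) x) {d : C0}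
    (hd : d ∈ C0.W) : x * φ d = φ d * x := by
  have ct : Commute x (φ C0.t) := X.xt
  have cw : Commute x (φ C0.w) := X.xw
  rcases C0.W_cases d hd with rfl | rfl | rfl | rfl
  · simp
  · exact X.xw
  · simpa only [map_mul, map_inv] using ((ct.mul_right cw).mul_right ct.inv_right).eq
  · simpa only [map_mul, map_inv] using ((ct.inv_right.mul_right cw).mul_right ct).eq

theorem exists_h0 {x : G} (X : PX0.Rel (φ C0.a0) (φ C0.a2) (φ C0.z) (φ C0.w) (φ C0.t) x) :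
    ∃ h τ : G, (τ = φ C0.t ∨ τ = (φ C0.t)⁻¹) ∧ h * h = 1 ∧ h * φ C0.z * h⁻¹ = φ C0.w ∧
      h * x * h⁻¹ = τ := by
  have N := X.hN
  obtain ⟨h, τ, hτ, hz, hw, hx⟩ : ∃ h τ : G, (τ = φ C0.t ∨ τ = (φ C0.t)⁻¹) ∧
      h * φ C0.z * h⁻¹ = φ C0.w ∧ h * φ C0.w * h⁻¹ = φ C0.z ∧ h * x * h⁻¹ = τ := by
    obtain ⟨g, gz, gw⟩ := F.swap_w
    obtain ⟨e, he⟩ := F.cen (g * x * g⁻¹) (by rw [← gw, conj_mul, conj_mul, X.xw])
    obtain ⟨s, s1, s2⟩ := C0.g3 e (F.inj (by rw [map_pow, he, conj_pow, X.x3]; simp))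
      (fun k => by
        rw [k, map_one, eq_comm, conj_eq_one_iff] at he
        exact F.a_ne_z (by rw [← X.xz, he]; simp))
      (F.inj (by rw [map_pow, map_mul, he, ← gz, conj_mul, conj_pow, PX0.xz3 X]; simp))
    have e4 : ∀ y, φ s * g * y * (φ s * g)⁻¹ = φ s * (g * y * g⁻¹) * (φ s)⁻¹ := fun y => by group
    refine ⟨φ s * g, _, ?_, by rw [e4, gz, F.comm_iff.mpr s1, mul_inv_cancel_right],
      by rw [e4, gw, F.z_comm, mul_inv_cancel_right], rfl⟩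
    rw [e4, ← he, ← map_inv, ← map_inv, ← map_mul, ← map_mul]
    exact s2.imp (congrArg φ) (congrArg φ)
  have sq : ∀ g y : G, g * g * y * (g * g)⁻¹ = g * (g * y * g⁻¹) * g⁻¹ := fun g y => by group
  obtain ⟨h, hz, hw, hx, ht⟩ : ∃ h : G, h * φ C0.z * h⁻¹ = φ C0.w ∧ h * φ C0.w * h⁻¹ = φ C0.z ∧
      h * x * h⁻¹ = τ ∧ h * τ * h⁻¹ = x := by
    obtain ⟨d, hd⟩ := F.cen (h * h) (mul_inv_eq_iff_eq_mul.mp (by rw [sq, hz, hw]))
    obtain ⟨d0, h0, hv⟩ := C0.f7 d (F.comm_iff.mp (mul_inv_eq_iff_eq_mul.mp (by rw [hd, sq, hw, hz])))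
    obtain ⟨v, rfl, v1, v2, v3⟩ : ∃ v, d = v * d0 ∧ v * v = 1 ∧ v * C0.w = C0.w * v ∧
        v * C0.t = C0.t * v := by
      have k : ∀ d0 ∈ C0.W, d0 * C0.z = C0.z * d0 ∧ d0 * C0.a0 = C0.a0 * d0 ∧
          d0 * (C0.a0 * C0.z) = C0.a0 * C0.z * d0 := by decide +kernel
      rcases hv with rfl | rfl | rfl | rfl
      · exact ⟨1, by simp, by simp, by simp, by simp⟩
      · exact ⟨_, (k d0 h0).1, by decide +kernel, by decide +kernel, by decide +kernel⟩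
      · exact ⟨_, (k d0 h0).2.1, by decide +kernel, by decide +kernel, by decide +kernel⟩
      · exact ⟨_, (k d0 h0).2.2, by decide +kernel, by decide +kernel, by decide +kernel⟩
    have e4 : ∀ y, φ v * h * y * (φ v * h)⁻¹ = φ v * (h * y * h⁻¹) * (φ v)⁻¹ := fun y => by group
    have ct : Commute (φ v) τ := by
      rcases hτ with rfl | rfl
      exacts [F.comm_iff.mpr v3, Commute.inv_right (F.comm_iff.mpr v3)]
    refine ⟨φ v * h, by rw [e4, hz, F.comm_iff.mpr v2, mul_inv_cancel_right],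
      by rw [e4, hw, F.z_comm, mul_inv_cancel_right], by rw [e4, hx, ct.eq, mul_inv_cancel_right], ?_⟩
    rw [e4, ← hx, ← sq, ← hd, map_mul]
    calc _ = φ v * φ v * (φ d0 * x) * (φ d0)⁻¹ * (φ v * φ v)⁻¹ := by group
      _ = x := by rw [← map_mul, v1, ← F.x_W X h0]; simp
  refine ⟨h, τ, hτ, ?_, hz, hx⟩
  obtain ⟨d, hd⟩ := F.cen (h * h) (mul_inv_eq_iff_eq_mul.mp (by rw [sq, hz, hw]))
  have d1 := F.comm_iff.mp (mul_inv_eq_iff_eq_mul.mp (show φ d * φ C0.w * (φ d)⁻¹ = φ C0.w by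
    rw [hd, sq, hw, hz]))
  have d2 : Commute (φ d) τ := mul_inv_eq_iff_eq_mul.mp (by rw [hd, sq, ht, hx])
  have d3 : x * φ d * x⁻¹ = φ d := by
    have : h * h * x = x * (h * h) := mul_inv_eq_iff_eq_mul.mp (by rw [sq, hx, ht])
    rw [hd, ← this, mul_inv_cancel_right]
  rcases C0.f5 d (C0.g1 d d1).2 (F.comm_iff.mp (by
      rcases hτ with rfl | rfl
      exacts [d2, Commute.inv_right_iff.mp d2])) d1 with rfl | rfl | rfl | rfl
  · rw [← hd, map_one]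
  · exact absurd (X.xz.symm.trans d3) F.a_ne_z
  · exact absurd (by simpa using X.xa.symm.trans d3) F.z_ne
  · rw [map_mul, ← conj_mul, X.xa, X.xz, ← map_mul, ← map_mul] at d3
    exact absurd (F.inj d3) (by decide +kernel)

theorem exists_h {x : G} (X : P3X.Rel (φ C0.a0) (φ C0.a2) (φ C0.z) (φ C0.w) (φ C0.t) x) :
    ∃ h : G, h * h = 1 ∧ h * φ C0.z * h = φ C0.w ∧ h * φ C0.t * h = x⁻¹ ∧
      (h * (φ C0.a2 * φ C0.w * φ C0.a2)) ^ 3 = 1 := by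
  have xc := P3X.xc X
  obtain ⟨X, -⟩ := X
  have N := X.hN
  obtain ⟨h, τ, hτ, hh, hz, hx⟩ := F.exists_h0 X
  have hi : h⁻¹ = h := inv_eq_of_mul_eq_one_right hh
  have sw : ∀ {y y' : G}, h * y * h⁻¹ = y' → h * y' * h⁻¹ = y := by
    rintro y y' rfl
    calc _ = h * h * y * (h * h)⁻¹ := by group
      _ = y := by rw [hh]; simp
  have hw := sw hz
  have ha : h * φ C0.a0 * h⁻¹ = τ * φ C0.w * τ⁻¹ := by rw [← X.xz, ← hx, ← hz]; group
  obtain ⟨c, hc⟩ : ∃ c, c = C0.a2 * C0.w * C0.a2 := ⟨_, rfl⟩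
  rw [← map_mul, ← map_mul, ← hc] at xc ⊢
  have cc : ∀ y y', c * y * c⁻¹ = y' → φ c * φ y * (φ c)⁻¹ = φ y' := by
    rintro y y' rfl
    simp
  have c3 : ∀ y, (h * φ c) ^ 3 * y * ((h * φ c) ^ 3)⁻¹ =
      h * (φ c * (h * (φ c * (h * (φ c * y * (φ c)⁻¹) * h⁻¹) * (φ c)⁻¹) * h⁻¹) * (φ c)⁻¹) * h⁻¹ :=
    fun y => by simp [pow_succ, mul_assoc]
  have c1 := cc C0.z C0.z (by rw [hc]; decide +kernel)
  have c2 := cc C0.w (C0.w * C0.z) (by rw [hc]; decide +kernel)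
  have c4 := cc (C0.z * C0.w) C0.w (by rw [hc]; decide +kernel)
  have c5 := cc C0.a0 C0.a0 (by rw [hc]; decide +kernel)
  have h2 : h * φ (C0.w * C0.z) * h⁻¹ = φ (C0.z * C0.w) := by
    rw [map_mul, map_mul, ← conj_mul, hw, hz]
  obtain ⟨d, hd⟩ := F.cen ((h * φ c) ^ 3) (mul_inv_eq_iff_eq_mul.mp (by
    rw [c3, c1, hz, c2, h2, c4, hw]))
  have d1 := F.comm_iff.mp (mul_inv_eq_iff_eq_mul.mp (show φ d * φ C0.w * (φ d)⁻¹ = φ C0.w by
    rw [hd, c3, c2, h2, c4, hw, c1, hz]))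
  rcases hτ with rfl | rfl
  · exfalso
    rw [← map_inv, ← map_mul, ← map_mul] at ha
    have c6 := cc (C0.t * C0.w * C0.t⁻¹) (C0.t * C0.w * C0.t⁻¹ * C0.a0 * C0.z)
      (by rw [hc]; decide +kernel)
    have c7 := cc (C0.a0 * (C0.t * C0.w * C0.t⁻¹) * C0.w) (C0.t * C0.w * C0.t⁻¹ * C0.w)
      (by rw [hc]; decide +kernel)
    have h6 : h * φ (C0.t * C0.w * C0.t⁻¹ * C0.a0 * C0.z) * h⁻¹ =
        φ (C0.a0 * (C0.t * C0.w * C0.t⁻¹) * C0.w) := by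
      rw [map_mul _ _ C0.z, map_mul _ _ C0.a0, ← conj_mul, ← conj_mul, sw ha, ha, hz, ← map_mul,
        ← map_mul]
    have h7 : h * φ (C0.t * C0.w * C0.t⁻¹ * C0.w) * h⁻¹ = φ C0.a0 * φ C0.z := by
      rw [map_mul _ _ C0.w, ← conj_mul, sw ha, hw]
    have k := c3 (φ C0.a0)
    rw [c5, ha, c6, h6, c7, h7, ← hd, F.comm_iff.mpr (C0.g1 d d1).2] at k
    exact F.z_ne (by simpa using k)
  · have ht : h * φ C0.t * h = x⁻¹ := by
      rw [← sw hx, conj_inv, inv_inv, hi]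
    refine ⟨h, hh, by rw [← hz, hi], ht, ?_⟩
    have k1 : Commute (x * (φ C0.t)⁻¹) h := by
      have : h * (x * (φ C0.t)⁻¹) * h⁻¹ = x * (φ C0.t)⁻¹ := by
        rw [← conj_mul, hx, sw hx]
        exact (Commute.inv_right X.xt).eq.symm
      exact (mul_inv_eq_iff_eq_mul.mp this).symm
    have k2 := ((k1.mul_right xc).pow_right 3).eq
    obtain ⟨d0, h0, hv⟩ := C0.f7 d d1
    have k3 : ∀ v v', x * φ v * x⁻¹ = φ v' → v * C0.t = C0.t * v → d = d0 * v →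
        C0.t⁻¹ * d0 * C0.t * v' = d0 * v := by
      intro v v' e1 e2 e3
      apply F.inj
      rw [← e3, hd, ← mul_inv_eq_iff_eq_mul.mpr k2, ← hd, e3]
      simp only [map_mul, map_inv]
      have e4 : Commute x ((φ C0.t)⁻¹ * φ d0 * φ C0.t) :=
        ((Commute.inv_right X.xt).mul_right (F.x_W X h0)).mul_right X.xt
      rw [← e1, ← mul_assoc, ← mul_assoc, ← e4.eq]
      calc _ = x * (φ C0.t)⁻¹ * φ d0 * (φ C0.t * φ v) * x⁻¹ := by group
        _ = _ := by rw [← F.comm_iff.mpr e2]; group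
    obtain ⟨m1, m2, m3, m4⟩ := C0.g4 d0 h0
    rcases hv with e | e | e | e
    · rw [← hd, e, m1 (k3 1 1 (by simp) (by simp) e), map_one]
    · exact absurd (k3 _ _ X.xz (by decide +kernel) e) m2
    · exact absurd (k3 _ _ (by rw [X.xa, map_mul]) (by decide +kernel) e) m3
    · exact absurd (k3 _ _ (by
        rw [map_mul, ← conj_mul, X.xa, X.xz, ← N.za, mul_assoc, N.aa, mul_one])
        (by decide +kernel) e) m4

theorem cube [Finite G] {x : G} (X : PX0.Rel (φ C0.a0) (φ C0.a2) (φ C0.z) (φ C0.w) (φ C0.t) x)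
    {g : G} (g1 : g * φ C0.t = φ C0.t * g) (g2 : g * x = x * g) : ∃ j : ℕ, φ C0.t ^ j = g ^ 3 := by
  have U := C0.rel3.map φ
  have N := X.hN
  have mc : ∀ {g : G}, g * φ C0.t = φ C0.t * g → g ∈ centralizer {φ C0.t} :=
    mem_centralizer_singleton_iff.mpr
  obtain ⟨Z, hZ⟩ : ∃ Z : Subgroup (centralizer {φ C0.t}), ∀ y, y ∈ Z ↔ ∃ k < 3, φ C0.t ^ k = y.1 :=
    ⟨zpowers ⟨_, mc rfl⟩, fun y => by
      rw [mem_zpowers_iff_lt (n := 3) (by norm_num) (Subtype.ext N.t3)]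
      simp [Subtype.ext_iff]⟩
  have : Z.Normal := ⟨fun n hn y => by
    obtain ⟨k, h1, h2⟩ := (hZ n).mp hn
    refine (hZ _).mpr ⟨k, h1, ?_⟩
    rw [coe_mul, coe_mul, ← h2,
      (Commute.pow_right (mem_centralizer_singleton_iff.mp y.2) k).eq]
    simp⟩
  obtain ⟨f, hf⟩ : ∃ f : DihedralGroup 4 →* centralizer {φ C0.t} ⧸ Z, ∀ d c (hc : c * C0.t = C0.t * c),
      C0.dih d = c → f d = QuotientGroup.mk ⟨φ c, mc (F.comm_iff.mpr hc)⟩ :=
    ⟨(QuotientGroup.mk' Z).comp ((φ.comp C0.dih).codRestrict _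
      fun d => mc (F.comm_iff.mpr (C0.g6 d))), by rintro d _ _ rfl; rfl⟩
  have fz := hf (.r 2) C0.z (by decide +kernel) (by decide +kernel)
  have D : H4.D8 f := by
    refine ⟨(injective_iff_map_eq_one f).mpr fun d hd => ?_, fun y => ⟨fun hy => ?_, ?_⟩⟩
    · rw [hf d _ (C0.g6 d) rfl, QuotientGroup.eq_one_iff, hZ] at hd
      obtain ⟨k, h1, h2⟩ := hd
      exact C0.g7 d ⟨k, h1⟩ (F.inj (by rw [map_pow]; exact h2))
    · obtain ⟨⟨y, y1⟩, rfl⟩ := QuotientGroup.mk_surjective y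
      rw [fz, ← QuotientGroup.mk_mul, ← QuotientGroup.mk_mul, QuotientGroup.eq, hZ] at hy
      obtain ⟨k, -, h2⟩ := hy
      have h3 : y⁻¹ * φ C0.z * y = φ C0.z * φ C0.t ^ k := by rw [h2]; simp [mul_assoc]
      have h4 : φ C0.t ^ k = 1 := H8.eq_one_of_pow_coprime (m := 2) (n := 3) (by norm_num) (by
        have := Commute.mul_pow (Commute.pow_right N.zt k) 2
        rw [← h3, pow_two (φ C0.z), N.zz, one_mul] at this
        rw [← this]
        calc _ = y⁻¹ * (φ C0.z * φ C0.z) * y := by simp [pow_two, mul_assoc]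
          _ = 1 := by rw [N.zz]; simp) (by rw [← pow_mul, mul_comm, pow_mul, N.t3, one_pow])
      rw [h4, mul_one, mul_assoc, inv_mul_eq_iff_eq_mul] at h3
      obtain ⟨c, rfl⟩ := F.cen y h3.symm
      obtain ⟨j, d, rfl⟩ := C0.g8 c (F.comm_iff.mp (mem_centralizer_singleton_iff.mp y1))
      refine ⟨d, ?_⟩
      rw [hf d _ (C0.g6 d) rfl, QuotientGroup.eq, hZ]
      refine ⟨j.val, j.lt, ?_⟩
      simp only [coe_mul, coe_inv, map_mul, map_pow]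
      rw [← (Commute.pow_right (F.comm_iff.mpr (C0.g6 d)) _).eq, inv_mul_cancel_left]
    · rintro ⟨d, rfl⟩
      have : ∀ d : DihedralGroup 4, d * .r 2 = .r 2 * d := by decide
      rw [← map_mul, ← map_mul, this]
  have ui : (φ C0.u)⁻¹ = φ C0.u := inv_eq_of_mul_eq_one_right U.uu
  have hy : φ C0.u * x * φ C0.u * φ C0.t = φ C0.t * (φ C0.u * x * φ C0.u) := by
    have e : φ C0.u * φ C0.t = (φ C0.t)⁻¹ * φ C0.u := by
      rw [← map_inv, ← map_mul, ← map_mul]; exact congrArg φ (by decide +kernel)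
    have e' : φ C0.t * φ C0.u = φ C0.u * (φ C0.t)⁻¹ := by
      rw [← map_inv, ← map_mul, ← map_mul]; exact congrArg φ (by decide +kernel)
    rw [mul_assoc, e, ← mul_assoc, ← mul_assoc, ← mul_assoc, e', mul_assoc _ x,
      (Commute.inv_right X.xt).eq, mul_assoc _ _ x]
  have := d8_cube D (g := QuotientGroup.mk ⟨g, mc g1⟩) (x := QuotientGroup.mk ⟨x, mc X.xt⟩)
    (isConj_iff.mpr ⟨QuotientGroup.mk ⟨x, mc X.xt⟩, by
      rw [fz, hf (.sr 0) C0.a0 (by decide +kernel) (by decide +kernel)]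
      exact congrArg QuotientGroup.mk (Subtype.ext X.xz)⟩)
    (isConj_iff.mpr ⟨QuotientGroup.mk ⟨_, mc hy⟩, by
      rw [fz, hf (.sr 1) C0.a2 (by decide +kernel) (by decide +kernel)]
      refine congrArg QuotientGroup.mk (Subtype.ext ?_)
      show φ C0.u * x * φ C0.u * φ C0.z * (φ C0.u * x * φ C0.u)⁻¹ = φ C0.a2
      rw [← U.ua, ← X.xz, mul_assoc _ _ (φ C0.z), U.uz]
      nth_rewrite 6 [← ui]
      group⟩)
    (congrArg QuotientGroup.mk (Subtype.ext X.x3 : (⟨x, mc X.xt⟩ : centralizer {φ C0.t}) ^ 3 = 1))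
    (fun e => by
      rw [QuotientGroup.eq_one_iff, hZ] at e
      obtain ⟨k, -, e⟩ := e
      have e' : φ C0.t ^ k = x := e
      exact F.a_ne_z (by
        rw [← X.xz, ← e', ← (Commute.pow_right N.zt k).eq, mul_inv_cancel_right]))
    (congrArg QuotientGroup.mk (Subtype.ext g2 : (⟨g, mc g1⟩ : centralizer {φ C0.t}) * ⟨x, mc X.xt⟩ =
      ⟨x, mc X.xt⟩ * ⟨g, mc g1⟩))
  rw [← QuotientGroup.mk_pow, QuotientGroup.eq_one_iff, hZ] at this
  obtain ⟨k, -, e⟩ := this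
  exact ⟨k, e⟩

theorem exists_rel [Finite G] : ∃ x h k,
    P3.Rel (φ C0.a0) (φ C0.a2) (φ C0.z) (φ C0.w) (φ C0.t) (φ C0.u) x h k := by
  have U := C0.rel3.map φ
  obtain ⟨x, X, bx⟩ := F.exists_x
  have N := X.hN
  obtain ⟨h, hh, hz, ht, hc⟩ := F.exists_h ⟨X, bx⟩
  have A : P3A.Rel (φ C0.a2) (φ C0.t) x h := ⟨N.bb, hh, N.t3, X.x3, X.xt, N.tb, bx, ht⟩
  have tk := P3A.tk A
  have kx := P3A.kx A
  have bkx := P3A.bkx A
  have bx2 := P3A.bx2 A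
  have hi : h⁻¹ = h := inv_eq_of_mul_eq_one_right hh
  have bi : (φ C0.a2)⁻¹ = φ C0.a2 := inv_eq_of_mul_eq_one_right N.bb
  have ai : (φ C0.a0)⁻¹ = φ C0.a0 := inv_eq_of_mul_eq_one_right N.aa
  have ui : (φ C0.u)⁻¹ = φ C0.u := inv_eq_of_mul_eq_one_right U.uu
  obtain ⟨k, kd⟩ : ∃ k, k = h * φ C0.a2 * h * φ C0.a2 * h := ⟨_, rfl⟩
  rw [← kd] at tk kx bkx
  have ki : k⁻¹ = k := by rw [kd]; simp [hi, bi, mul_assoc]
  have kk : k * k = 1 := by nth_rewrite 1 [← ki]; exact inv_mul_cancel k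
  have kz : (k * φ C0.z) ^ 3 = 1 := by
    have : k * φ C0.z = h * φ C0.a2 * (h * (φ C0.a2 * φ C0.w * φ C0.a2)) * (h * φ C0.a2)⁻¹ := by
      rw [kd, ← hz, mul_inv_rev, hi, bi]
      calc _ = h * φ C0.a2 * h * φ C0.a2 * h * φ C0.z * (h * (φ C0.a2 * φ C0.a2) * h) := by
            rw [N.bb, mul_one, hh, mul_one]
        _ = _ := by group
    rw [this, conj_pow, hc]; simp
  have bk : (φ C0.a2 * k) ^ 3 = 1 := by
    have c1 : Commute (φ C0.a2 * k) (φ C0.t) := Commute.mul_left N.tb.symm tk.symm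
    obtain ⟨j, hj⟩ := F.cube X c1 (by
      have := (Commute.mul_right bkx c1.inv_right).eq
      rwa [mul_inv_cancel_right] at this)
    have e : φ C0.a2 * (φ C0.a2 * k) * (φ C0.a2)⁻¹ = (φ C0.a2 * k)⁻¹ := by
      rw [← mul_assoc, N.bb, one_mul, mul_inv_rev, ki]
    have e' : (φ C0.a2 * k) ^ 3 = ((φ C0.a2 * k) ^ 3)⁻¹ := by
      rw [← inv_pow, ← e, conj_pow, ← hj, ← (Commute.pow_left N.tb j).eq, mul_inv_cancel_right]
    refine H8.eq_one_of_pow_coprime (m := 2) (n := 3) (by norm_num) ?_ ?_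
    · rw [pow_two]; nth_rewrite 1 [e']; exact inv_mul_cancel _
    · rw [← hj, ← pow_mul, mul_comm, pow_mul, N.t3, one_pow]
  have S : P3S.Rel (φ C0.a0) (φ C0.a2) (φ C0.z) (φ C0.t) x k :=
    ⟨N.aa, N.bb, N.zz, kk, N.za, N.zb, N.ab, N.t3, N.ta, N.tb, N.zt, X.xt, tk, X.x3, X.xz, X.xa,
      bx, kx, kz, bk⟩
  have yz := P3S.yz S
  have yb := P3S.yb S
  have ya := P3S.ya S
  have yt := P3S.yt S
  obtain ⟨y, hy⟩ : ∃ y, y = k * φ C0.a2 * φ C0.z * k * φ C0.a0 := ⟨_, rfl⟩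
  rw [← hy] at yz yb ya yt
  obtain ⟨v, hv⟩ : ∃ v, v = φ C0.u * x * φ C0.t * φ C0.u := ⟨_, rfl⟩
  have cv : ∀ c d e, x * φ (C0.t * (C0.u * c * C0.u) * C0.t⁻¹) * x⁻¹ = φ d → C0.u * d * C0.u = e →
      v * φ c * v⁻¹ = φ e := by
    rintro c d _ e1 rfl
    rw [hv, map_mul, map_mul, ← e1]
    simp [mul_assoc, ui]
  have vz := cv C0.z C0.a0 C0.a2 (by
    rw [show C0.t * (C0.u * C0.z * C0.u) * C0.t⁻¹ = C0.z by decide +kernel, X.xz]) (by decide +kernel)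
  have vb := cv C0.a2 (C0.a0 * C0.z) (C0.a2 * C0.z) (by
    rw [show C0.t * (C0.u * C0.a2 * C0.u) * C0.t⁻¹ = C0.a0 by decide +kernel, X.xa, map_mul])
    (by decide +kernel)
  have vt := cv C0.t C0.t⁻¹ C0.t (by
    rw [show C0.t * (C0.u * C0.t * C0.u) * C0.t⁻¹ = C0.t⁻¹ by decide +kernel, map_inv,
      (Commute.inv_right X.xt).eq, mul_inv_cancel_right]) (by decide +kernel)
  have va : φ C0.a0 * v * φ C0.a0 = v⁻¹ := by
    have e : φ C0.a0 = φ C0.u * φ C0.a2 * φ C0.u := by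
      rw [← map_mul, ← map_mul]; exact congrArg φ (by decide +kernel)
    calc _ = φ C0.u * φ C0.a2 * (φ C0.u * φ C0.u) * (x * φ C0.t) * (φ C0.u * φ C0.u) * φ C0.a2 *
          φ C0.u := by rw [e, hv]; group
      _ = φ C0.u * (φ C0.a2 * (x * φ C0.t) * φ C0.a2) * φ C0.u := by rw [U.uu]; group
      _ = _ := by rw [bx2, hv]; simp [mul_assoc, ui]
  have cj : ∀ {p q : G}, y * p * y⁻¹ = q → v * p * v⁻¹ = q → y⁻¹ * v * p = p * (y⁻¹ * v) := by
    intro p q e1 e2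
    calc _ = y⁻¹ * (v * p * v⁻¹) * v := by group
      _ = _ := by rw [e2, ← e1]; group
  obtain ⟨d, hd⟩ := F.cen _ (cj yz vz)
  obtain ⟨j, hj⟩ := C0.g5 d (F.comm_iff.mp (hd ▸ cj (mul_inv_eq_iff_eq_mul.mpr yt) vt))
    (F.comm_iff.mp (hd ▸ cj yb (by rw [vb, map_mul])))
  have key : ∀ c c', y * φ c * y⁻¹ = φ c' → d = C0.t ^ j.val * c →
      C0.a0 * (C0.t ^ j.val * c) * C0.a0 * (C0.t ^ j.val * c') = 1 := by
    intro c c' e1 e2
    apply F.inj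
    have e3 : φ (C0.t ^ j.val * c') = y * φ d * y⁻¹ := by
      rw [e2, map_mul, map_mul, ← conj_mul, e1, map_pow, (Commute.pow_right yt _).eq,
        mul_inv_cancel_right]
    rw [map_mul, e3, ← e2, map_mul, map_mul, hd, map_one]
    calc _ = (φ C0.a0 * y * (φ C0.a0)⁻¹)⁻¹ * (φ C0.a0 * v * φ C0.a0) * v * y⁻¹ := by group
      _ = 1 := by rw [va, ai, ya]; simp
  have e : d = 1 ∨ d = C0.a2 := by
    rcases hj with e | e | e | e
    · have := key 1 1 (by simp) e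
      rw [e]; clear key e; revert j; decide +kernel
    · have := key _ _ yz e
      rw [e]; clear key e; revert j; decide +kernel
    · have := key _ _ (by rw [yb, map_mul]) e
      rw [e]; clear key e; revert j; decide +kernel
    · have := key _ C0.z (by
        rw [map_mul, ← conj_mul, yb, yz, ← N.zb, mul_assoc, N.bb, mul_one]) e
      rw [e]; clear key e; revert j; decide +kernel
  rcases e with rfl | rfl
  · refine ⟨x, h, k, U, X.x3, X.xt, X.xw, X.xz, X.xa, bx, hh, hz, ht, hc, kk, kd, tk, kx, kz, bk, ?_⟩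
    rw [← hv, ← hy, ← mul_one y, ← map_one φ, hd, mul_inv_cancel_left]
  · have := P3b.res (x := x) (h := h) (k := k)
      ⟨U, X.x3, X.xt, X.xw, X.xz, X.xa, bx, hh, hz, ht, hc, kk, kd, tk, kx, kz, bk, by
        rw [← hv, ← hy, hd, mul_inv_cancel_left]⟩ φ.range ⟨_, rfl⟩ ⟨_, rfl⟩ ⟨_, rfl⟩ ⟨_, rfl⟩
      ⟨_, rfl⟩ ⟨_, rfl⟩
    obtain ⟨c, rfl⟩ := this
    exact absurd (by rw [← X.xz, F.z_comm, mul_inv_cancel_right]) F.a_ne_z

end One

end Cfsg.H5
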