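import Cfsg.Agent.H5.J3B
import Cfsg.Agent.H9.Util
import Cfsg.Agent.H8.Frobenius

/-!
A subgroup of order 50232960 containing the involution centraliser is not strongly embedded.
-/

set_option autoImplicit false
set_option linter.unusedSectionVars false

namespace Cfsg.H5

open Subgroup H8
open scoped Pointwise

variable {G : Type*} [Group G] [Finite G]

theorem syl_modEq {p : ℕ} [Fact p.Prime] {P H : Subgroup G} (h : IsSyl p P H) :
    (normalizer (P : Set G)).relIndex H ≡ 1 [MOD p] := by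
  have := card_sylow_modEq_one p H
  rw [h.toSylow.card_eq_index_normalizer] at this
  rwa [relIndex, subgroupOf_normalizer_eq h.le]

theorem isSyl_zpowers {p : ℕ} {x : G} {H : Subgroup G} (hx : orderOf x = p) (hH : x ∈ H)
    (h : ¬ p * p ∣ Nat.card H) : IsSyl p (zpowers x) H := by
  refine ⟨zpowers_le.mpr hH, isPGroup_zpowers (k := 1) (by rw [pow_one, ← hx, pow_orderOf_eq_one]),
    fun k => h ?_⟩
  rw [← card_mul_relIndex (zpowers_le.mpr hH), Nat.card_zpowers, hx]
  exact mul_dvd_mul_left p k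

theorem relIndex_cen_dvd {p : ℕ} (hp : p.Prime) {x : G} (hx : orderOf x = p) {X : Subgroup G}
    (h : X ≤ normalizer (zpowers x : Set G)) : (centralizer {x}).relIndex X ∣ p - 1 := by
  have := H9.relIndex_centralizer_dvd_card_mulAut h
  rwa [IsCyclic.card_mulAut, Nat.card_zpowers, hx, Nat.totient_prime hp,
    L0.centralizer_zpowers] at this

theorem mem_normalizer_zpowers {g y : G} (h : g * y * g⁻¹ ∈ zpowers y) :
    g ∈ normalizer (zpowers y : Set G) := mem_normalizer_of_forall (by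
  rintro _ ⟨k, rfl⟩
  rw [← conj_zpow]
  exact zpow_mem h k)

theorem norm19 {M : Subgroup G} (hd : Nat.card M ∣ 50232960) (ho : Odd (Nat.card M)) {y : G}
    (hy : orderOf y = 19) (hM : y ∈ M)
    (h : ¬ 17 ∣ Nat.card M ∨ ∃ p ∈ M, orderOf p = 17 ∧ p * y = y * p) {g : G} (hg : g ∈ M)
    (h1 : g ^ 19 = 1) : g ∈ zpowers y := by
  have : Fact (Nat.Prime 19) := ⟨by norm_num⟩
  have S := isSyl_zpowers hy hM fun k => absurd (k.trans hd) (by norm_num)
  refine S.mem_of_mem_normalizer hg ⟨1, h1⟩ (relIndex_eq_one.mp ?_ hg)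
  have m := syl_modEq S
  have e := card_inf_mul_relIndex (normalizer (zpowers y : Set G)) M
  generalize (normalizer (zpowers y : Set G)).relIndex M = i at m e
  have d : i ∣ Nat.card M := Dvd.intro_left _ e
  have c17 : ¬ 17 ∣ i := fun k => by
    rcases h with h | ⟨p, hp, h2, h3⟩
    · exact h (k.trans d)
    · have : 17 ∣ Nat.card (normalizer (zpowers y : Set G) ⊓ M : Subgroup G) :=
        h2 ▸ Subgroup.orderOf_dvd_natCard _ ⟨mem_normalizer_zpowers (by
          rw [h3, mul_inv_cancel_right]; exact mem_zpowers y), hp⟩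
      exact absurd ((e ▸ mul_dvd_mul this k).trans hd) (by norm_num)
  have c19 : ¬ 19 ∣ i := fun k => by
    unfold Nat.ModEq at m; omega
  have d2 : i ∣ 1215 := by
    have d3 : i ∣ 1215 * 19 * 17 * 2 ^ 7 := d.trans hd
    exact ((Nat.Prime.coprime_iff_not_dvd (by norm_num)).mpr c19).symm.dvd_of_dvd_mul_right
      (((Nat.Prime.coprime_iff_not_dvd (by norm_num)).mpr c17).symm.dvd_of_dvd_mul_right
        (((ho.of_dvd_nat d).coprime_two_right.pow_right 7).dvd_of_dvd_mul_right d3))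
  have : ∀ i < 1216, i ∣ 1215 → i % 19 = 1 % 19 → i = 1 := by decide +kernel
  exact this i (Nat.lt_succ_of_le (Nat.le_of_dvd (by norm_num) d2)) d2 m

theorem no_comm {K : Subgroup G} (hK : Nat.card K = 50232960)
    (odd : ∀ g ∈ K, orderOf g = 17 ∨ orderOf g = 19 →
      Odd (Nat.card (centralizer {g} ⊓ K : Subgroup G)))
    {p y : G} (hp : orderOf p = 17) (hy : orderOf y = 19) (pK : p ∈ K) (yK : y ∈ K)
    (c : p * y = y * p) : False := by
  have : Fact (Nat.Prime 17) := ⟨by norm_num⟩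
  have S := isSyl_zpowers hp pK (by rw [hK]; norm_num)
  have m := syl_modEq S
  have e := card_inf_mul_relIndex (normalizer (zpowers p : Set G)) K
  generalize (normalizer (zpowers p : Set G)).relIndex K = i at m e
  have le : normalizer (zpowers p : Set G) ⊓ K ≤ normalizer (zpowers y : Set G) := by
    rintro g ⟨g1, g2⟩
    refine mem_normalizer_zpowers (norm19 (hK ▸ card_dvd_of_le inf_le_right) (odd p pK (Or.inl hp))
      hy ⟨mem_centralizer_singleton_iff.mpr c.symm, yK⟩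
      (Or.inr ⟨p, ⟨mem_centralizer_singleton_iff.mpr rfl, pK⟩, hp, c⟩)
      ⟨mem_centralizer_singleton_iff.mpr ?_, K.mul_mem (K.mul_mem g2 yK) (K.inv_mem g2)⟩
      (by rw [conj_pow, ← hy, pow_orderOf_eq_one]; simp))
    obtain ⟨k, hk⟩ := conj_mem_of_mem_normalizer' g1 (mem_zpowers p)
    have k1 : y * (g⁻¹ * p * g) = g⁻¹ * p * g * y := hk ▸ (Commute.zpow_right c.symm k).eq
    calc _ = g * (y * (g⁻¹ * p * g)) * g⁻¹ := by group
      _ = _ := by rw [k1]; group
  have m1 : p ∈ normalizer (zpowers p : Set G) ⊓ K := ⟨le_normalizer (mem_zpowers p), pK⟩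
  have m2 : y ∈ normalizer (zpowers p : Set G) ⊓ K := ⟨mem_normalizer_zpowers (by
    rw [← c, mul_inv_cancel_right]; exact mem_zpowers p), yK⟩
  have lK : normalizer (zpowers p : Set G) ⊓ K ≤ K := inf_le_right
  generalize normalizer (zpowers p : Set G) ⊓ K = X at e le m1 m2 lK
  have d1 := relIndex_cen_dvd (by norm_num) hy le
  have d2 := card_inf_mul_relIndex (centralizer {y}) X
  have d3 : Odd (Nat.card (centralizer {y} ⊓ X : Subgroup G)) :=
    (odd y yK (Or.inr hy)).of_dvd_nat (card_dvd_of_le (inf_le_inf_left _ lK))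
  obtain ⟨a, ha⟩ : 17 * 19 ∣ Nat.card X := Nat.Coprime.mul_dvd_of_dvd_of_dvd (by norm_num)
    (hp ▸ Subgroup.orderOf_dvd_natCard _ m1) (hy ▸ Subgroup.orderOf_dvd_natCard _ m2)
  have d4 : ¬ 4 ∣ a := fun k => by
    have : 2 ^ 2 ∣ Nat.card (centralizer {y} ⊓ X : Subgroup G) * (centralizer {y}).relIndex X :=
      d2 ▸ ha ▸ k.mul_left _
    exact absurd (((d3.coprime_two_left.pow_left 2).dvd_of_dvd_mul_left this).trans d1) (by norm_num)
  have d5 : a * i = 155520 := by rw [ha, hK] at e; linarith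
  have key : ∀ b < 1216, b ∣ 1215 → 155520 / b % 17 ≠ 1 % 17 ∧ 77760 / b % 17 ≠ 1 % 17 := by
    decide +kernel
  have k2 : ∀ b, Odd b → b ∣ 155520 → b ∣ 1215 := fun b h1 h2 =>
    (h1.coprime_two_right.pow_right 7).dvd_of_dvd_mul_right (show b ∣ 1215 * 2 ^ 7 from h2)
  rcases Nat.even_or_odd a with ⟨b, rfl⟩ | k
  · have k3 := k2 b (Nat.odd_iff.mpr (by omega)) ⟨2 * i, by linarith⟩
    refine (key b (Nat.lt_succ_of_le (Nat.le_of_dvd (by norm_num) k3)) k3).2 ?_
    rwa [show 77760 = b * i by linarith, Nat.mul_div_cancel_left _ (Nat.pos_of_dvd_of_pos k3 (by norm_num))]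
  · have k3 := k2 a k ⟨i, d5.symm⟩
    refine (key a (Nat.lt_succ_of_le (Nat.le_of_dvd (by norm_num) k3)) k3).1 ?_
    rwa [← d5, Nat.mul_div_cancel_left _ k.pos]

theorem exists_comm {D : Subgroup G} (hd : Nat.card D ∣ 50232960) (ho : Odd (Nat.card D))
    (h : 17 * 19 ∣ Nat.card D) :
    ∃ p ∈ D, ∃ y ∈ D, orderOf p = 17 ∧ orderOf y = 19 ∧ p * y = y * p := by
  have : Fact (Nat.Prime 17) := ⟨by norm_num⟩
  have : Fact (Nat.Prime 19) := ⟨by norm_num⟩
  obtain ⟨p, pD, hp⟩ := exists_orderOf_eq_of_dvd_card (dvd_of_mul_right_dvd h)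
  obtain ⟨y, yD, hy⟩ := exists_orderOf_eq_of_dvd_card (dvd_of_mul_left_dvd h)
  have S := isSyl_zpowers hp pD fun k => absurd (k.trans hd) (by norm_num)
  have N : NPC 17 D := burnside_npc S (by
    rw [L0.centralizer_zpowers, ← relIndex_eq_one]
    have d1 : _ ∣ 2 ^ 4 := relIndex_cen_dvd (by norm_num) hp (X := D ⊓ _) inf_le_right
    exact Nat.eq_one_of_dvd_coprimes (ho.coprime_two_left.pow_left 4) d1
      ((relIndex_dvd_card _ _).trans (card_dvd_of_le inf_le_left)))
  have yM : y ∈ pResidualOf 17 D := H7.mem_pResidualOf yD (by rw [hy]; norm_num)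
  have dM := card_dvd_of_le (H7.pResidualOf_le 17 D)
  have n := mem_normalizer_zpowers (norm19 (dM.trans hd) (ho.of_dvd_nat dM) hy yM
    (Or.inl ((Nat.Prime.coprime_iff_not_dvd (by norm_num)).mp N.symm))
    (conj_mem_of_mem_normalizer (H7.le_normalizer_pResidualOf 17 D pD) yM)
    (by rw [conj_pow, ← hy, pow_orderOf_eq_one]; simp))
  refine ⟨p, pD, y, yD, hp, hy, mem_centralizer_singleton_iff.mp
    (relIndex_eq_one.mp ?_ (mem_zpowers p))⟩
  have d1 := relIndex_cen_dvd (by norm_num) hy (zpowers_le.mpr n)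
  have d2 := relIndex_dvd_card (centralizer {y}) (zpowers p)
  rw [Nat.card_zpowers, hp] at d2
  exact Nat.eq_one_of_dvd_coprimes (by norm_num) d1 d2

theorem j3_top [IsSimpleGroup G] {K : Subgroup G} {z : G} (zK : z ∈ K) (zz : z * z = 1) (z1 : z ≠ 1)
    (hC : ∀ g, g * z = z * g → g ∈ K) (hc : Nat.card (centralizer {z}) = 1920)
    (hK : Nat.card K = 50232960)
    (one : ∀ s ∈ K, s * s = 1 → s ≠ 1 → ∃ g ∈ K, g * s * g⁻¹ = z) : K = ⊤ := by
  by_contra hne
  have : Fact (Nat.Prime 2) := ⟨Nat.prime_two⟩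
  have emb : ∀ g, ∀ u ∈ K, u * u = 1 → u ≠ 1 → g * u * g⁻¹ ∈ K → g ∈ K := by
    intro g u hu u2 u1 h
    obtain ⟨k, hk, e⟩ := one u hu u2 u1
    obtain ⟨k', hk', e'⟩ := one _ h (by rw [conj_mul, u2]; simp) (by simpa using u1)
    have := hC (k' * g * k⁻¹) (by
      nth_rewrite 1 [← e]
      rw [← e']; group)
    rwa [K.mul_mem_cancel_right (K.inv_mem hk), K.mul_mem_cancel_left hk'] at this
  have inv : ∀ {L : Subgroup G}, ¬ Odd (Nat.card L) → ∃ j ∈ L, j * j = 1 ∧ j ≠ 1 := by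
    intro L h
    obtain ⟨j, hj, e⟩ := exists_orderOf_eq_of_dvd_card (Nat.not_odd_iff_even.mp h).two_dvd
    exact ⟨j, hj, by rw [← pow_two, ← e, pow_orderOf_eq_one], by rintro rfl; simp at e⟩
  obtain ⟨s, sK, ss⟩ : ∃ s, s ∉ K ∧ s * s = 1 := by
    by_contra! h
    rcases (normalClosure_normal (s := {z})).eq_bot_or_eq_top with e | e
    · exact z1 (mem_bot.mp (e ▸ subset_normalClosure rfl))
    · refine hne (top_le_iff.mp (e ▸ (closure_le K).mpr fun x hx => ?_))
      obtain ⟨y, hy, hx'⟩ := Group.mem_conjugatesOfSet_iff.mp hx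
      by_contra k
      exact h x k (sq_of_isConj zz (hy ▸ hx'))
  have hv : ∀ u ∈ K, u * u = 1 → u ≠ 1 → ∃ v, v * v = 1 ∧ v * u * v⁻¹ = s := by
    intro u hu u2 u1
    have i1 := L0.inverts_mul_left u2 ss
    obtain ⟨g, hg, e⟩ := L0.exists_conj_of_odd_orderOf_mul u2 ss (by
      by_contra k
      obtain ⟨j, hj, j2, j1⟩ := inv (L := zpowers (u * s)) (by rwa [Nat.card_zpowers])
      have ji : j⁻¹ = j := inv_eq_of_mul_eq_one_right j2
      have jK := emb j u hu u2 u1 (by
        have := L0.inverts_of_mem_zpowers i1 hj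
        rw [ji, mul_inv_eq_iff_eq_mul] at this
        rwa [← this, mul_inv_cancel_right])
      exact sK (emb s j jK j2 j1 (by
        rwa [L0.inverts_of_mem_zpowers (L0.inverts_mul_right u2 ss) hj, ji])))
    exact ⟨g * u, L0.mul_self_of_inverts u2 (L0.inverts_of_mem_zpowers i1 hg), by rw [← e]; group⟩
  obtain ⟨v, vv, vz⟩ := hv z zK zz z1
  obtain ⟨D, hD⟩ : ∃ D : Subgroup G, ∀ g, g ∈ D ↔ g ∈ K ∧ v * g * v⁻¹ ∈ K :=
    ⟨K ⊓ K.comap (MulAut.conj v).toMonoidHom, fun g => Iff.rfl⟩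
  have DK : D ≤ K := fun g hg => ((hD g).mp hg).1
  have oD : Odd (Nat.card D) := by
    by_contra k
    obtain ⟨j, hj, j2, j1⟩ := inv k
    have := emb v j (DK hj) j2 j1 ((hD j).mp hj).2
    exact sK (vz ▸ K.mul_mem (K.mul_mem this zK) (K.inv_mem this))
  have fac := H1.card_mul_set_mul_card_inf D (centralizer {z})
  have e : ((D : Set G) * ((centralizer {z} : Subgroup G) : Set G) : Set G) = K := by
    refine Set.Subset.antisymm ?_ fun k hk => ?_
    · rintro _ ⟨a, ha, b, hb, rfl⟩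
      exact K.mul_mem (DK ha) (hC b (mem_centralizer_singleton_iff.mp hb))
    · have m : k * z * k⁻¹ ∈ K := K.mul_mem (K.mul_mem hk zK) (K.inv_mem hk)
      obtain ⟨w, ww, e⟩ := hv _ m (by rw [conj_mul, zz]; simp) (by simpa using z1)
      have wi : w⁻¹ = w := inv_eq_of_mul_eq_one_right ww
      have vi : v⁻¹ = v := inv_eq_of_mul_eq_one_right vv
      have e1 : w⁻¹ * v * z * (w⁻¹ * v)⁻¹ = k * z * k⁻¹ := by
        calc _ = w⁻¹ * (v * z * v⁻¹) * w := by group
          _ = _ := by rw [vz, ← e]; group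
      have dK := emb _ z zK zz z1 (e1 ▸ m)
      refine ⟨w⁻¹ * v, (hD _).mpr ⟨dK, ?_⟩, (w⁻¹ * v)⁻¹ * k, mem_centralizer_singleton_iff.mpr ?_,
        mul_inv_cancel_left _ _⟩
      · have := K.inv_mem dK
        rw [mul_inv_rev, inv_inv, vi] at this
        rwa [← mul_assoc, mul_inv_cancel_right, wi]
      · calc _ = (w⁻¹ * v)⁻¹ * (k * z * k⁻¹) * k := by group
          _ = _ := by rw [← e1]; group
  rw [e, hc] at fac
  obtain ⟨p, pD, y, yD, hp, hy, c⟩ := exists_comm (hK ▸ card_dvd_of_le DK) oD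
    ⟨81 * Nat.card (D ⊓ centralizer {z} : Subgroup G), by
      rw [show Nat.card (K : Set G) = 50232960 from hK] at fac; linarith⟩
  refine no_comm hK (fun g hg o => ?_) hp hy (DK pD) (DK yD) c
  by_contra k
  obtain ⟨j, ⟨hj, jK⟩, j2, j1⟩ := inv k
  obtain ⟨q, -, e⟩ := one j jK j2 j1
  have := Subgroup.orderOf_dvd_natCard _ (mem_centralizer_singleton_iff.mpr
    (show q * g * q⁻¹ * z = z * (q * g * q⁻¹) by
      rw [← e, conj_mul, conj_mul, mem_centralizer_singleton_iff.mp hj]))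
  rw [hc, ← MulAut.conj_apply, MulEquiv.orderOf_eq] at this
  rcases o with o | o <;> rw [o] at this <;> norm_num at this

end Cfsg.H5
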