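import Cfsg.Agent.H5.J3C
import Cfsg.Agent.H5.J3.Main
import Cfsg.Agent.H6.PG

/-!
A simple group with one class of involutions and centraliser `2^(1+4)_- . A₅` is the presented
group of order 50232960.
-/

set_option autoImplicit false

namespace Cfsg.H5

open Subgroup Cfsg.H6

theorem j3_equiv {G : Type*} [Group G] [Finite G] [IsSimpleGroup G] {z : G} (hz : orderOf z = 2)
    (Q : Subgroup (centralizer {z})) [Q.Normal] (hQ : IsExtraspecial 2 Q) (hc : Nat.card Q = 32)
    (h2 : centralizer (Q : Set (centralizer ({z} : Set G))) ≤ Q)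
    (e : centralizer ({z} : Set G) ⧸ Q ≃* alternatingGroup (Fin 5))
    (hone : ∀ x y : G, orderOf x = 2 → orderOf y = 2 → IsConj x y) : Nonempty (J3.Grp ≃* G) := by
  have : Fact (Nat.Prime 2) := ⟨Nat.prime_two⟩
  have := J3.simple
  obtain ⟨φ, F0⟩ := exists_cfg0 hz Q hQ hc h2 e hone
  have o : ∀ c : C0, c * c = 1 → c ≠ 1 → orderOf (φ c) = 2 := fun c h1 h2 => by
    rw [orderOf_injective φ F0.inj]
    exact orderOf_eq_prime (by rw [pow_two, h1]) h2
  have oz := o C0.z (by decide +kernel) (by decide +kernel)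
  have F : One φ := ⟨F0, hone _ _ (o _ (by decide +kernel) (by decide +kernel)) oz,
    hone _ _ (o _ (by decide +kernel) (by decide +kernel)) oz⟩
  obtain ⟨x, h, k, R⟩ := F.exists_rel
  obtain ⟨π, hπ⟩ := J3.lift (P3.good R) (P3.rels R)
  have inj := injective_of_simple π (x := J3.ev 3) (by rw [hπ]; exact F.z_ne)
  have hK : ∀ c, φ c ∈ π.range := fun c => by
    have m : ∀ l, P3.ev (φ C0.a0) (φ C0.a2) (φ C0.z) (φ C0.w) (φ C0.t) (φ C0.u) x h k l ∈ π.range :=
      fun l => ⟨_, hπ l⟩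
    have := C0.eq_top (π.range.comap φ) (m 1) (by
      rw [C0.r_eq]
      exact mul_mem (mul_mem (mul_mem (mul_mem (m 4) (m 7)) (m 4)) (m 5)) (m 4)) (m 5)
    exact show c ∈ π.range.comap φ from this ▸ mem_top c
  have top : π.range = ⊤ := j3_top (hK C0.z) R.hC.hN.zz F.z_ne
    (fun g hg => by obtain ⟨c, rfl⟩ := F.cen g hg; exact hK c) F.card_cen
    (by rw [← Nat.card_congr (MonoidHom.ofInjective inj).toEquiv, J3.main.1])
    (fun s hs s2 s1 => by
      have := J3.finite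
      obtain ⟨g, hg, e | e | e⟩ := F.invol_cases hK hs s2 s1
      · exact ⟨g, hg, e⟩
      · refine ⟨x⁻¹ * g, mul_mem (inv_mem ⟨_, hπ 8⟩) hg, ?_⟩
        calc _ = x⁻¹ * (g * s * g⁻¹) * x := by group
          _ = _ := by rw [e, ← R.xz]; group
      · refine ⟨h⁻¹ * g, mul_mem (inv_mem ⟨_, hπ 10⟩) hg, ?_⟩
        calc _ = h⁻¹ * (g * s * g⁻¹) * h := by group
          _ = _ := by rw [e, ← R.hz, mul_assoc, mul_assoc, R.hh]; group)
  exact ⟨MulEquiv.ofBijective π ⟨inj, MonoidHom.range_eq_top.mp top⟩⟩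

end Cfsg.H5
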